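import Cfsg.Agent.GeomClasses.Aschbacher.Rel.Basic

/-! # Adjoints with respect to a reflexive sesquilinear form -/

set_option autoImplicit false

namespace Cfsg.Agent.GeomClasses.AschRel

open Matrix Cfsg.Geo
open Cfsg.Agent.GeomClasses.Asch (Irr Normalises conjHom conjHom_apply centre mem_centre)

variable {F : Type*} [Field F] {ι : Type} [Fintype ι] [DecidableEq ι]

/-- A nondegenerate hermitian-type form given by its Gram matrix. -/
structure FormData (σ : F ≃+* F) (B : Matrix ι ι F) (ε : F) : Prop where
  invol : ∀ a, σ (σ a) = a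
  unit : IsUnit B.det
  ne_zero : ε ≠ 0
  swap : ∀ u v, matForm σ B v u = ε * σ (matForm σ B u v)

variable {σ : F ≃+* F} {B : Matrix ι ι F} {ε : F}

theorem mf_add_left (x y v : ι → F) : matForm σ B (x + y) v = matForm σ B x v + matForm σ B y v :=
  add_dotProduct x y _

theorem mf_smul_left (c : F) (x v : ι → F) : matForm σ B (c • x) v = c * matForm σ B x v := by
  simp [matForm, smul_dotProduct]

theorem mf_add_right (v x y : ι → F) : matForm σ B v (x + y) = matForm σ B v x + matForm σ B v y := by
  have e : (fun i => σ ((x + y) i)) = (fun i => σ (x i)) + fun i => σ (y i) := funext fun i => map_add σ _ _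
  rw [matForm, e, Matrix.mulVec_add, dotProduct_add]
  rfl

theorem mf_smul_right (c : F) (v x : ι → F) : matForm σ B v (c • x) = σ c * matForm σ B v x := by
  have e : (fun i => σ ((c • x) i)) = σ c • fun i => σ (x i) := funext fun i => map_mul σ _ _
  rw [matForm, e, Matrix.mulVec_smul, dotProduct_smul, smul_eq_mul]
  rfl

theorem mf_sum_right {α : Type*} (s : Finset α) (v : ι → F) (x : α → ι → F) :
    matForm σ B v (∑ a ∈ s, x a) = ∑ a ∈ s, matForm σ B v (x a) := by
  classical
  induction s using Finset.induction_on with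
  | empty =>
    rw [Finset.sum_empty, Finset.sum_empty, ← zero_smul F (0 : ι → F), mf_smul_right, map_zero, zero_mul]
  | insert a s ha ih => rw [Finset.sum_insert ha, Finset.sum_insert ha, mf_add_right, ih]

theorem mf_sum_left {α : Type*} (s : Finset α) (x : α → ι → F) (v : ι → F) :
    matForm σ B (∑ a ∈ s, x a) v = ∑ a ∈ s, matForm σ B (x a) v := by
  simp [matForm, sum_dotProduct]

theorem mf_zero_left (v : ι → F) : matForm σ B 0 v = 0 := by simp [matForm]

/-- The adjoint of an operator. -/
noncomputable def st (σ : F ≃+* F) (B : Matrix ι ι F) (X : Module.End F (ι → F)) : Module.End F (ι → F) :=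
  Matrix.toLin' ((B⁻¹ * (LinearMap.toMatrix' X)ᵀ * B).map σ)

variable (h : FormData σ B ε)
include h

theorem ext_right {u v : ι → F} (he : ∀ w, matForm σ B w u = matForm σ B w v) : u = v := by
  have e : (B *ᵥ fun i => σ (u i)) = B *ᵥ fun i => σ (v i) := dotProduct_eq _ _ fun w => by
    rw [dotProduct_comm, dotProduct_comm (B *ᵥ fun i => σ (v i))]; exact he w
  exact funext fun i => σ.injective (congrFun (Matrix.mulVec_injective_iff_isUnit.mpr
    ((Matrix.isUnit_iff_isUnit_det _).mpr h.unit) e) i)

theorem adjoint (X : Module.End F (ι → F)) (u v : ι → F) :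
    matForm σ B (X u) v = matForm σ B u (st σ B X v) := by
  set Y := LinearMap.toMatrix' X
  have hX : X u = Y *ᵥ u := by rw [← Matrix.toLin'_apply, Matrix.toLin'_toMatrix']
  have hmap : ((B⁻¹ * Yᵀ * B).map σ).map σ = B⁻¹ * Yᵀ * B := by
    ext i j
    rw [Matrix.map_apply, Matrix.map_apply, h.invol]
  rw [hX, st, Matrix.toLin'_apply, matForm, matForm, mulVec_twist, hmap, Matrix.mulVec_mulVec, ← mul_assoc,
    ← mul_assoc, Matrix.mul_nonsing_inv B h.unit, one_mul, ← Matrix.mulVec_mulVec, Matrix.dotProduct_mulVec u Yᵀ,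
    Matrix.vecMul_transpose]

theorem st_unique {X Y : Module.End F (ι → F)} (he : ∀ u v, matForm σ B (X u) v = matForm σ B u (Y v)) :
    st σ B X = Y :=
  LinearMap.ext fun v => ext_right h fun u => by rw [← adjoint h, he]

theorem st_mul (X Y : Module.End F (ι → F)) : st σ B (X * Y) = st σ B Y * st σ B X :=
  st_unique h fun u v => by rw [Module.End.mul_apply, adjoint h, adjoint h, Module.End.mul_apply]

theorem st_add (X Y : Module.End F (ι → F)) : st σ B (X + Y) = st σ B X + st σ B Y :=
  st_unique h fun u v => by rw [LinearMap.add_apply, mf_add_left, adjoint h, adjoint h, LinearMap.add_apply, mf_add_right]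

theorem st_algebraMap (c : F) : st σ B (algebraMap F _ c) = algebraMap F _ (σ c) :=
  st_unique h fun u v => by
    rw [Module.algebraMap_end_apply, Module.algebraMap_end_apply, mf_smul_left, mf_smul_right, h.invol]

theorem st_one : st σ B 1 = 1 := st_unique h fun _ _ => rfl

theorem st_zero : st σ B 0 = 0 := st_unique h fun u v => by
  rw [LinearMap.zero_apply, LinearMap.zero_apply, mf_zero_left, ← zero_smul F (0 : ι → F), mf_smul_right, map_zero,
    zero_mul]

theorem st_smul (c : F) (X : Module.End F (ι → F)) : st σ B (c • X) = σ c • st σ B X := by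
  rw [Algebra.smul_def, st_mul h, st_algebraMap h, ← Algebra.commutes, ← Algebra.smul_def]

theorem st_st (X : Module.End F (ι → F)) : st σ B (st σ B X) = X :=
  st_unique h fun u v => by
    refine σ.injective (mul_left_cancel₀ h.ne_zero ?_)
    rw [← h.swap, ← h.swap, adjoint h]

theorem st_injective : Function.Injective (st σ B) := fun a b e => by rw [← st_st h a, e, st_st h]

theorem st_pow (X : Module.End F (ι → F)) (k : ℕ) : st σ B (X ^ k) = st σ B X ^ k := by
  induction k with
  | zero => rw [pow_zero, pow_zero, st_one h]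
  | succ k ih => rw [pow_succ, pow_succ', st_mul h, ih]

omit h in
/-- Similarities of the form. -/
def IsSim (σ : F ≃+* F) (B : Matrix ι ι F) (g : GL ι F) : Prop :=
  ∃ c : F, c ≠ 0 ∧ ∀ u v, matForm σ B ((g : Matrix ι ι F) *ᵥ u) ((g : Matrix ι ι F) *ᵥ v) = c * matForm σ B u v

theorem sim_mult {g : GL ι F} {c : F}
    (hg : ∀ u v, matForm σ B ((g : Matrix ι ι F) *ᵥ u) ((g : Matrix ι ι F) *ᵥ v) = c * matForm σ B u v) :
    st σ B (gu g : Module.End F (ι → F)) = σ c • ((gu g)⁻¹).val :=
  st_unique h fun u v => by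
    have e : (gu g : Module.End F (ι → F)) (((gu g)⁻¹).val v) = v := by
      rw [← Module.End.mul_apply, Units.mul_inv, Module.End.one_apply]
    conv_lhs => rw [← e, gu_apply, gu_apply, hg]
    rw [LinearMap.smul_apply, mf_smul_right, h.invol]

theorem st_gu_mem {N : Subgroup (GL ι F)} (hN : ∀ g ∈ N, IsSim σ B g) {g : GL ι F} (hg : g ∈ N) :
    st σ B (gu g : Module.End F (ι → F)) ∈ env N := by
  obtain ⟨c, -, hc⟩ := hN g hg
  rw [sim_mult h hc, ← map_inv]
  exact Subalgebra.smul_mem _ (mem_env (inv_mem hg)) _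

/-- The enveloping algebra of a group of similarities is closed under adjoints. -/
theorem env_closed {N : Subgroup (GL ι F)} (hN : ∀ g ∈ N, IsSim σ B g) :
    ∀ X ∈ env N, st σ B X ∈ env N := by
  let A : Subalgebra F (Module.End F (ι → F)) :=
    { carrier := {X | st σ B X ∈ env N}
      mul_mem' := fun {a b} ha hb => by
        simp only [Set.mem_setOf_eq] at *; rw [st_mul h]; exact mul_mem hb ha
      one_mem' := by simp only [Set.mem_setOf_eq]; rw [st_one h]; exact one_mem _
      add_mem' := fun {a b} ha hb => by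
        simp only [Set.mem_setOf_eq] at *; rw [st_add h]; exact add_mem ha hb
      zero_mem' := by simp only [Set.mem_setOf_eq]; rw [st_zero h]; exact zero_mem _
      algebraMap_mem' := fun c => by
        simp only [Set.mem_setOf_eq]; rw [st_algebraMap h]; exact Subalgebra.algebraMap_mem _ _ }
  have : env N ≤ A := Algebra.adjoin_le (by rintro _ ⟨g, hg, rfl⟩; exact st_gu_mem h hN hg)
  exact fun X hX => this hX

theorem commute_st {A : Subalgebra F (Module.End F (ι → F))} (hA : ∀ X ∈ A, st σ B X ∈ A)
    {Y : Module.End F (ι → F)} (hY : ∀ a ∈ A, Commute Y a) : ∀ a ∈ A, Commute (st σ B Y) a := fun a ha => by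
  have e := congrArg (st σ B) (hY _ (hA a ha)).eq
  rw [st_mul h, st_mul h, st_st h] at e
  exact e.symm

theorem centre_closed {A : Subalgebra F (Module.End F (ι → F))} (hA : ∀ X ∈ A, st σ B X ∈ A) :
    ∀ X ∈ centre A, st σ B X ∈ centre A := by
  intro X hX
  rw [mem_centre] at hX ⊢
  refine ⟨commute_st h hA hX.1, fun Y hY => ?_⟩
  have e := congrArg (st σ B) (hX.2 (st σ B Y) (commute_st h hA hY)).eq
  rw [st_mul h, st_mul h, st_st h] at e
  exact e.symm

theorem st_conj {g : GL ι F} (hg : IsSim σ B g) (X : Module.End F (ι → F)) :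
    st σ B (conjHom (gu g) X) = conjHom (gu g) (st σ B X) := by
  obtain ⟨c, hc0, hc⟩ := hg
  obtain ⟨d, hd0, hd⟩ : ∃ d : F, d ≠ 0 ∧
      st σ B (((gu g)⁻¹).val) = d • (gu g : Module.End F (ι → F)) := by
    refine ⟨(c : F)⁻¹, inv_ne_zero hc0, ?_⟩
    refine st_injective h ?_
    rw [st_st h, st_smul h, sim_mult h hc, smul_smul, ← map_mul, inv_mul_cancel₀ hc0, map_one, one_smul]
  rcases subsingleton_or_nontrivial (Module.End F (ι → F)) with hsub | hnt
  · exact Subsingleton.elim _ _
  have hcd : σ c * d = 1 := by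
    refine smul_left_injective F (show (1 : Module.End F (ι → F)) ≠ 0 from fun h1 => ?_) ?_
    · exact (gu g).ne_zero (by rw [← mul_one (gu g : Module.End F (ι → F)), h1, mul_zero])
    show (σ c * d) • (1 : Module.End F (ι → F)) = (1 : F) • 1
    have e : st σ B ((gu g : Module.End F (ι → F)) * ((gu g)⁻¹).val) = 1 := by rw [Units.mul_inv, st_one h]
    rw [st_mul h, hd, sim_mult h hc, smul_mul_smul_comm, Units.mul_inv, mul_comm d] at e
    rw [e, one_smul]
  rw [conjHom_apply, conjHom_apply, st_mul h, st_mul h, hd, sim_mult h hc, smul_mul_assoc, mul_smul_comm, mul_smul_comm,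
    smul_smul, mul_comm d, hcd, one_smul, mul_assoc]

end Cfsg.Agent.GeomClasses.AschRel
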