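import Cfsg.Prelude.Def_GeometricClasses
import Cfsg.Agent.GeomClasses.Aschbacher.Centre
import Cfsg.Agent.GeomClasses.Aschbacher.Factors
import Cfsg.Agent.GeomClasses.DecompTools

/-! # Spanning groups of matrices on an arbitrary index type -/

set_option autoImplicit false

namespace Cfsg.Agent.GeomClasses.AschRel

open Matrix Cfsg.Geo
open scoped commutatorElement
open Cfsg.Agent.GeomClasses.Asch (Irr Normalises conjHom conjHom_apply)

variable {F : Type*} [Field F] {ι : Type} [Fintype ι] [DecidableEq ι]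

/-- The matrices of the set span the whole matrix algebra. -/
def Full (N : Subgroup (GL (ι) F)) : Prop :=
  Submodule.span F (matrixSet N) = ⊤

theorem Full.comm_scalar {N : Subgroup (GL (ι) F)} (hN : Full N) {M : Matrix (ι) (ι) F}
    (h : ∀ x ∈ N, M * (x : Matrix (ι) (ι) F) = (x : Matrix (ι) (ι) F) * M) :
    ∃ c : F, M = c • (1 : Matrix (ι) (ι) F) := by
  have hall : ∀ X : Matrix (ι) (ι) F, M * X = X * M := by
    intro X
    have hX : X ∈ Submodule.span F (matrixSet N) := hN ▸ trivial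
    induction hX using Submodule.span_induction with
    | mem y hy => obtain ⟨x, hx, rfl⟩ := hy; exact h x hx
    | zero => simp
    | add a b _ _ ha hb => rw [mul_add, add_mul, ha, hb]
    | smul c a _ ha => rw [Matrix.mul_smul, Matrix.smul_mul, ha]
  obtain ⟨c, hc⟩ := Matrix.mem_range_scalar_iff_commute_single'.mpr
    (fun i j => (hall (Matrix.single i j 1)).symm : ∀ i j, Commute (Matrix.single i j (1 : F)) M)
  exact ⟨c, by rw [← hc, Matrix.scalar_apply, Matrix.smul_one_eq_diagonal]⟩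

theorem Full.absIrred {N : Subgroup (GL (ι) F)} (hN : Full N) : ActsAbsolutelyIrreducibly (matrixSet N) := by
  refine ⟨fun W hW => (eq_or_ne W ⊥).imp_right fun h0 => eq_top_iff.mpr fun v _ => ?_, fun M hM =>
    hN.comm_scalar fun x hx => hM _ ⟨x, hx, rfl⟩⟩
  obtain ⟨w, hw, hw0⟩ := (Submodule.ne_bot_iff W).mp h0
  obtain ⟨j, hj⟩ := Function.ne_iff.mp hw0
  have hall : ∀ X : Matrix (ι) (ι) F, X *ᵥ w ∈ W := by
    intro X
    have hX : X ∈ Submodule.span F (matrixSet N) := hN ▸ trivial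
    induction hX using Submodule.span_induction with
    | mem y hy => exact hW y hy ⟨w, hw, Matrix.toLin'_apply _ _⟩
    | zero => simp
    | add a b _ _ ha hb => rw [Matrix.add_mulVec]; exact add_mem ha hb
    | smul c a _ ha => rw [Matrix.smul_mulVec]; exact W.smul_mem c ha
  have := hall (Matrix.vecMulVec v (Pi.single j (w j)⁻¹))
  rwa [Matrix.vecMulVec_mulVec, single_dotProduct, inv_mul_cancel₀ (by simpa using hj), MulOpposite.op_one,
    one_smul] at this

/-- The form of a matrix, twisted by an automorphism. -/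
def matForm (σ : F ≃+* F) (B : Matrix (ι) (ι) F) (u v : ι → F) : F :=
  u ⬝ᵥ (B *ᵥ fun i => σ (v i))

theorem mulVec_twist (σ : F ≃+* F) (g : Matrix (ι) (ι) F) (v : ι → F) :
    (fun i => σ ((g *ᵥ v) i)) = g.map σ *ᵥ fun i => σ (v i) :=
  funext fun i => RingHom.map_mulVec σ.toRingHom g v i

theorem matForm_apply (σ : F ≃+* F) (B g : Matrix (ι) (ι) F) (u v : ι → F) :
    matForm σ B (g *ᵥ u) (g *ᵥ v) = matForm σ (gᵀ * B * g.map σ) u v := by
  rw [matForm, matForm, mulVec_twist, Matrix.mulVec_mulVec, ← Matrix.mulVec_mulVec (N := g.map σ),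
    ← Matrix.mulVec_mulVec (N := g.map σ) (M := gᵀ * B), ← Matrix.mulVec_mulVec (M := gᵀ) (N := B),
    Matrix.dotProduct_mulVec u gᵀ, Matrix.vecMul_transpose]

theorem matForm_single (σ : F ≃+* F) (B : Matrix (ι) (ι) F) (i j : ι) :
    matForm σ B (Pi.single i 1) (Pi.single j 1) = B i j := by
  rw [matForm, show (fun k => σ ((Pi.single j 1 : ι → F) k)) = Pi.single j 1 from funext fun k => by
    by_cases h : k = j
    · subst h; simp
    · simp [Pi.single_eq_of_ne h]]
  simp

theorem mem_similarity {σ : F ≃+* F} {B : Matrix (ι) (ι) F} {g : GL (ι) F} {c : Fˣ}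
    (h : (g : Matrix (ι) (ι) F)ᵀ * B * (g : Matrix (ι) (ι) F).map σ = (c : F) • B) :
    g ∈ similarityGroup (matForm σ B) := by
  refine ⟨c, fun u v => ?_⟩
  rw [matForm_apply, h, matForm, matForm, Matrix.smul_mulVec, dotProduct_smul, smul_eq_mul]

theorem nondeg_matForm {σ : F ≃+* F} {B : Matrix (ι) (ι) F} (hB : IsUnit B.det) :
    IsNondegenerateForm (matForm σ B) := by
  intro v hv
  obtain ⟨i, hi⟩ := Function.ne_iff.mp hv
  have hcol : ∀ y : ι → F, ∃ w, (B *ᵥ w) = y := fun y =>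
    ⟨B⁻¹ *ᵥ y, by rw [Matrix.mulVec_mulVec, Matrix.mul_nonsing_inv B hB, Matrix.one_mulVec]⟩
  constructor
  · have hne : (B *ᵥ fun k => σ (v k)) ≠ 0 := fun h0 => hv (funext fun k => by
      have := congrArg (B⁻¹ *ᵥ ·) h0
      simp only [Matrix.mulVec_mulVec, Matrix.nonsing_inv_mul B hB, Matrix.one_mulVec, Matrix.mulVec_zero] at this
      exact σ.injective (by rw [congrFun this k]; simp))
    obtain ⟨k, hk⟩ := Function.ne_iff.mp hne
    exact ⟨Pi.single k 1, by rw [matForm, single_dotProduct, one_mul]; exact hk⟩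
  · obtain ⟨w, hw⟩ := hcol (Pi.single i 1)
    refine ⟨fun k => σ.symm (w k), ?_⟩
    simpa [matForm, hw] using hi

/-- The Gram matrix. -/
def gram (f : (ι → F) → (ι → F) → F) : Matrix (ι) (ι) F :=
  Matrix.of fun i j => f (Pi.single i 1) (Pi.single j 1)

theorem eq_matForm {σ : F ≃+* F} {f : (ι → F) → (ι → F) → F}
    (h1 : ∀ x y v, f (x + y) v = f x v + f y v) (h2 : ∀ (c : F) x v, f (c • x) v = c * f x v)
    (h3 : ∀ v x y, f v (x + y) = f v x + f v y) (h4 : ∀ (c : F) v x, f v (c • x) = σ c * f v x)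
    (u v : ι → F) : f u v = matForm σ (gram f) u v := by
  let L : (ι → F) → (ι → F) →+ F := fun v => AddMonoidHom.mk' (fun x => f x v) fun x y => h1 x y v
  let R : (ι → F) → (ι → F) →+ F := fun u => AddMonoidHom.mk' (fun x => f u x) fun x y => h3 u x y
  have eu : ∀ w : ι → F, w = ∑ i, w i • (Pi.single i (1 : F) : ι → F) := fun w => by
    funext k; simp [Finset.sum_apply, Pi.single_apply]
  calc f u v = L v (∑ i, u i • Pi.single i 1) := by rw [← eu]; rfl
    _ = ∑ i, u i * f (Pi.single i 1) v := by rw [map_sum]; exact Finset.sum_congr rfl fun i _ => h2 _ _ _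
    _ = ∑ i, u i * R (Pi.single i 1) (∑ j, v j • Pi.single j 1) := by rw [← eu]; rfl
    _ = _ := by
      simp only [matForm, dotProduct, Matrix.mulVec, map_sum]
      refine Finset.sum_congr rfl fun i _ => congrArg _ (Finset.sum_congr rfl fun j _ => ?_)
      show f (Pi.single i 1) (v j • Pi.single j 1) = gram f i j * σ (v j)
      rw [h4]; exact mul_comm _ _

theorem isUnit_of_nondeg {σ : F ≃+* F} {B : Matrix (ι) (ι) F} (h : IsNondegenerateForm (matForm σ B)) :
    IsUnit B.det := by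
  refine isUnit_iff_ne_zero.mpr fun h0 => ?_
  obtain ⟨v, hv, hBv⟩ := Matrix.exists_mulVec_eq_zero_iff.mpr h0
  obtain ⟨⟨x, hx⟩, -⟩ := h (fun i => σ.symm (v i)) fun h' => hv (funext fun i => by
    simpa using congrFun h' i)
  exact hx (by simp [matForm, hBv])

theorem fix_gram {σ : F ≃+* F} {B g : Matrix (ι) (ι) F}
    (h : ∀ u v, matForm σ B (g *ᵥ u) (g *ᵥ v) = matForm σ B u v) : gᵀ * B * g.map σ = B := by
  ext i j
  rw [← matForm_single σ (gᵀ * B * g.map σ) i j, ← matForm_apply, h, matForm_single]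

/-- An invertible matrix as an invertible operator. -/
noncomputable def gu : GL (ι) F →* (Module.End F (ι → F))ˣ :=
  Units.map (Matrix.toLinAlgEquiv' : Matrix (ι) (ι) F ≃ₐ[F] _).toAlgHom.toMonoidHom

theorem gu_coe (g : GL (ι) F) :
    (gu g : Module.End F (ι → F)) = Matrix.toLin' (g : Matrix (ι) (ι) F) := rfl

theorem gu_apply (g : GL (ι) F) (v : ι → F) :
    (gu g : Module.End F (ι → F)) v = (g : Matrix (ι) (ι) F) *ᵥ v := Matrix.toLin'_apply _ _

section Coord

variable {κ : Type} [Fintype κ] [DecidableEq κ] (b : Module.Basis κ F (ι → F))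

/-- The matrix of an operator in a basis. -/
noncomputable def coordGL : GL (ι) F →* GL κ F :=
  (Units.map (LinearMap.toMatrixAlgEquiv b).toAlgHom.toMonoidHom).comp gu

theorem coordGL_apply (g : GL (ι) F) (x y : κ) :
    (coordGL b g : Matrix κ κ F) x y = b.repr ((gu g : Module.End F (ι → F)) (b y)) x :=
  LinearMap.toMatrixAlgEquiv_apply b _ x y

/-- The change of coordinates. -/
noncomputable def frameGL (e : ι ≃ κ) : GL (ι) F :=
  ⟨(Pi.basisFun F (ι)).toMatrix (b.reindex e.symm), (b.reindex e.symm).toMatrix (Pi.basisFun F (ι)),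
    Module.Basis.toMatrix_mul_toMatrix_flip _ _, Module.Basis.toMatrix_mul_toMatrix_flip _ _⟩

theorem conj_coord (e : ι ≃ κ) (g : GL (ι) F) :
    frameGL b e * glReindex e.symm (coordGL b g) * (frameGL b e)⁻¹ = g := by
  have hre : ((glReindex e.symm (coordGL b g) : GL (ι) F) : Matrix (ι) (ι) F) =
      LinearMap.toMatrix (b.reindex e.symm) (b.reindex e.symm) (Matrix.toLin' (g : Matrix (ι) (ι) F)) := by
    ext x y
    show (coordGL b g : Matrix κ κ F) (e.symm.symm x) (e.symm.symm y) = _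
    rw [coordGL_apply, LinearMap.toMatrix_apply, gu_coe]
    simp
  refine Units.ext ?_
  rw [Units.val_mul, Units.val_mul, hre]
  show (Pi.basisFun F (ι)).toMatrix (b.reindex e.symm) * _ * (b.reindex e.symm).toMatrix (Pi.basisFun F (ι)) = _
  rw [basis_toMatrix_mul_linearMap_toMatrix_mul_basis_toMatrix, LinearMap.toMatrix_eq_toMatrix',
    LinearMap.toMatrix'_toLin']

theorem le_conj_reindex {H : Subgroup (GL (ι) F)} {K : Subgroup (GL κ F)} (e : ι ≃ κ)
    (h : ∀ g ∈ H, coordGL b g ∈ K) :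
    H ≤ (K.map (glReindex e.symm).toMonoidHom).map (MulAut.conj (frameGL b e)).toMonoidHom := by
  intro g hg
  refine ⟨glReindex e.symm (coordGL b g), ⟨coordGL b g, h g hg, rfl⟩, ?_⟩
  exact conj_coord b e g

include b in
theorem finEquiv : Nonempty (ι ≃ κ) :=
  ⟨Fintype.equivOfCardEq (by rw [← Module.finrank_eq_card_basis b, Module.finrank_fintype_fun_eq_card])⟩

end Coord

/-- The subgroup `N` is carried into itself by `K`. -/
def NormalisedBy (K N : Subgroup (GL (ι) F)) : Prop :=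
  ∀ g ∈ K, ∀ x ∈ N, g * x * g⁻¹ ∈ N

/-- The operators of a subgroup. -/
def opSet (N : Subgroup (GL (ι) F)) : Set (Module.End F (ι → F)) :=
  (fun g : GL (ι) F => (gu g : Module.End F (ι → F))) '' N

/-- The enveloping algebra of a subgroup. -/
noncomputable def env (N : Subgroup (GL (ι) F)) : Subalgebra F (Module.End F (ι → F)) :=
  Algebra.adjoin F (opSet N)

theorem mem_env {N : Subgroup (GL (ι) F)} {g : GL (ι) F} (hg : g ∈ N) :
    (gu g : Module.End F (ι → F)) ∈ env N :=
  Algebra.subset_adjoin ⟨g, hg, rfl⟩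

theorem env_conj_mem {N : Subgroup (GL (ι) F)} {g : GL (ι) F} (h : ∀ x ∈ N, g * x * g⁻¹ ∈ N)
    {X : Module.End F (ι → F)} (hX : X ∈ env N) :
    (gu g : Module.End F (ι → F)) * X * ((gu g)⁻¹).val ∈ env N := by
  have : env N ≤ (env N).comap (conjHom (gu g)) := by
    refine Algebra.adjoin_le ?_
    rintro _ ⟨x, hx, rfl⟩
    show (gu g : Module.End F (ι → F)) * (gu x : Module.End F (ι → F)) * ((gu g)⁻¹).val ∈ env N
    rw [← map_inv, ← Units.val_mul, ← Units.val_mul, ← map_mul, ← map_mul]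
    exact mem_env (h x hx)
  exact this hX

theorem normalises_env {K N : Subgroup (GL (ι) F)} (hN : NormalisedBy K N) {g : GL (ι) F} (hg : g ∈ K) :
    Normalises (env N) (gu g) := by
  intro X
  refine ⟨env_conj_mem (hN g hg), fun h => ?_⟩
  have := env_conj_mem (hN g⁻¹ (inv_mem hg)) h
  simpa [mul_assoc] using this

theorem mem_scalars_of_op {g : GL (ι) F} {c : F}
    (h : (gu g : Module.End F (ι → F)) = algebraMap F _ c) : g ∈ scalars (ι) F := by
  have hc : (g : Matrix (ι) (ι) F) = c • 1 := by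
    have := congrArg LinearMap.toMatrix' h
    rw [gu_coe, LinearMap.toMatrix'_toLin', Algebra.algebraMap_eq_smul_one, map_smul] at this
    rw [this]; congr 1; exact LinearMap.toMatrix'_id
  rcases isEmpty_or_nonempty ι with hι | hι
  · exact (mem_scalars_iff g).mpr ⟨1, Subsingleton.elim _ _⟩
  refine (mem_scalars_iff g).mpr ⟨Units.mk0 c fun h0 => ?_, hc⟩
  exact g.ne_zero (by rw [hc, h0, zero_smul])

theorem op_span_eq_top {N : Subgroup (GL (ι) F)} (h : env N = ⊤) : Full N := by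
  have h1 : Submodule.span F (opSet N) = ⊤ := by
    have hsub : opSet N = (Submonoid.map ((Units.coeHom _).comp gu) N.toSubmonoid : Set (Module.End F (ι → F))) := rfl
    have := congrArg Subalgebra.toSubmodule h
    rw [env, Algebra.adjoin_eq_span, hsub, Submonoid.closure_eq, Algebra.top_toSubmodule, ← hsub] at this
    exact this
  show Submodule.span F (matrixSet N) = ⊤
  have h2 : opSet N = Matrix.toLin' '' (matrixSet N) := by
    rw [opSet, matrixSet, Set.image_image]; rfl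
  rw [h2, show (⇑(Matrix.toLin' (R := F) (m := ι) (n := ι))) =
    ⇑(Matrix.toLin' (R := F) (m := ι) (n := ι)).toLinearMap from rfl, ← Submodule.map_span] at h1
  refine Submodule.map_injective_of_injective (f := (Matrix.toLin' (R := F) (m := ι) (n := ι)).toLinearMap)
    Matrix.toLin'.injective ?_
  rw [Submodule.map_top, LinearEquiv.range]
  exact h1

local notation "Zs" => scalars ι F

theorem scalars_comm {z : GL (ι) F} (hz : z ∈ Zs) (g : GL (ι) F) : z * g = g * z := by
  obtain ⟨c, hc⟩ := (mem_scalars_iff z).mp hz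
  refine Units.ext ?_
  rw [Units.val_mul, Units.val_mul, hc, Matrix.smul_mul, Matrix.mul_smul, one_mul, mul_one]

theorem commutatorElement_central {a b z w : GL (ι) F} (hz : z ∈ Zs) (hw : w ∈ Zs) :
    ⁅a * z, b * w⁆ = ⁅a, b⁆ := by
  have e1 : ∀ g, z * g = g * z := scalars_comm hz
  have e2 : ∀ g, w * g = g * w := scalars_comm hw
  simp only [commutatorElement_def, _root_.mul_inv_rev]
  calc a * z * (b * w) * (z⁻¹ * a⁻¹) * (w⁻¹ * b⁻¹) = a * (z * (b * w)) * z⁻¹ * a⁻¹ * w⁻¹ * b⁻¹ := by group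
    _ = a * (b * w) * a⁻¹ * w⁻¹ * b⁻¹ := by rw [e1]; group
    _ = a * b * (w * a⁻¹) * w⁻¹ * b⁻¹ := by group
    _ = _ := by rw [e2]; group

theorem commutator_sup_scalars (A B : Subgroup (GL (ι) F)) : ⁅A ⊔ Zs, B ⊔ Zs⁆ ≤ ⁅A, B⁆ := by
  rw [Subgroup.commutator_le]
  intro x hx y hy
  rw [← SetLike.mem_coe, Subgroup.mul_normal] at hx hy
  obtain ⟨a, ha, z, hz, rfl⟩ := hx
  obtain ⟨b, hb, w, hw, rfl⟩ := hy
  rw [commutatorElement_central hz hw]
  exact Subgroup.commutator_mem_commutator ha hb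

theorem commutator_le_scalars_iff (A B : Subgroup (GL (ι) F)) :
    ⁅A, B⁆ ≤ Zs ↔ A.map (QuotientGroup.mk' Zs) ≤ Subgroup.centralizer (B.map (QuotientGroup.mk' Zs)) := by
  rw [← Subgroup.commutator_eq_bot_iff_le_centralizer, ← Subgroup.map_commutator, Subgroup.map_eq_bot_iff,
    QuotientGroup.ker_mk']

theorem NormalisedBy.commutator {K A B : Subgroup (GL (ι) F)} (hA : NormalisedBy K A) (hB : NormalisedBy K B) :
    NormalisedBy K ⁅A, B⁆ := by
  intro g hg x hx
  have h1 : ∀ C : Subgroup (GL (ι) F), NormalisedBy K C → C.map (MulAut.conj g).toMonoidHom ≤ C := by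
    rintro C hC _ ⟨y, hy, rfl⟩; exact hC g hg y hy
  have := Subgroup.commutator_mono (h1 A hA) (h1 B hB)
  rw [← Subgroup.map_commutator] at this
  exact this ⟨x, hx, rfl⟩

theorem NormalisedBy.sup_scalars {K A : Subgroup (GL (ι) F)} (hA : NormalisedBy K A) :
    NormalisedBy K (A ⊔ Zs) := by
  intro g hg x hx
  rw [← SetLike.mem_coe, Subgroup.mul_normal] at hx ⊢
  obtain ⟨a, ha, z, hz, rfl⟩ := hx
  exact ⟨g * a * g⁻¹, hA g hg a ha, g * z * g⁻¹, scalars_normal.conj_mem z hz g, by group⟩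

/-- An element centralising a perfect subgroup modulo scalars centralises it. -/
theorem perfect_commute {X : Subgroup (GL (ι) F)} (hX : X ≤ ⁅X, X⁆) {y : GL (ι) F}
    (h : ∀ x ∈ X, y * x * y⁻¹ * x⁻¹ ∈ Zs) {x : GL (ι) F} (hx : x ∈ X) : y * x = x * y := by
  have : ⁅X, X⁆ ≤ Subgroup.centralizer {y} := by
    rw [Subgroup.commutator_le]
    intro a ha b hb
    rw [Subgroup.mem_centralizer_singleton_iff]
    obtain ⟨z, hz, hza⟩ : ∃ z ∈ Zs, y * a * y⁻¹ = a * z := ⟨y * a * y⁻¹ * a⁻¹, h a ha, by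
      rw [← scalars_comm (h a ha)]; group⟩
    obtain ⟨w, hw, hwb⟩ : ∃ w ∈ Zs, y * b * y⁻¹ = b * w := ⟨y * b * y⁻¹ * b⁻¹, h b hb, by
      rw [← scalars_comm (h b hb)]; group⟩
    have e : y * ⁅a, b⁆ * y⁻¹ = ⁅a, b⁆ := by
      calc _ = ⁅y * a * y⁻¹, y * b * y⁻¹⁆ := by simp only [commutatorElement_def]; group
        _ = _ := by rw [hza, hwb, commutatorElement_central hz hw]
    calc ⁅a, b⁆ * y = (y * ⁅a, b⁆ * y⁻¹) * y := by rw [e]
      _ = _ := by group
  exact ((Subgroup.mem_centralizer_singleton_iff.mp (this (hX hx)))).symm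

theorem irr_of_full {X : Subgroup (GL (ι) F)} (hX : Full X) :
    Irr ((fun g : (Module.End F (ι → F))ˣ => (g : Module.End F (ι → F))) '' (gu '' (X : Set _))) := by
  intro W hW
  refine hX.absIrred.1 W ?_
  rintro _ ⟨x, hx, rfl⟩ _ ⟨w, hw, rfl⟩
  exact hW _ ⟨gu x, ⟨x, hx, rfl⟩, rfl⟩ w hw

theorem conj_mem_env {N N' : Subgroup (GL (ι) F)} {g : GL (ι) F} (h : ∀ x ∈ N, g * x * g⁻¹ ∈ N')
    {X : Module.End F (ι → F)} (hX : X ∈ env N) : conjHom (gu g) X ∈ env N' := by
  have : env N ≤ (env N').comap (conjHom (gu g)) := by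
    refine Algebra.adjoin_le ?_
    rintro _ ⟨x, hx, rfl⟩
    show (gu g : Module.End F (ι → F)) * (gu x : Module.End F (ι → F)) * ((gu g)⁻¹).val ∈ env N'
    rw [← map_inv, ← Units.val_mul, ← Units.val_mul, ← map_mul, ← map_mul]
    exact mem_env (h x hx)
  exact this hX

theorem simple_quotient {P : Subgroup (GL (ι) F)} (hnab : ¬ P ≤ Zs)
    (hns : ∀ N, N ≤ P → NormalisedBy P N → P ⊓ Zs < N → N = P) :
    IsSimpleGroup (P ⧸ (Zs).subgroupOf P) := by
  haveI : Nontrivial (P ⧸ (Zs).subgroupOf P) :=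
    QuotientGroup.nontrivial_iff.mpr fun h => hnab (Subgroup.subgroupOf_eq_top.mp h)
  refine ⟨fun N hN => ?_⟩
  let f : P →* P ⧸ (Zs).subgroupOf P := QuotientGroup.mk' _
  let C : Subgroup P := N.comap f
  have hC : C.Normal := hN.comap f
  let L : Subgroup (GL (ι) F) := C.map P.subtype
  have hLP : L ≤ P := Subgroup.map_subtype_le _
  have hLn : NormalisedBy P L := by
    intro g hg y hy
    obtain ⟨x, hx, rfl⟩ := Subgroup.mem_map.mp hy
    exact Subgroup.mem_map.mpr ⟨_, hC.conj_mem x hx (⟨g, hg⟩ : P), rfl⟩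
  have hZL : P ⊓ Zs ≤ L := by
    intro x hx
    refine Subgroup.mem_map.mpr ⟨(⟨x, hx.1⟩ : P), ?_, rfl⟩
    have h0 : f (⟨x, hx.1⟩ : P) = 1 := (QuotientGroup.eq_one_iff _).mpr hx.2
    exact Subgroup.mem_comap.mpr (by rw [h0]; exact one_mem N)
  rcases hZL.eq_or_lt with h | h
  · refine Or.inl (eq_bot_iff.mpr fun q hq => ?_)
    obtain ⟨x, rfl⟩ := QuotientGroup.mk'_surjective _ q
    have h1 : (x : GL (ι) F) ∈ L := Subgroup.mem_map_of_mem P.subtype (Subgroup.mem_comap.mpr hq)
    rw [← h] at h1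
    exact Subgroup.mem_bot.mpr ((QuotientGroup.eq_one_iff x).mpr h1.2)
  · refine Or.inr (eq_top_iff.mpr fun q _ => ?_)
    obtain ⟨x, rfl⟩ := QuotientGroup.mk'_surjective _ q
    have h1 : (x : GL (ι) F) ∈ L := by rw [hns L hLP hLn h]; exact x.2
    obtain ⟨y, hy, hyx⟩ := Subgroup.mem_map.mp h1
    obtain rfl : y = x := Subtype.ext hyx
    exact hy

theorem commutator_le_of_comm {P : Subgroup (GL (ι) F)}
    (hc : IsMulCommutative (P ⧸ (Zs).subgroupOf P)) : ⁅P, P⁆ ≤ Zs := by
  rw [Subgroup.commutator_le]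
  intro a ha b hb
  let f : P →* P ⧸ (Zs).subgroupOf P := QuotientGroup.mk' _
  let a' : P := ⟨a, ha⟩
  let b' : P := ⟨b, hb⟩
  have h : f ⁅a', b'⁆ = 1 := by
    rw [map_commutatorElement, commutatorElement_eq_one_iff_mul_comm]
    exact hc.is_comm.comm _ _
  exact Subgroup.mem_subgroupOf.mp ((QuotientGroup.eq_one_iff _).mp h)

variable [Fintype F]

/-- A fixed form of a spanning group is fixed up to scalars by its normaliser. -/
theorem similar_of_normalises {X : Subgroup (GL (ι) F)} (hX : Full X) (σ : F ≃+* F)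
    {B C : Matrix (ι) (ι) F} (hB : IsUnit B.det)
    (hfixB : ∀ x ∈ X, (x : Matrix (ι) (ι) F)ᵀ * B * (x : Matrix (ι) (ι) F).map σ = B)
    (hfixC : ∀ x ∈ X, (x : Matrix (ι) (ι) F)ᵀ * C * (x : Matrix (ι) (ι) F).map σ = C) :
    ∃ c : F, C = c • B := by
  have hinv := Matrix.mul_nonsing_inv B hB
  have hcomm : ∀ x ∈ X, (B⁻¹ * C).map σ.symm * (x : Matrix (ι) (ι) F) =
      (x : Matrix (ι) (ι) F) * (B⁻¹ * C).map σ.symm := by
    intro x hx
    have hxx : (B⁻¹ * C) * (x : Matrix (ι) (ι) F).map σ =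
        (x : Matrix (ι) (ι) F).map σ * (B⁻¹ * C) := by
      set g := (x : Matrix (ι) (ι) F)
      have hu : IsUnit gᵀ.det := by
        rw [Matrix.det_transpose]; exact (Matrix.isUnit_iff_isUnit_det _).mp x.isUnit
      have e1 : B * g.map σ = gᵀ⁻¹ * B := by
        conv_rhs => rw [← hfixB x hx]
        rw [← mul_assoc, ← mul_assoc, Matrix.nonsing_inv_mul _ hu, one_mul]
      have e2 : C * g.map σ = gᵀ⁻¹ * C := by
        conv_rhs => rw [← hfixC x hx]
        rw [← mul_assoc, ← mul_assoc, Matrix.nonsing_inv_mul _ hu, one_mul]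
      calc B⁻¹ * C * g.map σ = B⁻¹ * (gᵀ⁻¹ * C) := by rw [mul_assoc, e2]
        _ = B⁻¹ * (gᵀ⁻¹ * B) * (B⁻¹ * C) := by
            simp only [mul_assoc]; rw [← mul_assoc B, hinv, one_mul]
        _ = g.map σ * (B⁻¹ * C) := by
            rw [← e1, ← mul_assoc B⁻¹ B, Matrix.nonsing_inv_mul B hB, one_mul]
    have := congrArg (fun M : Matrix (ι) (ι) F => M.map σ.symm) hxx
    simpa [Matrix.map_mul, Matrix.map_map, Function.comp_def] using this
  obtain ⟨c, hc⟩ := hX.comm_scalar hcomm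
  refine ⟨σ c, ?_⟩
  have := congrArg (fun M : Matrix (ι) (ι) F => B * M.map σ) hc
  simpa [Matrix.map_map, Function.comp_def, ← mul_assoc, hinv, Matrix.map_smul'] using this

/-- The normaliser of a spanning group fixing a nondegenerate form consists of similarities. -/
theorem sim_of_fix {X : Subgroup (GL (ι) F)} (hX : Full X) {σ : F ≃+* F} {B : Matrix (ι) (ι) F}
    (hB : IsUnit B.det)
    (hfix : ∀ x ∈ X, (x : Matrix (ι) (ι) F)ᵀ * B * (x : Matrix (ι) (ι) F).map σ = B)
    {g : GL (ι) F} (hg : ∀ x ∈ X, g * x * g⁻¹ ∈ X) :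
    ∃ c : Fˣ, (g : Matrix (ι) (ι) F)ᵀ * B * (g : Matrix (ι) (ι) F).map σ = (c : F) • B := by
  obtain ⟨c, hc⟩ := similar_of_normalises hX σ hB hfix (C := (g : Matrix (ι) (ι) F)ᵀ * B *
    (g : Matrix (ι) (ι) F).map σ) fun x hx => by
      have h := hfix _ (hg x hx)
      have e : (g : Matrix (ι) (ι) F) * x = ((g * x * g⁻¹ : GL (ι) F) : Matrix (ι) (ι) F) * g := by
        rw [← Units.val_mul, ← Units.val_mul, inv_mul_cancel_right]
      calc _ = ((g : Matrix (ι) (ι) F) * (x : Matrix (ι) (ι) F))ᵀ * B *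
          ((g : Matrix (ι) (ι) F) * (x : Matrix (ι) (ι) F)).map σ := by
              simp only [Matrix.transpose_mul, Matrix.map_mul, mul_assoc]
        _ = _ := by
              rw [e]
              conv_rhs => rw [← h]
              simp only [Matrix.transpose_mul, Matrix.map_mul, mul_assoc]
  rcases eq_or_ne c 0 with h0 | h0
  · rcases isEmpty_or_nonempty ι with hι | hι
    · exact ⟨1, Subsingleton.elim _ _⟩
    exfalso
    have hd := congrArg Matrix.det hc
    rw [h0, zero_smul, Matrix.det_zero, Matrix.det_mul, Matrix.det_mul, Matrix.det_transpose] at hd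
    have hu := (Matrix.isUnit_iff_isUnit_det _).mp g.isUnit
    have hu' : IsUnit ((g : Matrix (ι) (ι) F).map σ).det := by
      rw [show (g : Matrix (ι) (ι) F).map σ = σ.toRingHom.mapMatrix (g : Matrix (ι) (ι) F) from rfl,
        ← RingHom.map_det]
      exact hu.map σ.toRingHom
    exact ((hu.mul hB).mul hu').ne_zero hd
  · exact ⟨Units.mk0 c h0, hc⟩

end Cfsg.Agent.GeomClasses.AschRel
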