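import Cfsg.Agent.GeomClasses.Aschbacher.Rel.Adjoint
import Cfsg.Agent.GeomClasses.Aschbacher.Idempotents

/-! # Decompositions from commutative algebras closed under adjoints -/

set_option autoImplicit false

namespace Cfsg.Agent.GeomClasses.AschRel

open Matrix Cfsg.Geo
open Cfsg.Agent.GeomClasses.Asch (Irr Normalises conjHom conjHom_apply idem_trivial idem_or_field)

variable {F : Type*} [Field F] {ι : Type} [Fintype ι] [DecidableEq ι]
  {σ : F ≃+* F} {B : Matrix ι ι F} {ε : F}

/-- The units of a group of matrices as operators. -/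
def opUnits (K : Subgroup (GL ι F)) : Set (Module.End F (ι → F))ˣ := gu '' (K : Set _)

theorem conj_opUnit {g : GL ι F} {e f : Module.End F (ι → F)}
    (h : conjHom (gu g) e = f) (v : ι → F) (hv : v ∈ LinearMap.range e) :
    (g : Matrix ι ι F) *ᵥ v ∈ LinearMap.range f := by
  obtain ⟨w, rfl⟩ := hv
  refine ⟨(g : Matrix ι ι F) *ᵥ w, ?_⟩
  rw [← gu_apply, ← gu_apply, ← h, conjHom_apply, ← Module.End.mul_apply, mul_assoc, Units.inv_mul, mul_one]
  rfl

/-- A system of orthogonal idempotents of equal rank gives a decomposition. -/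
theorem decomp_of_idem {K : Subgroup (GL ι F)} {Q : Finset (Module.End F (ι → F))} {m : ℕ} (hcard : 2 ≤ Q.card)
    (hm : 0 < m) (hidem : ∀ e ∈ Q, e * e = e) (horth : ∀ e ∈ Q, ∀ f ∈ Q, e ≠ f → e * f = 0)
    (hsum : ∑ e ∈ Q, e = 1) (hrank : ∀ e ∈ Q, Module.finrank F (LinearMap.range e) = m)
    (hperm : ∀ g ∈ K, ∀ e ∈ Q, conjHom (gu g) e ∈ Q) :
    ∃ D : Fin Q.card → Submodule F (ι → F), IsMDecomposition m D ∧ K ≤ decompositionStabilizer D ∧
      ∀ i, D i = LinearMap.range (Q.equivFin.symm i).1 := by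
  let en := Q.equivFin
  have hD : IsMDecomposition m (fun i => LinearMap.range (en.symm i).1) := by
    refine ⟨hcard, hm, fun i => hrank _ (en.symm i).2, ?_, ?_⟩
    · rw [iSupIndep_def]
      intro i
      rw [Submodule.disjoint_def]
      rintro v ⟨w, rfl⟩ hv
      have hker : (⨆ (j) (_ : j ≠ i), LinearMap.range (en.symm j).1) ≤ LinearMap.ker (en.symm i).1 := by
        refine iSup₂_le fun j hj => ?_
        rintro _ ⟨u, rfl⟩
        rw [LinearMap.mem_ker, ← Module.End.mul_apply, horth _ (en.symm i).2 _ (en.symm j).2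
          (fun e => hj (en.symm.injective (Subtype.ext e)).symm)]
        rfl
      have h1 := LinearMap.mem_ker.mp (hker hv)
      rwa [← Module.End.mul_apply, hidem _ (en.symm i).2] at h1
    · refine eq_top_iff.mpr fun v _ => ?_
      have : v = ∑ e ∈ Q, e v := by rw [← LinearMap.sum_apply, hsum]; rfl
      rw [this]
      refine Submodule.sum_mem _ fun e he => Submodule.mem_iSup_of_mem (en ⟨e, he⟩) ?_
      simp
  refine ⟨_, hD, fun g hg => mem_decomp_of_forall hD fun i =>
    ⟨en ⟨_, hperm g hg _ (en.symm i).2⟩, fun v hv => ?_⟩, fun i => rfl⟩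
  simp only [Equiv.symm_apply_apply]
  exact conj_opUnit rfl v hv

variable (h : FormData σ B ε)
include h

theorem nondeg_of_selfAdjoint {e : Module.End F (ι → F)} (hee : e * e = e) (he : st σ B e = e) :
    IsNondegenerateOn (matForm σ B) (LinearMap.range e) := by
  rintro _ ⟨w, rfl⟩ hw
  obtain ⟨⟨x, hx⟩, ⟨y, hy⟩⟩ := nondeg_matForm (σ := σ) h.unit (e w) hw
  have hee' : e (e w) = e w := by rw [← Module.End.mul_apply, hee]
  refine ⟨⟨e x, ⟨x, rfl⟩, ?_⟩, ⟨e y, ⟨y, rfl⟩, ?_⟩⟩
  · rwa [adjoint h, he, hee']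
  · have : matForm σ B (e w) (e y) = matForm σ B (e (e w)) y := by rw [adjoint h e (e w) y, he]
    rwa [this, hee']

theorem orth_of_st {e f : Module.End F (ι → F)} (h0 : st σ B e * f = 0) :
    AreOrthogonalFor (matForm σ B) (LinearMap.range e) (LinearMap.range f) := by
  rintro _ ⟨u, rfl⟩ _ ⟨v, rfl⟩
  rw [adjoint h, ← Module.End.mul_apply, h0, LinearMap.zero_apply, ← zero_smul F (0 : ι → F), mf_smul_right,
    map_zero, zero_mul]

/-- The trichotomy for commutative algebras closed under adjoints. -/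
theorem blocks_or_field [Fintype F] [Nonempty ι] {K : Subgroup (GL ι F)} (hK : ∀ g ∈ K, IsSim σ B g)
    (hirr : Irr ((fun u : (Module.End F (ι → F))ˣ => (u : Module.End F (ι → F))) '' opUnits K))
    {E : Subalgebra F (Module.End F (ι → F))} (hcomm : ∀ x ∈ E, ∀ y ∈ E, x * y = y * x)
    (hnorm : ∀ g ∈ K, Normalises E (gu g)) (hclosed : ∀ x ∈ E, st σ B x ∈ E) :
    (∃ (t k : ℕ) (D : Fin t → Submodule F (ι → F)), IsNondegenerateMDecomposition (matForm σ B) k D ∧
      K ≤ decompositionStabilizer D ∧ ∀ i j, ∃ g ∈ K, ∀ v ∈ D i, (g : Matrix ι ι F) *ᵥ v ∈ D j) ∨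
    (∃ (k : ℕ) (D : Fin 2 → Submodule F (ι → F)), 2 * k = Fintype.card ι ∧ IsMDecomposition k D ∧
      (∀ i, IsTotallySingularFor (matForm σ B) (D i)) ∧ K ≤ decompositionStabilizer D) ∨
    ∀ x ∈ E, x ≠ 0 → ∃ y ∈ E, x * y = 1 := by
  classical
  have hS : ∀ u ∈ opUnits K, Normalises E u := by rintro _ ⟨g, hg, rfl⟩; exact hnorm g hg
  rcases idem_or_field hcomm hS hirr with ⟨P, m, hcard, hm, hP, horth, hsum, hrank, hprim, hperm⟩ | hf
  swap
  · exact Or.inr (Or.inr hf)
  have hpermK : ∀ g ∈ K, ∀ e ∈ P, conjHom (gu g) e ∈ P := fun g hg e he => hperm _ (hnorm g hg) e he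
  have hstP : ∀ e ∈ P, st σ B e ∈ P := by
    intro e he
    obtain ⟨heE, hee, he0, hemin⟩ := hP e he
    refine hprim _ (hclosed e heE) (by rw [← st_mul h, hee]) (fun h0 => he0 (st_injective h (h0.trans (st_zero h).symm)))
      fun f hf hff => ?_
    have e1 : st σ B e * f = st σ B (e * st σ B f) := by
      rw [st_mul h, st_st h]; exact hcomm _ (hclosed e heE) f hf
    rw [e1]
    rcases hemin (st σ B f) (hclosed f hf) (by rw [← st_mul h, hff]) with h1 | h1
    · exact Or.inl (by rw [h1, st_zero h])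
    · exact Or.inr (by rw [h1])
  have horbit : ∀ e ∈ P, ∀ f ∈ P, ∃ g ∈ K, conjHom (gu g) e = f := by
    intro e he f hf
    let O := P.filter fun x => ∃ g ∈ K, conjHom (gu g) e = x
    have hOP : O ⊆ P := Finset.filter_subset _ _
    have hee : e ∈ O := Finset.mem_filter.mpr ⟨he, 1, one_mem K, by simp [conjHom_apply]⟩
    have hOsum : ∀ x ∈ P, x * ∑ y ∈ O, y = if x ∈ O then x else 0 := by
      intro x hx
      rw [Finset.mul_sum]
      by_cases hxO : x ∈ O
      · rw [if_pos hxO, Finset.sum_eq_single_of_mem x hxO fun y hy hne => horth x hx y (hOP hy) (Ne.symm hne),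
          (hP x hx).2.1]
      · rw [if_neg hxO]
        exact Finset.sum_eq_zero fun y hy => horth x hx y (hOP hy) fun e' => hxO (e' ▸ hy)
    have hcommK : ∀ u ∈ opUnits K, Commute (u : Module.End F (ι → F)) (∑ y ∈ O, y) := by
      rintro _ ⟨g, hg, rfl⟩
      show _ * _ = _ * _
      rw [Finset.mul_sum, Finset.sum_mul]
      have hmem : ∀ y ∈ O, conjHom (gu g) y ∈ O := by
        intro y hy
        obtain ⟨hyP, k, hk, rfl⟩ := Finset.mem_filter.mp hy
        exact Finset.mem_filter.mpr ⟨hpermK g hg _ hyP, g * k, mul_mem hg hk, by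
          simp [conjHom_apply, mul_assoc]⟩
      have hinj : Function.Injective (conjHom (gu g)) := fun a b hab => by
        have := congrArg (fun z => ((gu g)⁻¹).val * z * (gu g : Module.End F (ι → F))) hab
        simpa [conjHom_apply, mul_assoc] using this
      have himg : O.image (conjHom (gu g)) = O :=
        Finset.eq_of_subset_of_card_le (Finset.image_subset_iff.mpr hmem) (by rw [Finset.card_image_of_injective _ hinj])
      conv_rhs => rw [← himg, Finset.sum_image fun a _ b _ => @hinj a b]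
      exact Finset.sum_congr rfl fun y _ => by simp [conjHom_apply, mul_assoc]
    have hidem : (∑ y ∈ O, y) * (∑ y ∈ O, y) = ∑ y ∈ O, y := by
      rw [Finset.sum_mul]
      exact Finset.sum_congr rfl fun x hx => by rw [hOsum x (hOP hx), if_pos hx]
    rcases idem_trivial hirr hidem hcommK with h0 | h1
    · have := hOsum e he
      rw [h0, mul_zero, if_pos hee] at this
      exact absurd this.symm (hP e he).2.2.1
    · have := hOsum f hf
      rw [h1, mul_one] at this
      by_cases hfO : f ∈ O
      · exact (Finset.mem_filter.mp hfO).2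
      · rw [if_neg hfO] at this; exact absurd this (hP f hf).2.2.1
  have hne : P.Nonempty := Finset.card_pos.mp (by omega)
  obtain ⟨e₀, he₀⟩ := hne
  by_cases hfix : st σ B e₀ = e₀
  · have hall : ∀ e ∈ P, st σ B e = e := by
      intro e he
      obtain ⟨g, hg, rfl⟩ := horbit e₀ he₀ e he
      rw [st_conj h (hK g hg), hfix]
    obtain ⟨D, hD, hKD, hDe⟩ := decomp_of_idem hcard hm (fun e he => (hP e he).2.1) horth hsum hrank hpermK
    refine Or.inl ⟨_, m, D, ⟨hD, fun i => ?_, fun i j hij => ?_⟩, hKD, fun i j => ?_⟩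
    · rw [hDe]; exact nondeg_of_selfAdjoint h (hP _ (P.equivFin.symm i).2).2.1 (hall _ (P.equivFin.symm i).2)
    · rw [hDe, hDe]
      refine orth_of_st h ?_
      rw [hall _ (P.equivFin.symm i).2]
      exact horth _ (P.equivFin.symm i).2 _ (P.equivFin.symm j).2
        fun e => hij (P.equivFin.symm.injective (Subtype.ext e))
    · obtain ⟨g, hg, hge⟩ := horbit _ (P.equivFin.symm i).2 _ (P.equivFin.symm j).2
      exact ⟨g, hg, fun v hv => by rw [hDe] at hv ⊢; exact conj_opUnit hge v hv⟩
  have hallne : ∀ e ∈ P, st σ B e ≠ e := by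
    intro e he heq
    obtain ⟨g, hg, hge⟩ := horbit e he e₀ he₀
    exact hfix (by rw [← hge, st_conj h (hK g hg), heq])
  let pr : Module.End F (ι → F) → Module.End F (ι → F) := fun e => e + st σ B e
  let Q := P.image pr
  have hprE : ∀ e ∈ P, ∀ f ∈ P, f ≠ e → f ≠ st σ B e → pr e * pr f = 0 := by
    intro e he f hf h1 h2
    have h3 : st σ B f ≠ e := fun hh => h2 (by rw [← hh, st_st h])
    have h4 : st σ B f ≠ st σ B e := fun hh => h1 (st_injective h hh)
    simp only [pr, add_mul, mul_add]
    rw [horth e he f hf (Ne.symm h1), horth e he _ (hstP f hf) (Ne.symm h3),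
      horth _ (hstP e he) f hf (Ne.symm h2), horth _ (hstP e he) _ (hstP f hf) (Ne.symm h4), add_zero, add_zero]
  have hpr_st : ∀ e, pr (st σ B e) = pr e := fun e => by simp only [pr, st_st h, add_comm]
  have hpr_self : ∀ e, st σ B (pr e) = pr e := fun e => by simp only [pr, st_add h, st_st h, add_comm]
  have hidemQ : ∀ e ∈ P, pr e * pr e = pr e := by
    intro e he
    simp only [pr, add_mul, mul_add]
    rw [(hP e he).2.1, horth e he _ (hstP e he) (Ne.symm (hallne e he)), horth _ (hstP e he) e he (hallne e he),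
      (hP _ (hstP e he)).2.1, add_zero, zero_add]
  have hrange : ∀ e ∈ P, LinearMap.range (pr e) = LinearMap.range e ⊔ LinearMap.range (st σ B e) := by
    intro e he
    refine le_antisymm ?_ (sup_le ?_ ?_)
    · rintro _ ⟨v, rfl⟩; exact Submodule.add_mem_sup ⟨v, rfl⟩ ⟨v, rfl⟩
    · rintro _ ⟨v, rfl⟩
      refine ⟨e v, ?_⟩
      rw [← Module.End.mul_apply]; simp only [pr, add_mul]
      rw [(hP e he).2.1, horth _ (hstP e he) e he (hallne e he), add_zero]
    · rintro _ ⟨v, rfl⟩
      refine ⟨st σ B e v, ?_⟩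
      rw [← Module.End.mul_apply]; simp only [pr, add_mul]
      rw [horth e he _ (hstP e he) (Ne.symm (hallne e he)), (hP _ (hstP e he)).2.1, zero_add]
  have hrankQ : ∀ e ∈ P, Module.finrank F (LinearMap.range (pr e)) = 2 * m := by
    intro e he
    have hdisj : LinearMap.range e ⊓ LinearMap.range (st σ B e) = ⊥ := by
      refine eq_bot_iff.mpr ?_
      rintro _ ⟨⟨u, rfl⟩, ⟨v, hv⟩⟩
      have := congrArg e hv
      rw [← Module.End.mul_apply, ← Module.End.mul_apply, horth e he _ (hstP e he) (Ne.symm (hallne e he)),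
        (hP e he).2.1] at this
      exact (Submodule.mem_bot F).mpr this.symm
    have := Submodule.finrank_sup_add_finrank_inf_eq (LinearMap.range e) (LinearMap.range (st σ B e))
    rw [hdisj, finrank_bot, add_zero, hrank e he, hrank _ (hstP e he)] at this
    rw [hrange e he, this, two_mul]
  by_cases hQ2 : 2 ≤ Q.card
  · have hsum' : ∑ q ∈ Q, q = 1 := by
      rw [← hsum]
      have hQe : ∀ e ∈ P, e * ∑ q ∈ Q, q = e := by
        intro e he
        rw [Finset.mul_sum, Finset.sum_eq_single_of_mem (pr e) (Finset.mem_image_of_mem _ he)]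
        · simp only [pr, mul_add]
          rw [(hP e he).2.1, horth e he _ (hstP e he) (Ne.symm (hallne e he)), add_zero]
        · intro q hq hne
          obtain ⟨f, hf, rfl⟩ := Finset.mem_image.mp hq
          simp only [pr, mul_add]
          rw [horth e he f hf (fun e' => hne (by rw [e'])),
            horth e he _ (hstP f hf) (fun e' => hne (by rw [e', hpr_st])), add_zero]
      calc ∑ q ∈ Q, q = (∑ e ∈ P, e) * ∑ q ∈ Q, q := by rw [hsum, one_mul]
        _ = _ := by rw [Finset.sum_mul]; exact Finset.sum_congr rfl hQe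
    obtain ⟨D, hD, hKD, hDe⟩ := decomp_of_idem (K := K) hQ2 (by omega : 0 < 2 * m)
      (fun q hq => by obtain ⟨e, he, rfl⟩ := Finset.mem_image.mp hq; exact hidemQ e he)
      (fun q hq q' hq' hne => by
        obtain ⟨e, he, rfl⟩ := Finset.mem_image.mp hq
        obtain ⟨f, hf, rfl⟩ := Finset.mem_image.mp hq'
        exact hprE e he f hf (fun e' => hne (by rw [e'])) fun e' => hne (by rw [e', hpr_st]))
      hsum' (fun q hq => by obtain ⟨e, he, rfl⟩ := Finset.mem_image.mp hq; exact hrankQ e he)
      (fun g hg q hq => by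
        obtain ⟨e, he, rfl⟩ := Finset.mem_image.mp hq
        refine Finset.mem_image.mpr ⟨_, hpermK g hg e he, ?_⟩
        simp only [pr, map_add, st_conj h (hK g hg)])
    refine Or.inl ⟨_, 2 * m, D, ⟨hD, fun i => ?_, fun i j hij => ?_⟩, hKD, fun i j => ?_⟩
    · obtain ⟨e, he, hee⟩ := Finset.mem_image.mp (Q.equivFin.symm i).2
      rw [hDe, ← hee]; exact nondeg_of_selfAdjoint h (hidemQ e he) (hpr_self e)
    · obtain ⟨e, he, hee⟩ := Finset.mem_image.mp (Q.equivFin.symm i).2
      obtain ⟨f, hf, hff⟩ := Finset.mem_image.mp (Q.equivFin.symm j).2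
      have hne : pr e ≠ pr f := fun e' => hij (Q.equivFin.symm.injective (Subtype.ext (by rw [← hee, ← hff, e'])))
      rw [hDe, hDe, ← hee, ← hff]
      refine orth_of_st h ?_
      rw [hpr_self]
      exact hprE e he f hf (fun e' => hne (by rw [e'])) fun e' => hne (by rw [e', hpr_st])
    · obtain ⟨e, he, hee⟩ := Finset.mem_image.mp (Q.equivFin.symm i).2
      obtain ⟨f, hf, hff⟩ := Finset.mem_image.mp (Q.equivFin.symm j).2
      obtain ⟨g, hg, hge⟩ := horbit e he f hf
      refine ⟨g, hg, fun v hv => ?_⟩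
      rw [hDe, ← hee] at hv
      rw [hDe, ← hff]
      refine conj_opUnit ?_ v hv
      simp only [pr, map_add, hge, ← st_conj h (hK g hg)]
  · obtain ⟨D, hD, hKD, hDe⟩ := decomp_of_idem (K := K) hcard hm (fun e he => (hP e he).2.1) horth hsum hrank hpermK
    have hP2 : P = {e₀, st σ B e₀} := by
      refine Finset.Subset.antisymm (fun f hf => ?_) ?_
      · have hcardQ : Q.card ≤ 1 := by omega
        have heq : pr f = pr e₀ :=
          Finset.card_le_one.mp hcardQ _ (Finset.mem_image_of_mem _ hf) _ (Finset.mem_image_of_mem _ he₀)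
        by_contra hnot
        simp only [Finset.mem_insert, Finset.mem_singleton, not_or] at hnot
        have := hprE e₀ he₀ f hf hnot.1 hnot.2
        rw [heq, hidemQ e₀ he₀] at this
        have h0 := hrankQ e₀ he₀
        rw [this, LinearMap.range_zero, finrank_bot] at h0
        omega
      · intro f hf
        rcases Finset.mem_insert.mp hf with rfl | hf
        · exact he₀
        · rw [Finset.mem_singleton.mp hf]; exact hstP _ he₀
    have hcard2 : P.card = 2 := by rw [hP2, Finset.card_pair (Ne.symm hfix)]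
    refine Or.inr (Or.inl ?_)
    let c : Fin 2 ≃ Fin P.card := finCongr hcard2.symm
    have hD' : IsMDecomposition m (D ∘ c) :=
      ⟨le_rfl, hm, fun i => hD.finrank_eq (c i), hD.indep.comp c.injective,
        (c.iSup_comp (g := D)).trans hD.iSup_eq_top⟩
    refine ⟨m, D ∘ c, ?_, hD', fun i => ?_, fun g hg => mem_decomp_of_forall hD' fun i => ?_⟩
    rotate_left 2
    · obtain ⟨π, hπ⟩ := hKD hg
      refine ⟨c.symm (π (c i)), fun x hx => ?_⟩
      show _ ∈ D (c (c.symm (π (c i))))
      rw [Equiv.apply_symm_apply, ← hπ (c i)]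
      exact ⟨x, hx, Matrix.toLin'_apply _ _⟩
    · have hpr1 : pr e₀ = 1 := by
        rw [← hsum, hP2, Finset.sum_pair (Ne.symm hfix)]
      have he := hrankQ e₀ he₀
      rw [hpr1, show LinearMap.range (1 : Module.End F (ι → F)) = ⊤ from LinearMap.range_id] at he
      rw [finrank_top, Module.finrank_fintype_fun_eq_card] at he
      exact he.symm
    · intro u hu v hv
      rw [Function.comp_apply, hDe] at hu hv
      exact orth_of_st h (horth _ (hstP _ (Finset.coe_mem _)) _ (Finset.coe_mem _) (hallne _ (Finset.coe_mem _))) u hu v hv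

end Cfsg.Agent.GeomClasses.AschRel
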