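import Cfsg.Agent.GeomClasses.Aschbacher.Rel.Adjoint

/-! # Descent to the fixed field of an automorphism -/

set_option autoImplicit false

namespace Cfsg.Agent.GeomClasses.AschRel

open Matrix Cfsg.Geo

variable {F : Type*} [Field F] [Fintype F] {ι : Type} [Fintype ι] [DecidableEq ι]

omit [Fintype F] in
/-- The fixed subfield. -/
def fixedBy (σ : F ≃+* F) : Subfield F := RingHom.eqLocusField σ.toRingHom (RingHom.id F)

omit [Fintype F] in
theorem mem_fixedBy {σ : F ≃+* F} {a : F} : a ∈ fixedBy σ ↔ σ a = a := Iff.rfl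

omit [Fintype F] in
theorem fixedBy_ne_top {σ : F ≃+* F} (h : σ ≠ RingEquiv.refl F) : fixedBy σ ≠ ⊤ := fun e =>
  h (RingEquiv.ext fun a => mem_fixedBy.mp (e ▸ trivial))

/-- Fixed elements are norms for an involution. -/
theorem exists_norm {σ : F ≃+* F} (h : σ ≠ RingEquiv.refl F) (hinv : ∀ a, σ (σ a) = a) {c : F} (hc : σ c = c) :
    ∃ μ : F, μ * σ μ = c := by
  classical
  let τ : F ≃ₐ[fixedBy σ] F := AlgEquiv.ofRingEquiv (f := σ) fun x => x.2
  have hτ1 : τ ≠ 1 := fun e => h (RingEquiv.ext fun a => congrArg (fun f : F ≃ₐ[fixedBy σ] F => f a) e)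
  have hτ : τ * τ = 1 := AlgEquiv.ext fun a => hinv a
  have hord : orderOf τ = 2 := orderOf_eq_prime (by rw [pow_two, hτ]) hτ1
  have huniv : (Finset.univ : Finset (F ≃ₐ[fixedBy σ] F)) = {1, τ} := by
    symm
    refine Finset.eq_univ_of_card _ ?_
    rw [Finset.card_pair (Ne.symm hτ1), ← Nat.card_eq_fintype_card, IsGalois.card_aut_eq_finrank]
    have hE : IntermediateField.fixedField (Subgroup.zpowers τ) = ⊥ := by
      refine eq_bot_iff.mpr fun a ha => ?_
      have : σ a = a := ha ⟨τ, Subgroup.mem_zpowers τ⟩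
      exact IntermediateField.mem_bot.mpr ⟨⟨a, mem_fixedBy.mpr this⟩, rfl⟩
    have := IntermediateField.finrank_fixedField_eq_card (Subgroup.zpowers τ)
    rw [hE, Nat.card_zpowers, hord, IntermediateField.finrank_bot'] at this
    exact this.symm
  obtain ⟨μ, hμ⟩ := FiniteField.norm_surjective (K := fixedBy σ) (K' := F) ⟨c, hc⟩
  refine ⟨μ, ?_⟩
  have e := Algebra.norm_eq_prod_automorphisms (fixedBy σ) μ
  rw [hμ, huniv, Finset.prod_pair (Ne.symm hτ1)] at e
  exact e.symm

omit [Fintype F] in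
/-- Norm one elements are quotients of conjugates. -/
theorem exists_quot {σ : F ≃+* F} (h : σ ≠ RingEquiv.refl F) (hinv : ∀ a, σ (σ a) = a) {c : F} (hc : c * σ c = 1) :
    ∃ μ : F, μ ≠ 0 ∧ σ μ = c * μ := by
  by_cases hc1 : c = -1
  · obtain ⟨ω, hω⟩ : ∃ ω, σ ω ≠ ω := by
      by_contra hh; push_neg at hh; exact h (RingEquiv.ext hh)
    exact ⟨σ ω - ω, sub_ne_zero.mpr hω, by rw [map_sub, hinv, hc1]; ring⟩
  · refine ⟨1 + σ c, fun h0 => hc1 ?_, ?_⟩
    · have := congrArg σ h0
      rw [map_add, map_one, hinv, map_zero] at this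
      linear_combination this
    · rw [map_add, map_one, hinv, mul_add, mul_one, hc, add_comm]

/-- A set intertwined with its conjugate is realisable over the fixed field. -/
theorem realisable_of_twist {σ : F ≃+* F} (hσ : σ ≠ RingEquiv.refl F) (hinv : ∀ a, σ (σ a) = a)
    {S : Set (Matrix ι ι F)} (C : GL ι F) {lam : F}
    (hC : (C : Matrix ι ι F) * (C : Matrix ι ι F).map σ = lam • 1)
    (hS : ∀ x ∈ S, (C : Matrix ι ι F) * x.map σ = x * (C : Matrix ι ι F)) :
    ∃ P : GL ι F, (∀ x ∈ S, ∀ i j, ((P⁻¹ : GL ι F).val * x * (P : Matrix ι ι F)) i j ∈ fixedBy σ) ∧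
      ∃ μ : F, μ ≠ 0 ∧ (C : Matrix ι ι F) * (P : Matrix ι ι F).map σ = μ • (P : Matrix ι ι F) := by
  classical
  rcases isEmpty_or_nonempty ι with hι | hι
  · exact ⟨1, fun x _ i => isEmptyElim i, 1, one_ne_zero, Subsingleton.elim _ _⟩
  have hmm : ∀ X : Matrix ι ι F, (X.map σ).map σ = X := fun X => by
    ext i j; rw [Matrix.map_apply, Matrix.map_apply, hinv]
  have hσdet : IsUnit ((C : Matrix ι ι F).map σ).det := by
    rw [show ((C : Matrix ι ι F).map σ).det = σ (C : Matrix ι ι F).det from (RingEquiv.map_det σ _).symm]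
    exact ((Matrix.isUnit_iff_isUnit_det _).mp C.isUnit).map σ.toRingHom
  have hlam0 : lam ≠ 0 := by
    intro h0
    have := congrArg Matrix.det hC
    rw [h0, zero_smul, Matrix.det_zero, Matrix.det_mul] at this
    exact (((Matrix.isUnit_iff_isUnit_det _).mp C.isUnit).mul hσdet).ne_zero this
  have hlam : σ lam = lam := by
    have e1 : (C : Matrix ι ι F).map σ * (C : Matrix ι ι F) = σ lam • 1 := by
      have := congrArg (fun M : Matrix ι ι F => M.map σ) hC
      simp only [Matrix.map_mul, hmm] at this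
      rw [this]
      ext i j; by_cases e : i = j <;> simp [Matrix.one_apply, e]
    have e2 : (C : Matrix ι ι F) * ((C : Matrix ι ι F).map σ * (C : Matrix ι ι F)) = lam • (C : Matrix ι ι F) := by
      rw [← mul_assoc, hC, Matrix.smul_mul, one_mul]
    rw [e1, Matrix.mul_smul, mul_one] at e2
    have : (σ lam - lam) • (C : Matrix ι ι F) = 0 := by rw [sub_smul, e2, sub_self]
    exact sub_eq_zero.mp ((smul_eq_zero.mp this).resolve_right C.ne_zero)
  obtain ⟨μ, hμ⟩ := exists_norm hσ hinv hlam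
  have hμ0 : μ ≠ 0 := fun h0 => hlam0 (by rw [← hμ, h0, zero_mul])
  let T : (ι → F) → (ι → F) := fun v => μ⁻¹ • ((C : Matrix ι ι F) *ᵥ fun i => σ (v i))
  have hσv : ∀ (X : Matrix ι ι F) v, (fun i => σ ((X *ᵥ v) i)) = X.map σ *ᵥ fun i => σ (v i) :=
    fun X v => funext fun i => RingHom.map_mulVec σ.toRingHom X v i
  have hTT : ∀ v, T (T v) = v := by
    intro v
    have e : (fun i => σ (T v i)) = σ μ⁻¹ • ((C : Matrix ι ι F).map σ *ᵥ v) := by
      funext i
      show σ (μ⁻¹ * _) = _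
      rw [map_mul, show σ (((C : Matrix ι ι F) *ᵥ fun i => σ (v i)) i) = _ from
        congrFun (hσv (C : Matrix ι ι F) fun i => σ (v i)) i]
      simp only [hinv]
      rfl
    show μ⁻¹ • ((C : Matrix ι ι F) *ᵥ fun i => σ (T v i)) = v
    rw [e, Matrix.mulVec_smul, Matrix.mulVec_mulVec, hC, Matrix.smul_mulVec, Matrix.one_mulVec, smul_smul, smul_smul,
      map_inv₀, mul_assoc, ← hμ]
    rw [show μ⁻¹ * ((σ μ)⁻¹ * (μ * σ μ)) = 1 by
      have := (map_ne_zero σ).mpr hμ0
      field_simp, one_smul]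
  have hTadd : ∀ u v, T (u + v) = T u + T v := fun u v => by
    show μ⁻¹ • _ = μ⁻¹ • _ + μ⁻¹ • _
    rw [← smul_add, ← Matrix.mulVec_add]
    congr 2; funext i; simp
  have hTsmul : ∀ (a : F) v, T (a • v) = σ a • T v := fun a v => by
    show μ⁻¹ • _ = σ a • (μ⁻¹ • _)
    rw [show (fun i => σ ((a • v) i)) = σ a • fun i => σ (v i) from funext fun i => map_mul σ _ _,
      Matrix.mulVec_smul, smul_comm]
  obtain ⟨ω, hω⟩ : ∃ ω, σ ω ≠ ω := by
    by_contra hh; push_neg at hh; exact hσ (RingEquiv.ext hh)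
  have hspan : Submodule.span F {v | T v = v} = ⊤ := by
    refine eq_top_iff.mpr fun v _ => ?_
    have m1 : v + T v ∈ Submodule.span F {v | T v = v} := Submodule.subset_span (by
      show T (v + T v) = _; rw [hTadd, hTT, add_comm])
    have m2 : ω • v + σ ω • T v ∈ Submodule.span F {v | T v = v} := Submodule.subset_span (by
      show T (ω • v + σ ω • T v) = _; rw [hTadd, hTsmul, hTsmul, hinv, hTT, add_comm])
    have := sub_mem (Submodule.smul_mem _ (σ ω) m1) m2
    rw [smul_add, add_sub_add_right_eq_sub, ← sub_smul] at this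
    have h2 := Submodule.smul_mem _ (σ ω - ω)⁻¹ this
    rwa [smul_smul, inv_mul_cancel₀ (sub_ne_zero.mpr hω), one_smul] at h2
  obtain ⟨t, htS, htspan, htli⟩ := exists_linearIndependent F {v : ι → F | T v = v}
  let b₀ : Module.Basis t F (ι → F) := Module.Basis.mk htli (by rw [Subtype.range_coe_subtype, Set.setOf_mem_eq, htspan, hspan])
  haveI : Fintype t := FiniteDimensional.fintypeBasisIndex b₀
  let e : t ≃ ι := Fintype.equivOfCardEq (by
    rw [← Module.finrank_eq_card_basis b₀, Module.finrank_fintype_fun_eq_card])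
  let b : Module.Basis ι F (ι → F) := b₀.reindex e
  let P : GL ι F := frameGL b (Equiv.refl ι)
  have hP : (C : Matrix ι ι F) * (P : Matrix ι ι F).map σ = μ • (P : Matrix ι ι F) := by
    ext i j
    have hcol : ∀ k, (P : Matrix ι ι F) k j = b j k := fun k => by
      show (Pi.basisFun F ι).toMatrix (b.reindex (Equiv.refl ι).symm) k j = _
      simp [Module.Basis.toMatrix_apply]
    have hfx : T (b j) = b j := by
      rw [show b j = (e.symm j : ι → F) by simp [b, b₀]]
      exact htS (e.symm j).2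
    have := congrFun hfx i
    simp only [T, Pi.smul_apply, smul_eq_mul] at this
    rw [Matrix.smul_apply, hcol, smul_eq_mul, ← this, ← mul_assoc, mul_inv_cancel₀ hμ0, one_mul]
    simp only [Matrix.mul_apply, Matrix.map_apply, hcol]
    rfl
  refine ⟨P, fun x hx i j => ?_, μ, hμ0, hP⟩
  set M := (P⁻¹ : GL ι F).val * x * (P : Matrix ι ι F)
  suffices hM : M.map σ = M from mem_fixedBy.mpr (congrFun (congrFun hM i) j)
  set Pm := (P : Matrix ι ι F)
  have hPu : IsUnit (Pm.map σ).det := by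
    rw [show (Pm.map σ).det = σ Pm.det from (RingEquiv.map_det σ _).symm]
    exact ((Matrix.isUnit_iff_isUnit_det _).mp P.isUnit).map σ.toRingHom
  have e1 : Pm.map σ * M.map σ = x.map σ * Pm.map σ := by
    rw [← Matrix.map_mul, ← Matrix.map_mul]
    congr 1
    simp [M, Pm, ← mul_assoc]
  have e2 : Pm.map σ * M = x.map σ * Pm.map σ := by
    refine (C.isUnit.mul_right_inj).mp ?_
    rw [← mul_assoc, hP, ← mul_assoc (C : Matrix ι ι F) (x.map σ), hS x hx, mul_assoc, hP, Matrix.smul_mul, Matrix.mul_smul]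
    congr 1
    simp [M, Pm, ← mul_assoc]
  exact ((Matrix.isUnit_iff_isUnit_det _).mpr hPu).mul_right_inj.mp (e1.trans e2.symm)

end Cfsg.Agent.GeomClasses.AschRel
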