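import Cfsg.Agent.GeomClasses.Aschbacher.Rel.Adjoint
import Cfsg.Agent.GeomClasses.Aschbacher.Rel.Descent
import Mathlib.FieldTheory.Finite.Basic
import Mathlib.FieldTheory.Galois.Basic

/-! # Adjoints on fields of operators -/

set_option autoImplicit false
set_option maxHeartbeats 400000

namespace Cfsg.Agent.GeomClasses.AschRel

open Matrix Cfsg.Geo

/-- The elements fixed by a power form a set of at most that many elements. -/
theorem mem_of_pow_eq {L : Type*} [Field L] {S : Finset L} {Q : ℕ} (hQ : 1 < Q) (hcard : Q ≤ S.card)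
    (hS : ∀ x ∈ S, x ^ Q = x) {y : L} (hy : y ^ Q = y) : y ∈ S := by
  classical
  by_contra hyS
  have hne : (Polynomial.X ^ Q - Polynomial.X : Polynomial L) ≠ 0 := FiniteField.X_pow_card_sub_X_ne_zero L hQ
  have hsub : insert y S ⊆ (Polynomial.X ^ Q - Polynomial.X : Polynomial L).roots.toFinset := by
    intro x hx
    rw [Multiset.mem_toFinset, Polynomial.mem_roots hne]
    rcases Finset.mem_insert.mp hx with rfl | hx
    · simp [hy]
    · simp [hS x hx]
  have h1 := (Finset.card_le_card hsub).trans ((Multiset.toFinset_card_le _).trans (Polynomial.card_roots' _))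
  rw [Finset.card_insert_of_notMem hyS, FiniteField.X_pow_card_sub_X_natDegree_eq L hQ] at h1
  omega

variable {F : Type*} [Field F] [Fintype F] {ι : Type} [Fintype ι] [DecidableEq ι] [Nonempty ι]
  {σ : F ≃+* F} {B : Matrix ι ι F} {ε : F}

/-- A field inside a field of operators closed under adjoints is closed under adjoints. -/
theorem subfield_closed (h : FormData σ B ε) {E L : Subalgebra F (Module.End F (ι → F))}
    (hcomm : ∀ x ∈ E, ∀ y ∈ E, x * y = y * x) (hinv : ∀ x ∈ E, x ≠ 0 → ∃ y ∈ E, x * y = 1)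
    (hcl : ∀ x ∈ E, st σ B x ∈ E) (hLE : L ≤ E) (hLinv : ∀ x ∈ L, x ≠ 0 → ∃ y ∈ L, x * y = 1) :
    ∀ x ∈ L, st σ B x ∈ L := by
  classical
  letI : CommRing E := { (inferInstance : Ring E) with mul_comm := fun a b => Subtype.ext (hcomm a a.2 b b.2) }
  haveI : Nontrivial E := ⟨0, 1, fun h => zero_ne_one (congrArg Subtype.val h)⟩
  have hF : IsField E := ⟨⟨0, 1, zero_ne_one⟩, mul_comm, fun {a} ha => by
    obtain ⟨y, hy, hxy⟩ := hinv a a.2 fun h => ha (Subtype.ext h)
    exact ⟨⟨y, hy⟩, Subtype.ext hxy⟩⟩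
  letI : Field E := hF.toField
  letI : CommRing L := { (inferInstance : Ring L) with mul_comm := fun a b => Subtype.ext (hcomm a (hLE a.2) b (hLE b.2)) }
  haveI : Nontrivial L := ⟨0, 1, fun h => zero_ne_one (congrArg Subtype.val h)⟩
  have hLF : IsField L := ⟨⟨0, 1, zero_ne_one⟩, mul_comm, fun {a} ha => by
    obtain ⟨y, hy, hxy⟩ := hLinv a a.2 fun h => ha (Subtype.ext h)
    exact ⟨⟨y, hy⟩, Subtype.ext hxy⟩⟩
  letI : Field L := hLF.toField
  haveI : Finite (ι → F) := Pi.finite
  haveI : Finite (Module.End F (ι → F)) := Finite.of_injective _ DFunLike.coe_injective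
  haveI := Fintype.ofFinite L
  set Q := Fintype.card L
  have hpow : ∀ x ∈ L, x ^ Q = x := fun x hx => by
    have := congrArg Subtype.val (FiniteField.pow_card (⟨x, hx⟩ : L))
    simpa using this
  intro x hx
  have hy : st σ B x ^ Q = st σ B x := by rw [← st_pow h, hpow x hx]
  let i : L → E := fun l => ⟨l.1, hLE l.2⟩
  have hi : Function.Injective i := fun a b e => Subtype.ext (congrArg (fun z : E => z.1) e)
  have hmem : (⟨st σ B x, hcl x (hLE hx)⟩ : E) ∈ Finset.univ.image i := by
    refine mem_of_pow_eq (Fintype.one_lt_card : 1 < Q) (by rw [Finset.card_image_of_injective _ hi]; rfl) ?_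
      (Subtype.ext (by simpa using hy))
    intro z hz
    obtain ⟨l, -, rfl⟩ := Finset.mem_image.mp hz
    exact Subtype.ext (by simpa [i] using hpow l.1 l.2)
  obtain ⟨l, -, hl⟩ := Finset.mem_image.mp hmem
  rw [← show l.1 = st σ B x from congrArg (fun z : E => z.1) hl]
  exact l.2

/-- The adjoint on a field of prime degree, bilinear case. -/
theorem adjoint_dichotomy (h : FormData (RingEquiv.refl F) B ε) {L : Subalgebra F (Module.End F (ι → F))} {r : ℕ}
    (hr : r.Prime) (hfin : Module.finrank F L = r) (hcomm : ∀ x ∈ L, ∀ y ∈ L, x * y = y * x)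
    (hinv : ∀ x ∈ L, x ≠ 0 → ∃ y ∈ L, x * y = 1) (hcl : ∀ x ∈ L, st (RingEquiv.refl F) B x ∈ L) :
    (∀ x ∈ L, st (RingEquiv.refl F) B x = x) ∨
      (r = 2 ∧ (∃ x ∈ L, st (RingEquiv.refl F) B x ≠ x) ∧
        ∀ x ∈ L, st (RingEquiv.refl F) B x = x → ∃ c : F, x = algebraMap F _ c) := by
  classical
  by_cases hid : ∀ x ∈ L, st (RingEquiv.refl F) B x = x
  · exact Or.inl hid
  right
  push_neg at hid
  obtain ⟨x₀, hx₀, hx₀'⟩ := hid
  letI : CommRing L := { (inferInstance : Ring L) with mul_comm := fun a b => Subtype.ext (hcomm a a.2 b b.2) }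
  haveI : Nontrivial L := ⟨0, 1, fun h => zero_ne_one (congrArg Subtype.val h)⟩
  have hLF : IsField L := ⟨⟨0, 1, zero_ne_one⟩, mul_comm, fun {a} ha => by
    obtain ⟨y, hy, hxy⟩ := hinv a a.2 fun h => ha (Subtype.ext h)
    exact ⟨⟨y, hy⟩, Subtype.ext hxy⟩⟩
  letI : Field L := hLF.toField
  haveI : Finite (ι → F) := Pi.finite
  haveI : Finite (Module.End F (ι → F)) := Finite.of_injective _ DFunLike.coe_injective
  let s₀ : L →ₐ[F] L :=
    { toFun := fun x => ⟨st (RingEquiv.refl F) B x.1, hcl x.1 x.2⟩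
      map_one' := Subtype.ext (st_one h)
      map_mul' := fun x y => Subtype.ext (by
        show st _ _ (x.1 * y.1) = st _ _ x.1 * st _ _ y.1
        rw [st_mul h]; exact hcomm _ (hcl _ y.2) _ (hcl _ x.2))
      map_zero' := Subtype.ext (st_zero h)
      map_add' := fun x y => Subtype.ext (st_add h _ _)
      commutes' := fun c => Subtype.ext (by
        show st _ _ (algebraMap F (Module.End F (ι → F)) c) = algebraMap F _ c
        rw [st_algebraMap h]; rfl) }
  let s : L ≃ₐ[F] L := AlgEquiv.ofAlgHom s₀ s₀ (AlgHom.ext fun x => Subtype.ext (st_st h x.1))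
    (AlgHom.ext fun x => Subtype.ext (st_st h x.1))
  have hss : s ^ 2 = 1 := by rw [pow_two]; exact AlgEquiv.ext fun x => Subtype.ext (st_st h x.1)
  have hs1 : s ≠ 1 := fun e => hx₀' (congrArg Subtype.val (congrFun (congrArg DFunLike.coe e) (⟨x₀, hx₀⟩ : L)))
  have hord : orderOf s = 2 := orderOf_eq_prime hss hs1
  have hcard : Nat.card (L ≃ₐ[F] L) = r := by rw [IsGalois.card_aut_eq_finrank]; exact hfin
  have h2 := orderOf_dvd_natCard s
  rw [hcard, hord] at h2
  have hr2 : r = 2 := ((Nat.prime_dvd_prime_iff_eq Nat.prime_two hr).mp h2).symm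
  refine ⟨hr2, ⟨x₀, hx₀, hx₀'⟩, fun x hx hfix => ?_⟩
  by_contra hc
  push_neg at hc
  -- one and x span the field
  have hli : LinearIndependent F ![(1 : L), ⟨x, hx⟩] := by
    rw [LinearIndependent.pair_iff]
    intro a b hab
    by_cases hb : b = 0
    · subst hb
      rw [zero_smul, add_zero] at hab
      exact ⟨(smul_eq_zero.mp hab).resolve_right one_ne_zero, rfl⟩
    · exfalso
      refine hc (-(b⁻¹ * a)) ?_
      have e := congrArg Subtype.val hab
      simp only [Subalgebra.coe_add, Subalgebra.coe_smul, Subalgebra.coe_one, Subalgebra.coe_zero] at e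
      have e2 : x = -(b⁻¹ • (a • (1 : Module.End F (ι → F)))) := by
        rw [eq_neg_iff_add_eq_zero, add_comm]
        have := congrArg (b⁻¹ • ·) e
        simpa [smul_add, smul_smul, inv_mul_cancel₀ hb] using this
      rw [e2, Algebra.algebraMap_eq_smul_one, neg_smul, smul_smul]
  have hsp := hli.span_eq_top_of_card_eq_finrank (by rw [hfin, hr2]; rfl)
  have hmem : (⟨x₀, hx₀⟩ : L) ∈ Submodule.span F (Set.range ![(1 : L), ⟨x, hx⟩]) := hsp ▸ trivial
  rw [Matrix.range_cons, Matrix.range_cons, Matrix.range_empty, Set.union_empty, Set.singleton_union,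
    Submodule.mem_span_pair] at hmem
  obtain ⟨a, b, hab⟩ := hmem
  refine hx₀' ?_
  have e : x₀ = a • (1 : Module.End F (ι → F)) + b • x := (congrArg Subtype.val hab).symm
  rw [e, st_add h, st_smul h, st_smul h, st_one h, hfix]
  rfl

/-- In the sesquilinear case the degree is odd. -/
theorem adjoint_odd_degree (h : FormData σ B ε) (hσ : σ ≠ RingEquiv.refl F) {L : Subalgebra F (Module.End F (ι → F))} {r : ℕ}
    (hr : r.Prime) (hfin : Module.finrank F L = r) (hcomm : ∀ x ∈ L, ∀ y ∈ L, x * y = y * x)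
    (hinv : ∀ x ∈ L, x ≠ 0 → ∃ y ∈ L, x * y = 1) (hcl : ∀ x ∈ L, st σ B x ∈ L) : Odd r := by
  classical
  refine hr.eq_two_or_odd'.resolve_left fun hr2 => ?_
  letI : CommRing L := { (inferInstance : Ring L) with mul_comm := fun a b => Subtype.ext (hcomm a a.2 b b.2) }
  haveI : Nontrivial L := ⟨0, 1, fun h => zero_ne_one (congrArg Subtype.val h)⟩
  have hLF : IsField L := ⟨⟨0, 1, zero_ne_one⟩, mul_comm, fun {a} ha => by
    obtain ⟨y, hy, hxy⟩ := hinv a a.2 fun h => ha (Subtype.ext h)
    exact ⟨⟨y, hy⟩, Subtype.ext hxy⟩⟩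
  letI : Field L := hLF.toField
  haveI : Finite (ι → F) := Pi.finite
  haveI : Finite (Module.End F (ι → F)) := Finite.of_injective _ DFunLike.coe_injective
  haveI := Fintype.ofFinite L
  have hcardL : Fintype.card L = Fintype.card F * Fintype.card F := by
    rw [Module.card_eq_pow_finrank (K := F) (V := L), hfin, hr2, pow_two]
  let s : L →+* L :=
    { toFun := fun x => ⟨st σ B x.1, hcl x.1 x.2⟩
      map_one' := Subtype.ext (st_one h)
      map_mul' := fun x y => Subtype.ext (by
        show st _ _ (x.1 * y.1) = st _ _ x.1 * st _ _ y.1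
        rw [st_mul h]; exact hcomm _ (hcl _ y.2) _ (hcl _ x.2))
      map_zero' := Subtype.ext (st_zero h)
      map_add' := fun x y => Subtype.ext (st_add h _ _) }
  have hss : ∀ x, s (s x) = x := fun x => Subtype.ext (st_st h x.1)
  have hsF : ∀ c : F, s (algebraMap F L c) = algebraMap F L (σ c) := fun c => Subtype.ext (st_algebraMap h c)
  obtain ⟨c₀, hc₀⟩ : ∃ c, σ c ≠ c := by by_contra hh; push_neg at hh; exact hσ (RingEquiv.ext hh)
  set L₀ : Subfield L := RingHom.eqLocusField s (RingHom.id L)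
  haveI := Fintype.ofFinite L₀
  let φ : L →+ L := AddMonoidHom.id L - s.toAddMonoidHom
  have hφ : ∀ x, φ x = x - s x := fun x => rfl
  set y₀ := φ (algebraMap F L c₀) with hy₀
  have hy₀ne : y₀ ≠ 0 := by
    rw [hy₀, hφ, hsF, sub_ne_zero]
    exact fun e => hc₀ ((algebraMap F L).injective e).symm
  have hanti : ∀ y ∈ φ.range, s y = -y := by
    rintro _ ⟨x, rfl⟩; rw [hφ, map_sub, hss, neg_sub]
  let f : L₀ → φ.range := fun x => ⟨(x : L) * y₀, ⟨(x : L) * algebraMap F L c₀, by
    rw [hy₀, hφ, hφ, map_mul, show s (x : L) = x from x.2, mul_sub]⟩⟩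
  have hf : Function.Bijective f := by
    refine ⟨fun a b e => Subtype.ext (mul_right_cancel₀ hy₀ne (congrArg Subtype.val e)), fun y => ?_⟩
    refine ⟨⟨(y : L) / y₀, ?_⟩, Subtype.ext (div_mul_cancel₀ _ hy₀ne)⟩
    show s _ = _
    rw [map_div₀, hanti y y.2, hanti y₀ ⟨_, rfl⟩, neg_div_neg_eq]
    rfl
  have hker : Nat.card φ.ker = Nat.card L₀ := by
    refine Nat.card_congr (Equiv.subtypeEquivRight fun x => ?_)
    show φ x = 0 ↔ s x = x
    rw [hφ, sub_eq_zero, eq_comm]
  have hsq : Fintype.card L₀ = Fintype.card F := by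
    have h1 := AddSubgroup.card_eq_card_quotient_mul_card_addSubgroup φ.ker
    rw [Nat.card_congr (QuotientAddGroup.quotientKerEquivRange φ).toEquiv, ← Nat.card_congr (Equiv.ofBijective f hf), hker,
      Nat.card_eq_fintype_card, Nat.card_eq_fintype_card, hcardL] at h1
    exact (Nat.mul_self_inj.mp h1.symm)
  let S : Finset L := Finset.univ.image fun x : L₀ => (x : L)
  have hmem : algebraMap F L c₀ ∈ S := by
    refine mem_of_pow_eq (Fintype.one_lt_card : 1 < Fintype.card F) ?_ ?_ (by rw [← map_pow, FiniteField.pow_card])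
    · rw [Finset.card_image_of_injective _ Subtype.val_injective, Finset.card_univ, hsq]
    · intro x hx
      obtain ⟨y, -, rfl⟩ := Finset.mem_image.mp hx
      rw [← hsq, ← SubmonoidClass.coe_pow, FiniteField.pow_card]
  obtain ⟨y, -, hy⟩ := Finset.mem_image.mp hmem
  have : s (algebraMap F L c₀) = algebraMap F L c₀ := by rw [← hy]; exact y.2
  rw [hsF] at this
  exact hc₀ ((algebraMap F L).injective this)

end Cfsg.Agent.GeomClasses.AschRel
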