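import Cfsg.Agent.GeomClasses.Aschbacher.Rel.Tools
import Cfsg.Agent.GeomClasses.Aschbacher.Twist
import Mathlib.RingTheory.LittleWedderburn
import Mathlib.RingTheory.SimpleModule.WedderburnArtin

/-! # Groups with scalar commutators spanning the matrix algebra, and realisability by small spans -/

set_option autoImplicit false
set_option maxHeartbeats 400000

namespace Cfsg.Agent.GeomClasses.AschRel

open Matrix Cfsg.Geo
open scoped commutatorElement

variable {F : Type*} [Field F] {ι : Type} [Fintype ι] [DecidableEq ι]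

theorem exists_twist {x y : GL ι F} (h : ⁅x, y⁆ ∈ scalars ι F) :
    ∃ c : Fˣ, (x : Matrix ι ι F) * (y : Matrix ι ι F) = (c : F) • ((y : Matrix ι ι F) * (x : Matrix ι ι F)) := by
  obtain ⟨c, hc⟩ := (mem_scalars_iff _).mp h
  refine ⟨c, ?_⟩
  rw [← Units.val_mul, ← Units.val_mul, show x * y = ⁅x, y⁆ * (y * x) by rw [commutatorElement_def]; group, Units.val_mul,
    hc, Matrix.smul_mul, one_mul]

theorem center_iff [Nonempty ι] {R : Subgroup (GL ι F)} (hR : Full R) (a : R) :
    a ∈ Subgroup.center R ↔ (a : GL ι F) ∈ scalars ι F := by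
  rw [Subgroup.mem_center_iff]
  constructor
  · intro hc
    obtain ⟨c, hc'⟩ := hR.comm_scalar (M := ((a : GL ι F) : Matrix ι ι F)) fun x hx => by
      rw [← Units.val_mul, ← Units.val_mul]
      exact congrArg Units.val (congrArg Subtype.val (hc ⟨x, hx⟩)).symm
    exact (mem_scalars_iff _).mpr ⟨Units.mk0 c fun h0 => (a : GL ι F).ne_zero (by rw [hc', h0, zero_smul]), hc'⟩
  · exact fun ha g => Subtype.ext (scalars_comm ha g).symm

/-- The classes modulo scalars give a basis of the matrix algebra. -/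
theorem full_basis [Fintype F] [Nonempty ι] {R : Subgroup (GL ι F)} (hR : Full R)
    (htw : ∀ a ∈ R, ∀ b ∈ R, ⁅a, b⁆ ∈ scalars ι F) :
    ∃ w : (R ⧸ Subgroup.center R) → Matrix ι ι F, LinearIndependent F w ∧
      Nat.card (R ⧸ Subgroup.center R) = Fintype.card ι * Fintype.card ι ∧
      ∀ x : R, ∃ u : Fˣ, (∃ z ∈ Subgroup.center R, ((z : GL ι F) : Matrix ι ι F) = (u : F) • 1) ∧
        ((x : GL ι F) : Matrix ι ι F) = (u : F) • w (QuotientGroup.mk x) := by
  classical
  choose c hc using fun (a b : R) => exists_twist (htw a a.2 b b.2)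
  let Q := R ⧸ Subgroup.center R
  let w : Q → Matrix ι ι F := fun q => ((q.out : R) : GL ι F).val
  let L : R → (Matrix ι ι F →ₗ[F] Matrix ι ι F) := fun y =>
    (LinearMap.mulLeft F (y : GL ι F).val).comp (LinearMap.mulRight F ((y : GL ι F)⁻¹).val)
  have hL : ∀ (q : Q) (y : R), L y (w q) = (c y q.out : F) • w q := by
    intro q y
    show (y : GL ι F).val * (((q.out : R) : GL ι F).val * ((y : GL ι F)⁻¹).val) = _
    rw [← mul_assoc, hc y q.out, Matrix.smul_mul, mul_assoc, Units.mul_inv, mul_one]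
  have hχ : Function.Injective fun (q : Q) (y : R) => (c y q.out : F) := by
    intro q q' hqq
    rw [← QuotientGroup.out_eq' q, ← QuotientGroup.out_eq' q', QuotientGroup.eq, center_iff hR]
    obtain ⟨d, hd⟩ := hR.comm_scalar (M := ((((q.out)⁻¹ * q'.out : R) : GL ι F) : Matrix ι ι F)) fun y hy => by
      have h1 := hc ⟨y, hy⟩ q.out
      have h2 := hc ⟨y, hy⟩ q'.out
      rw [show (c ⟨y, hy⟩ q'.out : F) = c ⟨y, hy⟩ q.out from (congrFun hqq ⟨y, hy⟩).symm] at h2
      set a : GL ι F := ((q.out : R) : GL ι F)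
      set b : GL ι F := ((q'.out : R) : GL ι F)
      set u := c ⟨y, hy⟩ q.out
      show ((a⁻¹ * b : GL ι F) : Matrix ι ι F) * (y : Matrix ι ι F) = _ * ((a⁻¹ * b : GL ι F) : Matrix ι ι F)
      refine a.isUnit.mul_left_cancel (smul_right_injective _ u.ne_zero ?_)
      show (u : F) • ((a : Matrix ι ι F) * (((a⁻¹ * b : GL ι F) : Matrix ι ι F) * (y : Matrix ι ι F))) =
        (u : F) • ((a : Matrix ι ι F) * ((y : Matrix ι ι F) * ((a⁻¹ * b : GL ι F) : Matrix ι ι F)))
      have haM : (a : Matrix ι ι F) * ((a⁻¹ * b : GL ι F) : Matrix ι ι F) = (b : Matrix ι ι F) := by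
        rw [← Units.val_mul, mul_inv_cancel_left]
      calc (u : F) • ((a : Matrix ι ι F) * (((a⁻¹ * b : GL ι F) : Matrix ι ι F) * (y : Matrix ι ι F)))
          = (y : Matrix ι ι F) * (b : Matrix ι ι F) := by rw [← mul_assoc, haM]; exact h2.symm
        _ = ((u : F) • ((a : Matrix ι ι F) * (y : Matrix ι ι F))) * ((a⁻¹ * b : GL ι F) : Matrix ι ι F) := by
            rw [← haM, ← mul_assoc, show ((u : F) • ((a : Matrix ι ι F) * (y : Matrix ι ι F))) = _ from h1.symm]
        _ = _ := by rw [Matrix.smul_mul, mul_assoc]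
    exact (mem_scalars_iff _).mpr ⟨Units.mk0 d fun h0 => (((q.out)⁻¹ * q'.out : R) : GL ι F).ne_zero
      (by rw [hd, h0, zero_smul]), hd⟩
  have hli := Asch.li_of_chars L w _ hL (fun q => Units.ne_zero ((q.out : R).1)) hχ
  have hrep : ∀ x : R, ∃ u : Fˣ, (∃ z ∈ Subgroup.center R, ((z : GL ι F) : Matrix ι ι F) = (u : F) • 1) ∧
        ((x : GL ι F) : Matrix ι ι F) = (u : F) • w (QuotientGroup.mk x) := by
    intro x
    set q : Q := QuotientGroup.mk x
    have hm : q.out⁻¹ * x ∈ Subgroup.center R := QuotientGroup.eq.mp (QuotientGroup.out_eq' q)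
    obtain ⟨u, hu⟩ := (mem_scalars_iff _).mp ((center_iff hR _).mp hm)
    refine ⟨u, ⟨_, hm, hu⟩, ?_⟩
    conv_lhs => rw [show x = q.out * (q.out⁻¹ * x) from (mul_inv_cancel_left _ _).symm, Subgroup.coe_mul, Units.val_mul,
      hu, Matrix.mul_smul, mul_one]
  have hsp : Submodule.span F (Set.range w) = ⊤ := by
    refine eq_top_iff.mpr (hR ▸ Submodule.span_le.mpr ?_)
    rintro _ ⟨x, hx, rfl⟩
    obtain ⟨u, -, e⟩ := hrep ⟨x, hx⟩
    show (x : Matrix ι ι F) ∈ _
    rw [show (x : Matrix ι ι F) = _ from e]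
    exact Submodule.smul_mem _ _ (Submodule.subset_span ⟨_, rfl⟩)
  haveI : Fintype Q := Fintype.ofFinite _
  refine ⟨w, hli, ?_, hrep⟩
  rw [Nat.card_eq_fintype_card, ← Module.finrank_eq_card_basis (Module.Basis.mk hli hsp.ge), Module.finrank_matrix,
    Module.finrank_self, mul_one]

/-- A spanning group whose span over a subfield is small is realisable over that subfield. -/
theorem realisable_of_small_span [Fintype F] [Nonempty ι] {X : Subgroup (GL ι F)} (hX : Full X) {F₀ : Subfield F}
    {α : Type*} [Fintype α] (w : α → Matrix ι ι F) (hα : Fintype.card α ≤ Fintype.card ι * Fintype.card ι)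
    (hw : matrixSet X ⊆ (Submodule.span F₀ (Set.range w) : Set (Matrix ι ι F))) :
    RealisableOver F₀ (matrixSet X) := by
  classical
  set N := Fintype.card ι * Fintype.card ι
  let A : Subalgebra F₀ (Matrix ι ι F) := Algebra.adjoin F₀ (matrixSet X)
  have hAspan : A.toSubmodule = Submodule.span F₀ (matrixSet X) := by
    let S : Submonoid (Matrix ι ι F) := X.toSubmonoid.map (Units.coeHom _)
    have hS : (S : Set (Matrix ι ι F)) = matrixSet X := rfl
    rw [Algebra.adjoin_eq_span, ← hS, Submonoid.closure_eq]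
  have hbig : ∀ S : Submodule F₀ (Matrix ι ι F), Submodule.span F (S : Set (Matrix ι ι F)) = ⊤ →
      N ≤ Module.finrank F₀ S := by
    intro S hS
    haveI : Finite (Matrix ι ι F) := inferInstanceAs (Finite (ι → ι → F))
    haveI : Module.Finite F₀ S := Module.Finite.of_finite
    let b := Module.finBasis F₀ S
    have hle : Submodule.span F (Set.range fun i => (b i : Matrix ι ι F)) = ⊤ := by
      refine eq_top_iff.mpr (hS ▸ Submodule.span_le.mpr fun s hs => ?_)
      rw [show s = ((⟨s, hs⟩ : S) : Matrix ι ι F) from rfl, ← b.sum_repr ⟨s, hs⟩, Submodule.coe_sum]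
      refine Submodule.sum_mem _ fun i _ => ?_
      rw [Submodule.coe_smul]
      exact Submodule.smul_mem _ ((b.repr ⟨s, hs⟩ i : F₀) : F) (Submodule.subset_span ⟨i, rfl⟩)
    have := finrank_range_le_card (R := F) fun i => (b i : Matrix ι ι F)
    rw [Set.finrank, hle, finrank_top, Module.finrank_matrix, Module.finrank_self, mul_one, Fintype.card_fin] at this
    exact this
  haveI : Finite (Matrix ι ι F) := inferInstanceAs (Finite (ι → ι → F))
  have hspanA : Submodule.span F (A : Set (Matrix ι ι F)) = ⊤ :=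
    eq_top_iff.mpr (hX ▸ Submodule.span_mono Algebra.subset_adjoin)
  have hAN : Module.finrank F₀ A = N := by
    refine le_antisymm ?_ (hbig A.toSubmodule hspanA)
    show Module.finrank F₀ A.toSubmodule ≤ N
    haveI : Module.Finite F₀ (Submodule.span F₀ (Set.range w)) := Module.Finite.of_finite
    refine le_trans (Submodule.finrank_mono ?_) ((finrank_range_le_card (R := F₀) w).trans hα)
    rw [hAspan]; exact Submodule.span_le.mpr hw
  haveI : Module.Finite F₀ A := Module.Finite.of_finite
  haveI : Nontrivial A := ⟨0, 1, fun h => zero_ne_one (congrArg Subtype.val h)⟩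
  haveI : IsSimpleRing A := by
    refine IsSimpleRing.of_eq_bot_or_eq_top fun I => (eq_or_ne I ⊥).imp_right fun hI => ?_
    obtain ⟨a, ha, ha0⟩ : ∃ a : A, a ∈ I ∧ a ≠ 0 := by
      by_contra h
      push_neg at h
      exact hI (eq_bot_iff.mpr fun a ha => (TwoSidedIdeal.mem_bot _).mpr (h a ha))
    let S : Submodule F₀ (Matrix ι ι F) :=
      { carrier := {x | ∃ a : A, a ∈ I ∧ (a : Matrix ι ι F) = x}
        add_mem' := by rintro _ _ ⟨a, ha, rfl⟩ ⟨b, hb, rfl⟩; exact ⟨a + b, I.add_mem ha hb, rfl⟩
        zero_mem' := ⟨0, I.zero_mem, rfl⟩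
        smul_mem' := by
          rintro c _ ⟨a, ha, rfl⟩
          exact ⟨algebraMap F₀ A c * a, I.mul_mem_left _ _ ha, (Algebra.smul_def c (a : Matrix ι ι F)).symm⟩ }
    have hS : Submodule.span F (S : Set (Matrix ι ι F)) = ⊤ := by
      set T := Submodule.span F (S : Set (Matrix ι ι F))
      have hl : ∀ y : Matrix ι ι F, ∀ s ∈ S, ∀ z : Matrix ι ι F, y * s * z ∈ T := by
        intro y s hs z
        have hy : y ∈ Submodule.span F (A : Set (Matrix ι ι F)) := hspanA ▸ trivial
        induction hy using Submodule.span_induction with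
        | mem y hy =>
          have hz : z ∈ Submodule.span F (A : Set (Matrix ι ι F)) := hspanA ▸ trivial
          induction hz using Submodule.span_induction with
          | mem z hz =>
            obtain ⟨a, ha, rfl⟩ := hs
            exact Submodule.subset_span ⟨⟨y, hy⟩ * a * ⟨z, hz⟩, I.mul_mem_right _ _ (I.mul_mem_left _ _ ha), rfl⟩
          | zero => simp
          | add a b _ _ ha hb => rw [mul_add]; exact add_mem ha hb
          | smul c a _ ha => rw [Matrix.mul_smul]; exact T.smul_mem c ha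
        | zero => simp
        | add a b _ _ ha hb => rw [add_mul, add_mul]; exact add_mem ha hb
        | smul c a _ ha => rw [Matrix.smul_mul, Matrix.smul_mul]; exact T.smul_mem c ha
      obtain ⟨i, j, hij⟩ : ∃ i j, (a : Matrix ι ι F) i j ≠ 0 := by
        by_contra h
        push_neg at h
        exact ha0 (Subtype.ext (Matrix.ext h))
      refine eq_top_iff.mpr fun X _ => ?_
      rw [Matrix.matrix_eq_sum_single X]
      refine Submodule.sum_mem _ fun k _ => Submodule.sum_mem _ fun l _ => ?_
      have := T.smul_mem (X k l * ((a : Matrix ι ι F) i j)⁻¹) (hl (Matrix.single k i 1) _ ⟨a, ha, rfl⟩ (Matrix.single j l 1))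
      rw [Matrix.single_mul_mul_single, Matrix.smul_single, smul_eq_mul, one_mul, mul_one, mul_assoc, inv_mul_cancel₀ hij,
        mul_one] at this
      exact this
    have hSA : S = A.toSubmodule := by
      refine Submodule.eq_of_le_of_finrank_le (by rintro _ ⟨a, -, rfl⟩; exact a.2) ?_
      exact le_of_eq_of_le hAN (hbig S hS)
    refine (TwoSidedIdeal.one_mem_iff I).mp ?_
    obtain ⟨b, hb, hb1⟩ : (1 : Matrix ι ι F) ∈ S := hSA ▸ A.one_mem
    exact (show b = 1 from Subtype.ext hb1) ▸ hb
  haveI : IsArtinianRing A := inferInstance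
  obtain ⟨d, hd0, D, _, _, _, ⟨Φ⟩⟩ := IsSimpleRing.exists_algEquiv_matrix_divisionRing_finite F₀ A
  haveI : Finite D := Module.finite_of_finite F₀
  have hDcomm : ∀ δ δ' : D, δ * δ' = δ' * δ := (littleWedderburn D).mul_comm
  -- the centre is the small field
  have hD : ∀ δ : D, ∃ c : F₀, δ = algebraMap F₀ D c := by
    intro δ
    set z : A := Φ.symm (Matrix.scalar (Fin d) δ)
    have hz : ∀ a : A, (z : Matrix ι ι F) * (a : Matrix ι ι F) = (a : Matrix ι ι F) * (z : Matrix ι ι F) := fun a => by
      have : z * a = a * z := Φ.injective (by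
        simp only [z, map_mul, AlgEquiv.apply_symm_apply]
        exact (Matrix.scalar_commute δ (hDcomm δ) (Φ a)).eq)
      exact congrArg Subtype.val this
    obtain ⟨c, hc⟩ := hX.comm_scalar fun x hx => hz ⟨_, Algebra.subset_adjoin ⟨x, hx, rfl⟩⟩
    suffices hc0 : c ∈ F₀ by
      refine ⟨⟨c, hc0⟩, ?_⟩
      have e : z = algebraMap F₀ A ⟨c, hc0⟩ := Subtype.ext (hc.trans (Algebra.algebraMap_eq_smul_one (⟨c, hc0⟩ : F₀)).symm)
      have := congrArg (fun a => Φ a) e
      simp only [z, AlgEquiv.apply_symm_apply, AlgEquiv.commutes] at this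
      have h00 := congrFun (congrFun this ⟨0, Nat.pos_of_ne_zero (NeZero.ne d)⟩) ⟨0, Nat.pos_of_ne_zero (NeZero.ne d)⟩
      simpa [Matrix.algebraMap_matrix_apply] using h00
    let b := Module.finBasisOfFinrankEq F₀ A hAN
    have hli : LinearIndependent F fun i => (b i : Matrix ι ι F) := by
      refine linearIndependent_of_top_le_span_of_card_eq_finrank ?_ (by
        rw [Fintype.card_fin, Module.finrank_matrix, Module.finrank_self, mul_one])
      rw [← hspanA]
      refine Submodule.span_le.mpr fun s hs => ?_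
      rw [show s = ((⟨s, hs⟩ : A) : Matrix ι ι F) from rfl, ← b.sum_repr ⟨s, hs⟩, AddSubmonoidClass.coe_finset_sum]
      refine Submodule.sum_mem _ fun i _ => ?_
      exact Submodule.smul_mem _ ((b.repr ⟨s, hs⟩ i : F₀) : F) (Submodule.subset_span ⟨i, rfl⟩)
    have hexp : ∀ a : A, (a : Matrix ι ι F) = ∑ i, ((b.repr a i : F₀) : F) • (b i : Matrix ι ι F) := fun a => by
      conv_lhs => rw [← b.sum_repr a, AddSubmonoidClass.coe_finset_sum]
      rfl
    have h1 := hexp 1
    have h2 := hexp z
    rw [hc, show (1 : Matrix ι ι F) = ((1 : A) : Matrix ι ι F) from rfl, h1, Finset.smul_sum] at h2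
    simp only [smul_smul] at h2
    have heq : ∀ i, c * ((b.repr 1 i : F₀) : F) = ((b.repr z i : F₀) : F) := fun i => by
      have := Fintype.linearIndependent_iff.mp hli (fun i => c * ((b.repr 1 i : F₀) : F) - ((b.repr z i : F₀) : F)) (by
        simp only [sub_smul, Finset.sum_sub_distrib, h2, sub_self]) i
      exact sub_eq_zero.mp this
    obtain ⟨i, hi⟩ : ∃ i, b.repr 1 i ≠ 0 := by
      by_contra h
      push_neg at h
      exact one_ne_zero (α := A) (b.repr.injective (by ext i; simp [h i]))
    have hi' : ((b.repr 1 i : F₀) : F) ≠ 0 := fun h => hi (Subtype.ext h)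
    rw [show c = ((b.repr z i : F₀) : F) / ((b.repr 1 i : F₀) : F) by rw [eq_div_iff hi']; exact heq i]
    exact div_mem (b.repr z i).2 (b.repr 1 i).2
  have hdim : d = Fintype.card ι := by
    have h1 := Φ.toLinearEquiv.finrank_eq
    have hD1 : Module.finrank F₀ D = 1 := finrank_eq_one_iff'.mpr ⟨1, one_ne_zero, fun δ => by
      obtain ⟨c, rfl⟩ := hD δ
      exact ⟨c, (Algebra.algebraMap_eq_smul_one c).symm⟩⟩
    rw [hAN, Module.finrank_matrix, hD1, mul_one, Fintype.card_fin] at h1
    exact (Nat.mul_self_inj.mp h1.symm)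
  -- matrix units
  let U : Fin d → Fin d → Matrix ι ι F := fun i j => ((Φ.symm (Matrix.single i j (1 : D)) : A) : Matrix ι ι F)
  have hUU : ∀ i j k l, U i j * U k l = if j = k then U i l else 0 := by
    intro i j k l
    show ((Φ.symm _ * Φ.symm _ : A) : Matrix ι ι F) = _
    rw [← map_mul]
    split_ifs with h
    · subst h; rw [Matrix.single_mul_single_same, one_mul]
    · rw [Matrix.single_mul_single_of_ne _ _ _ _ h, map_zero]; rfl
  let o : Fin d := ⟨0, Nat.pos_of_ne_zero (NeZero.ne d)⟩
  obtain ⟨u, hu⟩ : ∃ u : ι → F, U o o *ᵥ u ≠ 0 := by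
    by_contra h
    push_neg at h
    have h0 : U o o = 0 := Matrix.toLin'.injective (LinearMap.ext fun v => by simp [h v])
    have h1 : Φ.symm (Matrix.single o o (1 : D)) = 0 := Subtype.ext h0
    have := congrArg Φ h1
    rw [AlgEquiv.apply_symm_apply, map_zero] at this
    have := congrFun (congrFun this o) o
    simp at this
  let v := U o o *ᵥ u
  have hvv : U o o *ᵥ v = v := by simp only [v, Matrix.mulVec_mulVec, hUU, if_pos]
  let f : Fin d → (ι → F) := fun i => U i o *ᵥ v
  have hUf : ∀ i j k, U i j *ᵥ f k = if j = k then f i else 0 := fun i j k => by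
    simp only [f, Matrix.mulVec_mulVec, hUU]; split_ifs with h <;> simp
  have hli : LinearIndependent F f := by
    rw [Fintype.linearIndependent_iff]
    intro g hg i
    have := congrArg (U o i *ᵥ ·) hg
    simp only [Matrix.mulVec_sum, Matrix.mulVec_smul, hUf, Matrix.mulVec_zero, smul_ite, smul_zero, Finset.sum_ite_eq,
      Finset.mem_univ, if_true] at this
    refine (smul_eq_zero.mp this).resolve_right ?_
    show f o ≠ 0
    simp only [f]; rw [hvv]; exact hu
  let b := basisOfLinearIndependentOfCardEqFinrank (b := f) hli (by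
    rw [Fintype.card_fin, Module.finrank_fintype_fun_eq_card, hdim])
  let e : ι ≃ Fin d := Fintype.equivOfCardEq (by rw [Fintype.card_fin, hdim])
  refine ⟨(frameGL b e)⁻¹, ?_⟩
  rintro _ ⟨x, hx, rfl⟩ i j
  rw [inv_inv, ← Units.val_mul, ← Units.val_mul,
    show (frameGL b e)⁻¹ * x * frameGL b e = glReindex e.symm (coordGL b x) by
      conv_lhs => rw [← conj_coord b e x]
      group]
  show (coordGL b x : Matrix (Fin d) (Fin d) F) (e.symm.symm i) (e.symm.symm j) ∈ F₀
  rw [coordGL_apply, gu_apply]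
  set a : A := ⟨(x : Matrix ι ι F), Algebra.subset_adjoin ⟨x, hx, rfl⟩⟩
  choose c hc using fun k l => hD (Φ a k l)
  have hxU : (x : Matrix ι ι F) = ∑ k, ∑ l, ((c k l : F₀) : F) • U k l := by
    have e1 : Φ a = ∑ k, ∑ l, c k l • Matrix.single k l (1 : D) := by
      rw [Matrix.matrix_eq_sum_single (Φ a)]
      refine Finset.sum_congr rfl fun k _ => Finset.sum_congr rfl fun l _ => ?_
      rw [Matrix.smul_single, hc k l, Algebra.algebraMap_eq_smul_one]
    have e2 := congrArg (fun z => ((Φ.symm z : A) : Matrix ι ι F)) e1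
    simp only [AlgEquiv.symm_apply_apply, map_sum, map_smul, AddSubmonoidClass.coe_finset_sum] at e2
    exact e2
  rw [hxU, Matrix.sum_mulVec, map_sum, Finsupp.finset_sum_apply]
  refine Subfield.sum_mem _ fun k _ => ?_
  rw [Matrix.sum_mulVec, map_sum, Finsupp.finset_sum_apply]
  refine Subfield.sum_mem _ fun l _ => ?_
  rw [Matrix.smul_mulVec, coe_basisOfLinearIndependentOfCardEqFinrank, hUf, map_smul, Finsupp.smul_apply, smul_eq_mul]
  refine mul_mem (c k l).2 ?_
  split_ifs
  · rw [show f k = b k from (congrFun (coe_basisOfLinearIndependentOfCardEqFinrank hli _) k).symm, Module.Basis.repr_self,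
      Finsupp.single_apply]
    split_ifs
    · exact one_mem _
    · exact zero_mem _
  · rw [map_zero]; exact zero_mem _

end Cfsg.Agent.GeomClasses.AschRel
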