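import Cfsg.Agent.GeomClasses.Aschbacher.Rel.Adjoint

/-! # Normal subgroups of groups of similarities -/

set_option autoImplicit false

namespace Cfsg.Agent.GeomClasses.AschRel

open Matrix Cfsg.Geo
open Cfsg.Agent.GeomClasses.Asch (Irr Normalises conjHom centre mem_centre centre_comm normalises_centre
  normalises_centraliser isSemisimple central_type mem_range_of_commute)

variable {F : Type*} [Field F] [Fintype F] {ι : Type} [Fintype ι] [DecidableEq ι] [Nonempty ι]
  {σ : F ≃+* F} {B : Matrix ι ι F} {ε : F}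

/-- A normal subgroup outside the scalars spans the matrix algebra. -/
theorem normal_cases (h : FormData σ B ε) {K N : Subgroup (GL ι F)} (hK : ∀ g ∈ K, IsSim σ B g) (hNK : N ≤ K)
    (hirr : Irr ((fun g : (Module.End F (ι → F))ˣ => (g : Module.End F (ι → F))) '' (gu '' (K : Set _))))
    (hN : NormalisedBy K N) (hns : ¬ N ≤ scalars ι F) :
    (∃ E : Subalgebra F (Module.End F (ι → F)), (∀ x ∈ E, ∀ y ∈ E, x * y = y * x) ∧
      (∀ g ∈ K, Normalises E (gu g)) ∧ (∀ x ∈ E, st σ B x ∈ E) ∧ ∃ x ∈ E, ∀ c : F, x ≠ algebraMap F _ c) ∨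
    Full N ∨
    ∃ (d e : ℕ) (φA : Matrix (Fin d) (Fin d) F →ₐ[F] Module.End F (ι → F))
      (φC : Matrix (Fin e) (Fin e) F →ₐ[F] Module.End F (ι → F)), 2 ≤ d ∧ 2 ≤ e ∧ d * e = Fintype.card ι ∧
      (∀ X Y, Commute (φA X) (φC Y)) ∧ Irr (Set.range φA ∪ Set.range φC) ∧
      (∀ g ∈ K, ∀ X, (gu g : Module.End F (ι → F)) * φA X * ((gu g)⁻¹).val ∈ Set.range φA) ∧
      (∀ g ∈ K, ∀ X, (gu g : Module.End F (ι → F)) * φC X * ((gu g)⁻¹).val ∈ Set.range φC) ∧
      (∀ X, st σ B (φA X) ∈ Set.range φA) ∧ (∀ X, st σ B (φC X) ∈ Set.range φC) := by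
  classical
  set S : Set (Module.End F (ι → F))ˣ := gu '' (K : Set _) with hSdef
  set A := env N with hA
  have hSA : ∀ u ∈ S, Normalises A u := by rintro _ ⟨g, hg, rfl⟩; exact normalises_env hN hg
  have hcomm : ∀ x ∈ centre A, ∀ y ∈ centre A, x * y = y * x := fun x hx y hy => centre_comm hx hy
  have hclA : ∀ X ∈ A, st σ B X ∈ A := env_closed h fun g hg => hK g (hNK hg)
  by_cases hbig : ∃ x ∈ centre A, ∀ c : F, x ≠ algebraMap F _ c
  · exact Or.inl ⟨centre A, hcomm, fun g hg => normalises_centre (hSA _ ⟨g, hg, rfl⟩), centre_closed h hclA, hbig⟩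
  right
  push_neg at hbig
  have hE : ∀ X : Module.End F (ι → F), (∀ a ∈ A, Commute X a) →
      (∀ Y, (∀ a ∈ A, Commute Y a) → Commute X Y) → ∃ c : F, X = algebraMap F _ c :=
    fun X h1 h2 => hbig X (mem_centre.mpr ⟨h1, h2⟩)
  haveI := isSemisimple A S hSA hirr
  obtain ⟨d, e, φA, φC, hd, he, hrange, hAC, hde, hirr2⟩ := central_type A hE
  rw [Module.finrank_fintype_fun_eq_card] at hde
  have hrA : Set.range φA = (A : Set _) := by rw [← hrange]; rfl
  rcases (show d = 1 ∨ 2 ≤ d by omega) with rfl | hd2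
  · refine absurd (fun x hx => ?_) hns
    obtain ⟨X, hX⟩ : (gu x : Module.End F (ι → F)) ∈ Set.range φA := hrA ▸ mem_env hx
    refine mem_scalars_of_op (c := X 0 0) ?_
    rw [← hX, ← φA.commutes]
    congr 1
    ext i j
    rw [Subsingleton.elim i 0, Subsingleton.elim j 0]
    simp [Matrix.algebraMap_matrix_apply]
  rcases (show e = 1 ∨ 2 ≤ e by omega) with rfl | he2
  · left
    refine op_span_eq_top (Algebra.eq_top_iff.mpr fun X => ?_)
    haveI : Nonempty (Fin d) := ⟨⟨0, hd⟩⟩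
    have hinj : Function.Injective φA := RingHom.injective φA.toRingHom
    have hfr : Module.finrank F (Matrix (Fin d) (Fin d) F) = Module.finrank F (Module.End F (ι → F)) := by
      rw [Module.finrank_matrix, Module.finrank_linearMap, Module.finrank_fintype_fun_eq_card, Fintype.card_fin, Module.finrank_self]
      rw [mul_one] at hde
      rw [hde, mul_one]
    obtain ⟨Y, hY⟩ := (LinearMap.injective_iff_surjective_of_finrank_eq_finrank hfr (f := φA.toLinearMap)).mp hinj X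
    rw [← hY]
    exact hrA.subset ⟨Y, rfl⟩
  right
  have hC : ∀ Y : Module.End F (ι → F), (∀ a ∈ A, Commute Y a) → Y ∈ Set.range φC := by
    intro Y hY
    let dd : Fin 2 → ℕ := ![d, e]
    let φ : ∀ i, Matrix (Fin (dd i)) (Fin (dd i)) F →ₐ[F] Module.End F (ι → F) :=
      Fin.cons (α := fun i => Matrix (Fin (dd i)) (Fin (dd i)) F →ₐ[F] Module.End F (ι → F)) φA
        (Fin.cons φC finZeroElim)
    refine mem_range_of_commute φ ?_ ?_ ?_ 1 ?_
    · intro i j h
      revert h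
      revert i j
      simp only [Fin.forall_fin_two]
      exact ⟨⟨fun h => absurd rfl h, fun _ X Y => hAC X Y⟩, ⟨fun _ X Y => (hAC Y X).symm, fun h => absurd rfl h⟩⟩
    · rw [Fin.forall_fin_two]; exact ⟨hd, he⟩
    · exact fun W hW => hirr2 W fun s hs => hW s <| Set.mem_iUnion.mpr <| by
        rcases hs with hs | hs
        · exact ⟨0, hs⟩
        · exact ⟨1, hs⟩
    · rw [Fin.forall_fin_two]
      exact ⟨fun _ X => hY _ (hrA.subset ⟨X, rfl⟩), fun h => absurd rfl h⟩
  have hfA : ∀ g ∈ K, ∀ X, (gu g : Module.End F (ι → F)) * φA X * ((gu g)⁻¹).val ∈ Set.range φA := by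
    intro g hg X
    rw [hrA]
    exact (normalises_env hN hg _).mp (hrA.subset ⟨X, rfl⟩)
  have hfC : ∀ g ∈ K, ∀ X, (gu g : Module.End F (ι → F)) * φC X * ((gu g)⁻¹).val ∈ Set.range φC := by
    intro g hg X
    refine hC _ (normalises_centraliser (normalises_env hN hg) fun a ha => ?_)
    obtain ⟨Y, rfl⟩ : a ∈ Set.range φA := hrA ▸ ha
    exact (hAC Y X).symm
  refine ⟨d, e, φA, φC, hd2, he2, hde, hAC, hirr2, hfA, hfC,
    fun X => hrA ▸ hclA _ (hrA.subset ⟨X, rfl⟩), fun X => hC _ ?_⟩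
  exact commute_st h hclA fun a ha => by
    obtain ⟨Y, rfl⟩ : a ∈ Set.range φA := hrA ▸ ha
    exact (hAC Y X).symm

omit [Fintype F] [Nonempty ι] in
theorem isSim_mem_map {W : Submodule F (ι → F)} {g : GL ι F} (hg : ∀ w ∈ W, (g : Matrix ι ι F) *ᵥ w ∈ W) {v : ι → F}
    (hv : v ∈ W) : ∃ w ∈ W, (g : Matrix ι ι F) *ᵥ w = v := by
  have heq : W.map (Matrix.toLin' (g : Matrix ι ι F)) = W := by
    refine Submodule.eq_of_le_of_finrank_eq (Submodule.map_le_iff_le_comap.mpr fun w hw => by simpa using hg w hw) ?_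
    exact (Submodule.equivMapOfInjective _ (fun a b hab => by
      have := congrArg ((g⁻¹ : GL ι F).val *ᵥ ·) (by simpa using hab : (g : Matrix ι ι F) *ᵥ a = (g : Matrix ι ι F) *ᵥ b)
      simpa [Matrix.mulVec_mulVec] using this) W).finrank_eq.symm
  rw [← heq] at hv
  obtain ⟨w, hw, rfl⟩ := hv
  exact ⟨w, hw, (Matrix.toLin'_apply _ _).symm⟩

omit [Nonempty ι] [Fintype F] in
theorem mem_stab_of_invariant {K : Subgroup (GL ι F)} {W : Submodule F (ι → F)}
    (hW : ∀ g ∈ K, ∀ w ∈ W, (g : Matrix ι ι F) *ᵥ w ∈ W) : K ≤ subspaceStabilizer W := fun g hg v =>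
  ⟨hW g hg v, fun hv => by
    obtain ⟨w, hw, he⟩ := isSim_mem_map (hW g hg) hv
    have := congrArg ((g⁻¹ : GL ι F).val *ᵥ ·) he
    have hwv : w = v := by simpa [Matrix.mulVec_mulVec, glToMat] using this
    rwa [← hwv]⟩

omit [Fintype F] in
/-- A reducible group of similarities fixes a totally singular or a pair of orthogonal nondegenerate subspaces. -/
theorem reducible_cases (h : FormData σ B ε) {K : Subgroup (GL ι F)} (hK : ∀ g ∈ K, IsSim σ B g)
    (hirr : ¬ Irr ((fun g : (Module.End F (ι → F))ˣ => (g : Module.End F (ι → F))) '' (gu '' (K : Set _)))) :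
    (∃ W, W ≠ ⊥ ∧ IsTotallySingularFor (matForm σ B) W ∧ K ≤ subspaceStabilizer W) ∨
    ∃ W W', W ≠ ⊥ ∧ W ≠ ⊤ ∧ W' ≠ ⊥ ∧ W' ≠ ⊤ ∧ IsNondegenerateOn (matForm σ B) W ∧ IsNondegenerateOn (matForm σ B) W' ∧
      AreOrthogonalFor (matForm σ B) W' W ∧ W ⊓ W' = ⊥ ∧ W ⊔ W' = ⊤ ∧ K ≤ subspaceStabilizer W ∧ K ≤ subspaceStabilizer W' := by
  classical
  simp only [Irr, not_forall, not_or] at hirr
  obtain ⟨W, hW, hW0, hW1⟩ := hirr
  have hinv : ∀ g ∈ K, ∀ w ∈ W, (g : Matrix ι ι F) *ᵥ w ∈ W := fun g hg w hw => by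
    have := hW _ ⟨gu g, ⟨g, hg, rfl⟩, rfl⟩ w hw
    rwa [gu_apply] at this
  let W' : Submodule F (ι → F) :=
    { carrier := {u | ∀ w ∈ W, matForm σ B u w = 0}
      add_mem' := fun {a b} ha hb w hw => by rw [mf_add_left, ha w hw, hb w hw, add_zero]
      zero_mem' := fun w _ => mf_zero_left w
      smul_mem' := fun c a ha w hw => by rw [mf_smul_left, ha w hw, mul_zero] }
  have hswap : ∀ u v, matForm σ B u v = 0 → matForm σ B v u = 0 := fun u v e => by
    rw [h.swap, e, map_zero, mul_zero]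
  have hinv' : ∀ g ∈ K, ∀ u ∈ W', (g : Matrix ι ι F) *ᵥ u ∈ W' := by
    intro g hg u hu w hw
    obtain ⟨c, -, hc⟩ := hK g hg
    obtain ⟨w', hw', rfl⟩ := isSim_mem_map (hinv g hg) hw
    rw [hc, hu w' hw', mul_zero]
  by_cases hU : W ⊓ W' = ⊥
  swap
  · exact Or.inl ⟨W ⊓ W', hU, fun u hu v hv => hu.2 v hv.1,
      mem_stab_of_invariant fun g hg w hw => ⟨hinv g hg w hw.1, hinv' g hg w hw.2⟩⟩
  right
  have hdim : Fintype.card ι ≤ Module.finrank F W + Module.finrank F W' := by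
    let bW := Module.finBasis F W
    let L : (ι → F) →ₗ[F] (Fin (Module.finrank F W) → F) :=
      { toFun := fun u k => matForm σ B u (bW k : ι → F)
        map_add' := fun a b => funext fun k => mf_add_left a b _
        map_smul' := fun c a => funext fun k => mf_smul_left c a _ }
    have hker : LinearMap.ker L ≤ W' := fun u hu w hw => by
      rw [show w = ((⟨w, hw⟩ : W) : ι → F) from rfl, ← bW.sum_repr ⟨w, hw⟩, Submodule.coe_sum, mf_sum_right]
      refine Finset.sum_eq_zero fun k _ => ?_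
      rw [Submodule.coe_smul, mf_smul_right, show matForm σ B u (bW k : ι → F) = 0 from congrFun hu k, mul_zero]
    have h1 := L.finrank_range_add_finrank_ker
    have h2 := Submodule.finrank_mono hker
    have h3 := Submodule.finrank_le (LinearMap.range L)
    rw [Module.finrank_fintype_fun_eq_card] at h1
    rw [Module.finrank_fin_fun] at h3
    omega
  have hsup : W ⊔ W' = ⊤ := by
    refine Submodule.eq_top_of_finrank_eq (le_antisymm (Submodule.finrank_le _) ?_)
    have := Submodule.finrank_sup_add_finrank_inf_eq W W'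
    rw [hU, finrank_bot, add_zero] at this
    rw [Module.finrank_fintype_fun_eq_card, this]; exact hdim
  have hnd : ∀ U U' : Submodule F (ι → F), U ⊔ U' = ⊤ → (∀ a ∈ U, ∀ b ∈ U', matForm σ B a b = 0) →
      IsNondegenerateOn (matForm σ B) U := by
    intro U U' hs ho w hw hw0
    obtain ⟨⟨x, hx⟩, ⟨y, hy⟩⟩ := nondeg_matForm (σ := σ) h.unit w hw0
    refine ⟨?_, ?_⟩
    · obtain ⟨a, ha, b, hb, rfl⟩ := Submodule.mem_sup.mp (show x ∈ U ⊔ U' by rw [hs]; trivial)
      rw [mf_add_left, hswap w b (ho w hw b hb), add_zero] at hx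
      exact ⟨a, ha, hx⟩
    · obtain ⟨a, ha, b, hb, rfl⟩ := Submodule.mem_sup.mp (show y ∈ U ⊔ U' by rw [hs]; trivial)
      rw [mf_add_right, ho w hw b hb, add_zero] at hy
      exact ⟨a, ha, hy⟩
  refine ⟨W, W', hW0, hW1, fun e => hW1 (by rwa [e, sup_bot_eq] at hsup), fun e => hW0 (by rwa [e, inf_top_eq] at hU),
    hnd W W' hsup fun a ha b hb => hswap b a (hb a ha), hnd W' W (by rwa [sup_comm]) fun a ha b hb => ha b hb,
    fun a ha b hb => ha b hb, hU, hsup, mem_stab_of_invariant hinv, mem_stab_of_invariant hinv'⟩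

end Cfsg.Agent.GeomClasses.AschRel
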