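import Cfsg.Agent.GeomClasses.Aschbacher.Rel.Tools

/-! # The structure theorem for orthogonal groups in odd dimension -/

set_option autoImplicit false
set_option maxHeartbeats 400000

namespace Cfsg.Agent.GeomClasses.AschRel

open Matrix Cfsg.Geo
open scoped commutatorElement
open Cfsg.Agent.GeomClasses.Asch (Irr Normalises conjHom conjHom_apply phi_injective tup)

variable {F : Type*} [Field F] [Fintype F] {m : ℕ}

local notation "ι" => (Unit ⊕ (Fin m ⊕ Fin m))
local notation "Qo" => Cfsg.quadFormOdd m F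

/-- The polar Gram matrix of the standard odd form. -/
def oddGram (m : ℕ) (F : Type*) [Field F] : Matrix (Unit ⊕ (Fin m ⊕ Fin m)) (Unit ⊕ (Fin m ⊕ Fin m)) F :=
  gram (QuadraticMap.polar (Cfsg.quadFormOdd m F))

local notation "Bo" => oddGram m F
local notation "fo" => matForm (RingEquiv.refl F) (oddGram m F)

/-- Containment in a geometric class of the odd orthogonal group. -/
def GoodOdd (H : Subgroup (GL (Unit ⊕ (Fin m ⊕ Fin m)) F)) : Prop :=
  ∃ M : Subgroup (GL (Unit ⊕ (Fin m ⊕ Fin m)) F), InOrthogonalOddClass m F M ∧ H ≤ M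

theorem card_odd_idx : Fintype.card ι = 2 * m + 1 := by simp; omega

section

variable (h2 : (2 : F) ≠ 0)
include h2

theorem quadOdd_nondeg : IsNondegenerateQuadraticForm Qo := by
  have hx : ∀ u v : ι → F, QuadraticMap.polar Qo u v =
      2 * (u (.inl ()) * v (.inl ())) + ∑ i, (u (.inr (.inl i)) * v (.inr (.inr i)) + u (.inr (.inr i)) * v (.inr (.inl i))) := by
    intro u v
    simp only [QuadraticMap.polar, Cfsg.quadFormOdd, Pi.add_apply]
    simp only [add_mul, mul_add, Finset.sum_add_distrib]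
    rw [Finset.sum_congr rfl fun i (_ : i ∈ Finset.univ) => mul_comm (v (.inr (.inl i))) (u (.inr (.inr i)))]
    ring
  refine ⟨fun c v => ?_, ⟨fun x y v => ?_, fun c x v => ?_, fun v x y => ?_, fun c v x => ?_⟩, fun v hv => ?_⟩
  · simp only [Cfsg.quadFormOdd, Pi.smul_apply, smul_eq_mul, mul_add, Finset.mul_sum]
    congr 1
    · ring
    · exact Finset.sum_congr rfl fun i _ => by ring
  · simp only [hx, Pi.add_apply, add_mul, mul_add, Finset.sum_add_distrib]; ring
  · simp only [hx, Pi.smul_apply, smul_eq_mul, mul_add, Finset.mul_sum]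
    congr 1
    · ring
    · exact Finset.sum_congr rfl fun i _ => by ring
  · simp only [hx, Pi.add_apply, add_mul, mul_add, Finset.sum_add_distrib]; ring
  · simp only [hx, Pi.smul_apply, smul_eq_mul, mul_add, Finset.mul_sum]
    congr 1
    · ring
    · exact Finset.sum_congr rfl fun i _ => by ring
  · obtain ⟨j, hj⟩ := Function.ne_iff.mp hv
    simp only [Pi.zero_apply] at hj
    suffices h : ∃ x, QuadraticMap.polar Qo v x ≠ 0 by
      obtain ⟨x, hx'⟩ := h
      exact ⟨⟨x, by rwa [QuadraticMap.polar_comm]⟩, ⟨x, hx'⟩⟩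
    rcases j with j | j | j
    · exact ⟨Pi.single (.inl ()) 1, by simp [hx, hj, h2]⟩
    · exact ⟨Pi.single (.inr (.inr j)) 1, by simp [hx, Pi.single_apply, hj]⟩
    · exact ⟨Pi.single (.inr (.inl j)) 1, by simp [hx, Pi.single_apply, hj]⟩

theorem polar_eq : QuadraticMap.polar Qo = fo := by
  have hb := (quadOdd_nondeg (m := m) h2).polar_bilinear
  funext u v
  exact eq_matForm hb.add_left hb.smul_left hb.add_right hb.smul_right u v

theorem quad_eq (v : ι → F) : Qo v = fo v v * 2⁻¹ := by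
  have hQ := quadOdd_nondeg (m := m) h2
  rw [← polar_eq h2, QuadraticMap.polar, show v + v = (2 : F) • v from (two_smul F v).symm, hQ.smul]
  field_simp
  ring

theorem oddData : FormData (RingEquiv.refl F) Bo 1 := by
  have hnd : IsNondegenerateForm fo := polar_eq (m := m) h2 ▸ (quadOdd_nondeg h2).nondegenerate
  refine ⟨fun a => rfl, isUnit_of_nondeg hnd, one_ne_zero, fun u v => ?_⟩
  rw [one_mul, ← polar_eq h2]
  exact QuadraticMap.polar_comm _ v u

theorem iso_of_mem {g : GL ι F} (hg : g ∈ isometryGroup F Qo) (u v : ι → F) :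
    fo ((g : Matrix ι ι F) *ᵥ u) ((g : Matrix ι ι F) *ᵥ v) = fo u v := by
  have hq : ∀ w, Qo ((g : Matrix ι ι F) *ᵥ w) = Qo w := fun w => hg w w
  rw [← polar_eq h2]
  simp only [QuadraticMap.polar, ← Matrix.mulVec_add, hq]

theorem sim_sup {H : Subgroup (GL ι F)} (hI : H ≤ isometryGroup F Qo) :
    ∀ g ∈ H ⊔ scalars ι F, IsSim (RingEquiv.refl F) Bo g := by
  intro g hg
  rw [← SetLike.mem_coe, Subgroup.mul_normal] at hg
  obtain ⟨a, ha, z, hz, rfl⟩ := hg
  obtain ⟨c, hc⟩ := (mem_scalars_iff z).mp hz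
  refine ⟨(c : F) * c, mul_ne_zero c.ne_zero c.ne_zero, fun u v => ?_⟩
  rw [Units.val_mul, ← Matrix.mulVec_mulVec, ← Matrix.mulVec_mulVec, iso_of_mem h2 (hI ha), hc, Matrix.smul_mulVec,
    Matrix.smul_mulVec, Matrix.one_mulVec, Matrix.one_mulVec, mf_smul_left, mf_smul_right]
  show (c : F) * ((c : F) * _) = _
  ring

omit h2 in
theorem det_gram_mem (F₁ : Subfield F) : (oddGram m F).det ∈ F₁ := by
  have hQ : ∀ u : ι → F, (∀ i, u i ∈ F₁) → Qo u ∈ F₁ := fun u hu =>
    add_mem (pow_mem (hu _) 2) (Subfield.sum_mem _ fun i _ => mul_mem (hu _) (hu _))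
  have hent : ∀ i j, oddGram m F i j ∈ F₁ := by
    intro i j
    have hs : ∀ a b : ι, (Pi.single a 1 : ι → F) b ∈ F₁ := fun a b => by
      rw [Pi.single_apply]; split <;> simp [one_mem, zero_mem]
    exact sub_mem (sub_mem (hQ _ fun k => add_mem (hs i k) (hs j k)) (hQ _ (hs i))) (hQ _ (hs j))
  let M : Matrix ι ι F₁ := Matrix.of fun i j => ⟨_, hent i j⟩
  have hM : (F₁.subtype).mapMatrix M = oddGram m F := by ext i j; rfl
  rw [← hM, ← RingHom.map_det]
  exact M.det.2

/-- A rational structure up to a scalar gives the subfield class. -/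
theorem odd_subfield {H : Subgroup (GL ι F)} (hI : H ≤ isometryGroup F Qo) {F₁ : Subfield F} {r : ℕ} (hr : r.Prime)
    (hcard : Fintype.card F = Nat.card F₁ ^ r) {P : GL ι F} (hH : H ≤ subfieldSubgroup F₁ P) {c : F} {B' : Matrix ι ι F}
    (hc : c ≠ 0) (hB' : ∀ i j, B' i j ∈ F₁)
    (he : (P : Matrix ι ι F)ᵀ * Bo * (P : Matrix ι ι F) = c • B') : GoodOdd H := by
  classical
  set Pm := (P : Matrix ι ι F)
  have hPd : Pm.det ≠ 0 := ((Matrix.isUnit_iff_isUnit_det _).mp P.isUnit).ne_zero
  have hBd : (oddGram m F).det ≠ 0 := (oddData h2).unit.ne_zero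
  have hd := congrArg Matrix.det he
  rw [Matrix.det_mul, Matrix.det_mul, Matrix.det_transpose, Matrix.det_smul, card_odd_idx] at hd
  have hB'd : B'.det ≠ 0 := fun h0 => mul_ne_zero (mul_ne_zero hPd hBd) hPd (by rw [hd, h0, mul_zero])
  have hB'm : B'.det ∈ F₁ := by
    let M : Matrix ι ι F₁ := Matrix.of fun i j => ⟨_, hB' i j⟩
    have hM : (F₁.subtype).mapMatrix M = B' := by ext i j; rfl
    rw [← hM, ← RingHom.map_det]; exact M.det.2
  set μ : F := Pm.det / c ^ m
  set a : F := (oddGram m F).det / B'.det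
  have ha : a ∈ F₁ := div_mem (det_gram_mem F₁) hB'm
  have hμ0 : μ ≠ 0 := div_ne_zero hPd (pow_ne_zero _ hc)
  have hca : c = μ * μ * a := by
    simp only [μ, a]
    field_simp
    linear_combination -hd
  let z : GL ι F := Units.map (Matrix.scalar ι : F →+* Matrix ι ι F).toMonoidHom (Units.mk0 μ⁻¹ (inv_ne_zero hμ0))
  have hz : ((z : GL ι F) : Matrix ι ι F) = μ⁻¹ • 1 := (Matrix.smul_one_eq_diagonal μ⁻¹).symm
  refine ⟨subfieldSubgroup F₁ (P * z) ⊓ isometryGroup F Qo, ?_, le_inf ?_ hI⟩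
  · iterate 6 right
    left
    refine ⟨F₁, r, P * z, hr, hcard, fun u hu => ?_, rfl⟩
    rw [quad_eq h2]
    refine mul_mem ?_ (inv_mem (by rw [← one_add_one_eq_two]; exact add_mem (one_mem F₁) (one_mem F₁)))
    have e : (((P * z : GL ι F) : Matrix ι ι F))ᵀ * Bo * ((P * z : GL ι F) : Matrix ι ι F).map (RingEquiv.refl F) =
        a • B' := by
      rw [show ((P * z : GL ι F) : Matrix ι ι F).map (RingEquiv.refl F) = ((P * z : GL ι F) : Matrix ι ι F) by
        ext i j; rfl, Units.val_mul, hz, Matrix.mul_smul, mul_one, Matrix.transpose_smul, Matrix.smul_mul,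
        Matrix.smul_mul, Matrix.mul_smul, smul_smul, he, smul_smul, hca]
      congr 1
      field_simp
    rw [matForm_apply, e]
    simp only [matForm, dotProduct, Matrix.mulVec, Matrix.smul_apply, smul_eq_mul, RingEquiv.refl_apply]
    refine Subfield.sum_mem _ fun i _ => mul_mem (hu i) (Subfield.sum_mem _ fun j _ => ?_)
    exact mul_mem (mul_mem ha (hB' i j)) (hu j)
  · intro g hg
    obtain ⟨y, hy, rfl⟩ := hH hg
    refine ⟨y, hy, ?_⟩
    show (P * z) * y * (P * z)⁻¹ = P * y * P⁻¹
    have hzy : z * y = y * z := scalars_comm ⟨_, rfl⟩ y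
    rw [_root_.mul_inv_rev, mul_assoc P z y, hzy, ← mul_assoc P y z, mul_assoc (P * y) z, ← mul_assoc z,
      mul_inv_cancel, one_mul]

theorem odd_decomp {H : Subgroup (GL ι F)} (hI : H ≤ isometryGroup F Qo) {t k : ℕ} {D : Fin t → Submodule F (ι → F)}
    (hD : IsNondegenerateMDecomposition fo k D) (hK : H ⊔ scalars ι F ≤ decompositionStabilizer D)
    (htr : ∀ i j, ∃ g ∈ H ⊔ scalars ι F, ∀ v ∈ D i, (g : Matrix ι ι F) *ᵥ v ∈ D j) : GoodOdd H := by
  classical
  have htr' : ∀ i j, ∃ g ∈ H, ∀ v ∈ D i, (g : Matrix ι ι F) *ᵥ v ∈ D j := by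
    intro i j
    obtain ⟨g, hg, hgij⟩ := htr i j
    rw [← SetLike.mem_coe, Subgroup.mul_normal] at hg
    obtain ⟨a, ha, z, hz, rfl⟩ := hg
    refine ⟨a, ha, fun v hv => ?_⟩
    obtain ⟨c, hc⟩ := (mem_scalars_iff z).mp hz
    have := hgij v hv
    rw [Units.val_mul, ← Matrix.mulVec_mulVec, hc, Matrix.smul_mulVec, Matrix.one_mulVec, Matrix.mulVec_smul] at this
    have h' := (D j).smul_mem (c : F)⁻¹ this
    rwa [smul_smul, inv_mul_cancel₀ c.ne_zero, one_smul] at h'
  have hiso : ∀ i j, AreIsometricFor Qo (D i) (D j) := by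
    intro i j
    obtain ⟨g, hg, hgij⟩ := htr' i j
    let L : D i →ₗ[F] D j :=
      { toFun := fun v => ⟨(g : Matrix ι ι F) *ᵥ (v : ι → F), hgij v v.2⟩
        map_add' := fun a b => Subtype.ext (by simp [Matrix.mulVec_add])
        map_smul' := fun c a => Subtype.ext (by simp [Matrix.mulVec_smul]) }
    have hinj : Function.Injective L := fun a b hab => by
      have := congrArg ((g⁻¹ : GL ι F).val *ᵥ ·) (congrArg Subtype.val hab)
      exact Subtype.ext (by simpa [L, Matrix.mulVec_mulVec] using this)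
    refine ⟨LinearEquiv.ofBijective L ⟨hinj, (LinearMap.injective_iff_surjective_of_finrank_eq_finrank
      (by rw [hD.decomp.finrank_eq, hD.decomp.finrank_eq])).mp hinj⟩, fun w => ?_⟩
    exact hI hg (w : ι → F) (w : ι → F)
  have hOD : IsOrthogonalMDecomposition Qo k D := ⟨by rw [polar_eq h2]; exact hD, hiso⟩
  have hle : H ≤ decompositionStabilizer D ⊓ isometryGroup F Qo := le_inf (le_sup_left.trans hK) hI
  rcases (show 1 < k ∨ k = 1 by have := hD.decomp.pos; omega) with hk | rfl
  · exact ⟨_, Or.inr <| Or.inr <| Or.inl ⟨t, k, D, hk, hOD, rfl⟩, hle⟩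
  by_cases hp : (Fintype.card F).Prime
  · exact ⟨_, Or.inr <| Or.inr <| Or.inr <| Or.inl ⟨t, D, hp, hOD, rfl⟩, hle⟩
  -- a frame over a larger field
  have ht := hD.decomp.two_le
  let i₀ : Fin t := ⟨0, by omega⟩
  obtain ⟨v₀, hv₀, hv₀0⟩ := (Submodule.ne_bot_iff (D i₀)).mp fun e => by
    have := hD.decomp.finrank_eq i₀; rw [e, finrank_bot] at this; omega
  choose g hgH hgi using fun j => htr' i₀ j
  let v : Fin t → (ι → F) := fun j => (g j : Matrix ι ι F) *ᵥ v₀
  have hv : ∀ j, v j ∈ D j := fun j => hgi j v₀ hv₀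
  have hv0 : ∀ j, v j ≠ 0 := fun j e => hv₀0 (by
    have := congrArg (((g j)⁻¹ : GL ι F).val *ᵥ ·) e
    simpa [v, Matrix.mulVec_mulVec] using this)
  have hQv : ∀ j, fo (v j) (v j) = fo v₀ v₀ := fun j => iso_of_mem h2 (hI (hgH j)) _ _
  set a := fo v₀ v₀
  have hgen : ∀ j, ∀ w ∈ D j, ∃ c : F, w = c • v j := fun j w hw => by
    obtain ⟨c, hc⟩ := (finrank_eq_one_iff_of_nonzero' (⟨v j, hv j⟩ : D j) (fun e => hv0 j (congrArg Subtype.val e))).mp
      (hD.decomp.finrank_eq j) ⟨w, hw⟩
    exact ⟨c, (congrArg Subtype.val hc).symm⟩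
  have ha : a ≠ 0 := by
    intro h0
    obtain ⟨-, x, hx, hx0⟩ := hD.nondegenerate i₀ (v i₀) (hv i₀) (hv0 i₀)
    obtain ⟨c, rfl⟩ := hgen i₀ x hx
    rw [mf_smul_right, hQv, h0, mul_zero] at hx0
    exact hx0 rfl
  have horth : ∀ i j, i ≠ j → fo (v i) (v j) = 0 := fun i j hij => hD.orthogonal i j hij _ (hv i) _ (hv j)
  have hli : LinearIndependent F v := hD.decomp.indep.linearIndependent D hv hv0
  have hsp : Submodule.span F (Set.range v) = ⊤ := by
    refine eq_top_iff.mpr (hD.decomp.iSup_eq_top ▸ iSup_le fun j w hw => ?_)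
    obtain ⟨c, rfl⟩ := hgen j w hw
    exact Submodule.smul_mem _ c (Submodule.subset_span ⟨j, rfl⟩)
  let b := Module.Basis.mk hli hsp.ge
  obtain ⟨e⟩ := finEquiv b
  have hb : ∀ j, b j = v j := fun j => Module.Basis.mk_apply hli hsp.ge j
  have hbot : (⊥ : Subfield F) ≠ ⊤ := by
    intro e'
    obtain ⟨p, hp'⟩ := CharP.exists F
    haveI := hp'
    haveI : Fact p.Prime := ⟨CharP.char_is_prime F p⟩
    have hbij : Function.Bijective (ZMod.castHom (dvd_refl p) F) := by
      refine ⟨RingHom.injective _, fun x => ?_⟩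
      have hx : x ∈ (⊥ : Subfield F) := e' ▸ trivial
      exact (bot_le : (⊥ : Subfield F) ≤ (ZMod.castHom (dvd_refl p) F).fieldRange) hx
    exact hp (by rw [← Fintype.card_of_bijective hbij, ZMod.card]; exact Fact.out)
  obtain ⟨F₁, r, hr, -, hcard⟩ := exists_prime_index hbot
  have hmon : ∀ x ∈ H, ∀ i j, (coordGL b x : Matrix (Fin t) (Fin t) F) i j ∈ F₁ := by
    intro x hx i j
    obtain ⟨π, hπ⟩ := hK (Subgroup.mem_sup_left hx)
    have hxv : (x : Matrix ι ι F) *ᵥ v j ∈ D (π j) := by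
      rw [← hπ j]; exact ⟨v j, hv j, Matrix.toLin'_apply _ _⟩
    obtain ⟨c, hc⟩ := hgen _ _ hxv
    have hcc : c * c = 1 := by
      have := iso_of_mem h2 (hI hx) (v j) (v j)
      rw [hc, mf_smul_left, mf_smul_right, hQv, hQv] at this
      refine mul_right_cancel₀ ha ?_
      rw [one_mul, mul_assoc]; exact this
    rw [coordGL_apply, gu_apply, hb, hc, map_smul, ← hb, Module.Basis.repr_self, Finsupp.smul_apply, Finsupp.single_apply,
      smul_eq_mul]
    split_ifs
    · rw [mul_one]
      rcases mul_self_eq_one_iff.mp hcc with h1 | h1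
      · rw [h1]; exact one_mem _
      · rw [h1]; exact neg_mem (one_mem _)
    · rw [mul_zero]; exact zero_mem _
  refine odd_subfield h2 hI hr hcard (P := frameGL b e) (c := a) (B' := 1) ?_ ha (fun i j => ?_) ?_
  · intro x hx
    refine ⟨glReindex e.symm (coordGL b x), Subgroup.mem_sup_left (mem_range_of_entries fun i j => ?_), conj_coord b e x⟩
    exact hmon x hx (e i) (e j)
  · by_cases hij : i = j <;> simp [Matrix.one_apply, hij, one_mem, zero_mem]
  · ext i j
    have := frame_form (σ := RingEquiv.refl F) (B := oddGram m F) b e (Pi.single (e i) 1) (Pi.single (e j) 1)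
    rw [show (Pi.single (e i) (1 : F) : Fin t → F) ∘ e = Pi.single i 1 from funext fun k => by simp [Pi.single_apply],
      show (Pi.single (e j) (1 : F) : Fin t → F) ∘ e = Pi.single j 1 from funext fun k => by simp [Pi.single_apply],
      matForm_apply, matForm_single, show (frameGL b e : Matrix ι ι F).map (RingEquiv.refl F) = (frameGL b e : Matrix ι ι F)
        by ext u w; rfl] at this
    rw [this, Finset.sum_eq_single (e i) (fun u _ hu => by simp [hu]) (by simp),
      Finset.sum_eq_single (e j) (fun u _ hu => by simp [hu]) (by simp), hb, hb, Matrix.smul_apply, smul_eq_mul]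
    by_cases hij : i = j
    · subst hij; simp [hQv, a]
    · rw [horth _ _ (fun e' => hij (e.injective e')), Matrix.one_apply_ne hij]; simp

omit h2 in
/-- Fields of operators closed under the adjoint consist of self-adjoint operators. -/
theorem field_selfAdjoint (hB : FormData (RingEquiv.refl F) Bo 1) {E : Subalgebra F (Module.End F (ι → F))}
    (hcomm : ∀ x ∈ E, ∀ y ∈ E, x * y = y * x) (hinv : ∀ x ∈ E, x ≠ 0 → ∃ y ∈ E, x * y = 1)
    (hcl : ∀ x ∈ E, st (RingEquiv.refl F) Bo x ∈ E) : ∀ x ∈ E, st (RingEquiv.refl F) Bo x = x := by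
  classical
  letI : CommRing E := { (inferInstance : Ring E) with mul_comm := fun a b => Subtype.ext (hcomm a a.2 b b.2) }
  haveI : Nontrivial E := ⟨0, 1, fun h => zero_ne_one (congrArg Subtype.val h)⟩
  have hF : IsField E := ⟨⟨0, 1, zero_ne_one⟩, mul_comm, fun {a} ha => by
    obtain ⟨y, hy, hxy⟩ := hinv a a.2 fun h => ha (Subtype.ext h)
    exact ⟨⟨y, hy⟩, Subtype.ext hxy⟩⟩
  letI : Field E := hF.toField
  haveI : Finite (ι → F) := Pi.finite
  haveI : Finite (Module.End F (ι → F)) := Finite.of_injective _ DFunLike.coe_injective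
  haveI : IsScalarTower F E (ι → F) := ⟨fun c a v => rfl⟩
  let s₀ : E →ₐ[F] E :=
    { toFun := fun x => ⟨st (RingEquiv.refl F) Bo x.1, hcl x.1 x.2⟩
      map_one' := Subtype.ext (st_one hB)
      map_mul' := fun x y => Subtype.ext (by
        show st _ _ (x.1 * y.1) = st _ _ x.1 * st _ _ y.1
        rw [st_mul hB]; exact hcomm _ (hcl _ y.2) _ (hcl _ x.2))
      map_zero' := Subtype.ext (st_zero hB)
      map_add' := fun x y => Subtype.ext (st_add hB _ _)
      commutes' := fun c => Subtype.ext (by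
        show st _ _ (algebraMap F (Module.End F (ι → F)) c) = algebraMap F _ c
        rw [st_algebraMap hB]; rfl) }
  let s : E ≃ₐ[F] E := AlgEquiv.ofAlgHom s₀ s₀ (AlgHom.ext fun x => Subtype.ext (st_st hB x.1))
    (AlgHom.ext fun x => Subtype.ext (st_st hB x.1))
  have hss : s ^ 2 = 1 := by rw [pow_two]; exact AlgEquiv.ext fun x => Subtype.ext (st_st hB x.1)
  have hdvd : Module.finrank F E ∣ 2 * m + 1 := by
    refine ⟨Module.finrank E (ι → F), ?_⟩
    rw [Module.finrank_mul_finrank, Module.finrank_fintype_fun_eq_card, card_odd_idx]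
  have hodd : Odd (Nat.card (E ≃ₐ[F] E)) := by
    rw [IsGalois.card_aut_eq_finrank]
    exact Odd.of_dvd_nat ⟨m, rfl⟩ hdvd
  have hs1 : s = 1 := by
    have h1 : orderOf s ∣ 2 := orderOf_dvd_of_pow_eq_one hss
    have h2' : orderOf s ∣ Nat.card (E ≃ₐ[F] E) := orderOf_dvd_natCard s
    refine orderOf_eq_one_iff.mp ((Nat.dvd_prime Nat.prime_two).mp h1 |>.resolve_right fun h3 => ?_)
    rw [h3] at h2'
    exact Nat.not_even_iff_odd.mpr hodd (even_iff_two_dvd.mpr h2')
  intro x hx
  exact congrArg Subtype.val (congrFun (congrArg DFunLike.coe hs1) (⟨x, hx⟩ : E))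

theorem odd_comm {H : Subgroup (GL ι F)} (hI : H ≤ isometryGroup F Qo) (hm : 3 ≤ m)
    (hirr : Irr ((fun u : (Module.End F (ι → F))ˣ => (u : Module.End F (ι → F))) '' opUnits (H ⊔ scalars ι F)))
    {E : Subalgebra F (Module.End F (ι → F))} (hcomm : ∀ x ∈ E, ∀ y ∈ E, x * y = y * x)
    (hnorm : ∀ g ∈ H ⊔ scalars ι F, Normalises E (gu g)) (hcl : ∀ x ∈ E, st (RingEquiv.refl F) Bo x ∈ E)
    (hbig : ∃ x ∈ E, ∀ c : F, x ≠ algebraMap F _ c) : GoodOdd H := by
  classical
  have hB := oddData (m := m) h2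
  set K := H ⊔ scalars ι F
  rcases blocks_or_field hB (sim_sup h2 hI) hirr hcomm hnorm hcl with ⟨t, k, D, hD, hKD, htr⟩ | ⟨k, D, hk, -⟩ | hinv
  · exact odd_decomp h2 hI hD hKD htr
  · rw [card_odd_idx] at hk; omega
  have hself := field_selfAdjoint hB hcomm hinv hcl
  obtain ⟨r, L, hr, hLE, hfin, hLinv, hLN⟩ := Asch.exists_prime_subfield hcomm hinv hbig
  by_cases hrn : 2 * m + 1 ≠ r
  · let Φ : Module.End F (ι → F) ≃ₐ[F] Matrix ι ι F := LinearMap.toMatrixAlgEquiv'
    let L' : Subalgebra F (Matrix ι ι F) := L.map Φ.toAlgHom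
    have hmem : ∀ x, x ∈ L' ↔ Φ.symm x ∈ L := fun x =>
      ⟨by rintro ⟨y, hy, rfl⟩; simpa using hy, fun h => ⟨_, h, Φ.apply_symm_apply x⟩⟩
    have hfield : IsFieldSubalgebra r L' := by
      refine ⟨fun x hx y hy => ?_, fun x hx hx0 => ?_, ?_⟩
      · apply Φ.symm.injective
        rw [map_mul, map_mul]
        exact hcomm _ (hLE ((hmem x).mp hx)) _ (hLE ((hmem y).mp hy))
      · obtain ⟨y, hy, hxy⟩ := hLinv _ ((hmem x).mp hx) (by simpa using hx0)
        refine ⟨Φ y, (hmem _).mpr (by simpa using hy), Φ.symm.injective ?_⟩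
        simpa using hxy
      · rw [← hfin]
        exact (L.equivMapOfInjective Φ.toAlgHom Φ.injective).toLinearEquiv.finrank_eq.symm
    refine ⟨subalgebraNormalizer L' ⊓ isometryGroup F Qo, ?_, le_inf (fun g hg k => ?_) hI⟩
    · iterate 4 right
      left
      refine ⟨r, L', hr, hrn, hfield, fun k hk u v => ?_, rfl⟩
      rw [polar_eq h2]
      have e := adjoint hB (Φ.symm k) u v
      rw [hself _ (hLE ((hmem k).mp hk))] at e
      exact e
    · rw [hmem, hmem, hLN (gu g) (hnorm g (Subgroup.mem_sup_left hg)), map_mul, map_mul, ← map_inv]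
      rfl
  push_neg at hrn
  -- a Singer cycle normaliser meets the group in an abelian group
  have hcent : ∀ g ∈ H, (∀ l ∈ L, Commute (gu g : Module.End F (ι → F)) l) → g ∈ scalars ι F := by
    intro g hg hgl
    obtain ⟨v, hv⟩ : ∃ v : ι → F, v ≠ 0 := exists_ne 0
    let ev : L →ₗ[F] (ι → F) :=
      { toFun := fun l => (l : Module.End F (ι → F)) v
        map_add' := fun a b => rfl
        map_smul' := fun c a => rfl }
    have hker : ∀ l : L, (l : Module.End F (ι → F)) v = 0 → l = 0 := fun l hl => by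
      by_contra h0
      obtain ⟨y, hy, hly⟩ := hLinv l l.2 fun e => h0 (Subtype.ext e)
      apply hv
      have : (y : Module.End F (ι → F)) ((l : Module.End F (ι → F)) v) = v := by
        rw [← Module.End.mul_apply, hcomm y (hLE hy) l (hLE l.2), hly]; rfl
      rw [← this, hl, map_zero]
    have hev : Function.Injective ev := fun a b hab => sub_eq_zero.mp (hker (a - b) (by
      show (a : Module.End F (ι → F)) v - (b : Module.End F (ι → F)) v = 0
      exact sub_eq_zero.mpr hab))
    have hsur : Function.Surjective ev := by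
      refine LinearMap.range_eq_top.mp (Submodule.eq_top_of_finrank_eq ?_)
      rw [LinearMap.finrank_range_of_inj hev, Module.finrank_fintype_fun_eq_card, card_odd_idx, hrn]
      exact hfin
    obtain ⟨l, hl⟩ := hsur ((gu g : Module.End F (ι → F)) v)
    have hgl' : (gu g : Module.End F (ι → F)) = l := LinearMap.ext fun w => by
      obtain ⟨k, rfl⟩ := hsur w
      show (gu g : Module.End F (ι → F)) ((k : Module.End F (ι → F)) v) = (l : Module.End F (ι → F)) ((k : Module.End F (ι → F)) v)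
      rw [← Module.End.mul_apply, (hgl k k.2).eq, Module.End.mul_apply, ← show ev l = _ from hl]
      show (k : Module.End F (ι → F)) ((l : Module.End F (ι → F)) v) = _
      rw [← Module.End.mul_apply, hcomm k (hLE k.2) l (hLE l.2), Module.End.mul_apply]
    have hst := sim_mult hB (c := 1) (g := g) fun u w => by rw [one_mul]; exact iso_of_mem h2 (hI hg) u w
    rw [map_one, one_smul, hgl', hself _ (hLE l.2)] at hst
    have hsq : (l : Module.End F (ι → F)) * (l : Module.End F (ι → F)) = 1 := by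
      conv_lhs => arg 2; rw [hst]
      rw [← hgl', Units.mul_inv]
    have hfac : ((l : Module.End F (ι → F)) - 1) * ((l : Module.End F (ι → F)) + 1) = 0 := by
      rw [sub_mul, mul_add, hsq, one_mul, mul_one]; abel
    by_cases h1 : (l : Module.End F (ι → F)) - 1 = 0
    · exact mem_scalars_of_op (c := 1) (by rw [hgl', map_one, sub_eq_zero.mp h1])
    · obtain ⟨y, -, hy⟩ := hLinv _ (sub_mem l.2 (one_mem L)) h1
      have : (l : Module.End F (ι → F)) + 1 = 0 := by
        have hc : y * ((l : Module.End F (ι → F)) - 1) = 1 := by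
          exact mul_eq_one_comm.mp hy
        calc (l : Module.End F (ι → F)) + 1 = (y * ((l : Module.End F (ι → F)) - 1)) * ((l : Module.End F (ι → F)) + 1) := by
              rw [hc, one_mul]
          _ = 0 := by rw [mul_assoc, hfac, mul_zero]
      exact mem_scalars_of_op (c := -1) (by rw [hgl', eq_neg_of_add_eq_zero_left this, map_neg, map_one])
  have habel : ∀ a ∈ H, ∀ b ∈ H, a * b = b * a := by
    letI : CommRing L := { (inferInstance : Ring L) with mul_comm := fun a b => Subtype.ext (hcomm a (hLE a.2) b (hLE b.2)) }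
    haveI : Nontrivial L := ⟨0, 1, fun h => zero_ne_one (congrArg Subtype.val h)⟩
    have hLF : IsField L := ⟨⟨0, 1, zero_ne_one⟩, mul_comm, fun {a} ha => by
      obtain ⟨y, hy, hxy⟩ := hLinv a a.2 fun h => ha (Subtype.ext h)
      exact ⟨⟨y, hy⟩, Subtype.ext hxy⟩⟩
    letI : Field L := hLF.toField
    haveI : Finite (ι → F) := Pi.finite
    haveI : Finite (Module.End F (ι → F)) := Finite.of_injective _ DFunLike.coe_injective
    have hn : ∀ g ∈ H, ∀ x ∈ L, conjHom (gu g) x ∈ L := fun g hg x hx =>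
      (hLN (gu g) (hnorm g (Subgroup.mem_sup_left hg)) x).mp hx
    let act : H →* (L ≃ₐ[F] L) :=
      MonoidHom.mk' (fun g => AlgEquiv.ofBijective (((conjHom (gu g.1)).comp L.val).codRestrict L fun x => hn g g.2 x x.2)
        (Finite.injective_iff_bijective.mp fun x y hxy => Subtype.ext (by
          have h0 : conjHom (gu g.1) x.1 = conjHom (gu g.1) y.1 := congrArg Subtype.val hxy
          have := congrArg (fun z : Module.End F (ι → F) => ((gu g.1)⁻¹).val * z * (gu g.1 : Module.End F (ι → F))) h0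
          simpa [conjHom_apply, mul_assoc] using this)))
        fun a b => AlgEquiv.ext fun x => Subtype.ext (by
          show conjHom (gu (a.1 * b.1)) x.1 = conjHom (gu a.1) (conjHom (gu b.1) x.1)
          simp [conjHom_apply, mul_assoc])
    obtain ⟨⟨_, g₀, rfl⟩, hgen⟩ := IsCyclic.exists_generator (α := act.range)
    have hdec : ∀ a : H, ∃ (k : ℤ) (z : GL ι F), z ∈ scalars ι F ∧ (a : GL ι F) = (g₀ : GL ι F) ^ k * z := by
      intro a
      obtain ⟨k, hk⟩ := Subgroup.mem_zpowers_iff.mp (hgen ⟨act a, a, rfl⟩)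
      have hk' : act (g₀ ^ k) = act a := by rw [map_zpow]; exact congrArg Subtype.val hk
      have h1 : act ((g₀ ^ k)⁻¹ * a) = 1 := by rw [map_mul, map_inv, hk', inv_mul_cancel]
      refine ⟨k, _, hcent _ ((g₀ ^ k)⁻¹ * a).2 fun l hl => ?_, (mul_inv_cancel_left _ _).symm⟩
      have h3 := congrArg Subtype.val (congrFun (congrArg DFunLike.coe h1) (⟨l, hl⟩ : L))
      have h4 : conjHom (gu (((g₀ ^ k)⁻¹ * a : H) : GL ι F)) l = l := h3
      rw [conjHom_apply] at h4
      show _ * _ = _ * _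
      conv_rhs => rw [← h4]
      rw [mul_assoc, Units.inv_mul, mul_one]
    intro a ha b hb
    obtain ⟨i, z, hz, e1⟩ := hdec ⟨a, ha⟩
    obtain ⟨j, w, hw, e2⟩ := hdec ⟨b, hb⟩
    simp only at e1 e2
    rw [e1, e2]
    have c1 : Commute ((g₀ : GL ι F) ^ i * z) ((g₀ : GL ι F) ^ j * w) :=
      ((Commute.zpow_zpow_self _ i j).mul_right (scalars_comm hw _).symm).mul_left (scalars_comm hz _)
    exact c1.eq
  have hHnorm : ∀ g ∈ K, Normalises (env H) (gu g) := fun g hg => by
    refine normalises_env (K := K) (fun k hk x hx => ?_) hg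
    rw [← SetLike.mem_coe, Subgroup.mul_normal] at hk
    obtain ⟨a, ha, z, hz, rfl⟩ := hk
    rw [show a * z * x * (a * z)⁻¹ = a * (z * x * z⁻¹) * a⁻¹ by group, scalars_comm hz x, mul_inv_cancel_right]
    exact mul_mem (mul_mem ha hx) (inv_mem ha)
  have hHcomm : ∀ x ∈ env H, ∀ y ∈ env H, x * y = y * x := by
    intro x hx y hy
    refine (Algebra.commute_of_mem_adjoin_of_forall_mem_commute hy ?_ : Commute x y).eq
    rintro _ ⟨b, hb, rfl⟩
    refine Algebra.commute_of_mem_adjoin_of_forall_mem_commute hx ?_ |>.symm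
    rintro _ ⟨a, ha, rfl⟩
    show _ * _ = _ * _
    rw [← Units.val_mul, ← Units.val_mul, ← map_mul, ← map_mul, habel b hb a ha]
  have hHcl := env_closed hB (N := H) fun g hg => sim_sup h2 hI g (Subgroup.mem_sup_left hg)
  rcases blocks_or_field hB (sim_sup h2 hI) hirr hHcomm hHnorm hHcl with ⟨t, k, D, hD, hKD, htr⟩ | ⟨k, D, hk, -⟩ | hHinv
  · exact odd_decomp h2 hI hD hKD htr
  · rw [card_odd_idx] at hk; omega
  have hHself := field_selfAdjoint hB hHcomm hHinv hHcl
  exfalso
  have hHZ : ∀ g ∈ H, g ∈ scalars ι F := by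
    intro g hg
    have hst := sim_mult hB (c := 1) (g := g) fun u w => by rw [one_mul]; exact iso_of_mem h2 (hI hg) u w
    rw [map_one, one_smul, hHself _ (mem_env hg)] at hst
    set l : Module.End F (ι → F) := (gu g : Module.End F (ι → F))
    have hsq : l * l = 1 := by conv_lhs => arg 2; rw [hst]
                               exact Units.mul_inv _
    by_cases h1 : l - 1 = 0
    · exact mem_scalars_of_op (c := 1) (by rw [map_one]; exact sub_eq_zero.mp h1)
    · obtain ⟨y, -, hy⟩ := hHinv _ (sub_mem (mem_env hg) (one_mem _)) h1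
      have hfac : (l - 1) * (l + 1) = 0 := by rw [sub_mul, mul_add, hsq, one_mul, mul_one]; abel
      have : l + 1 = 0 := by
        calc l + 1 = (y * (l - 1)) * (l + 1) := by rw [mul_eq_one_comm.mp hy, one_mul]
          _ = 0 := by rw [mul_assoc, hfac, mul_zero]
      exact mem_scalars_of_op (c := -1) (by rw [map_neg, map_one]; exact eq_neg_of_add_eq_zero_left this)
  let W : Submodule F (ι → F) := Submodule.span F {Pi.single (Sum.inl ()) 1}
  have hfr : Module.finrank F W = 1 := finrank_span_singleton (by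
    intro h0
    have := congrFun h0 (Sum.inl ())
    simp at this)
  rcases hirr W (by
    rintro _ ⟨_, ⟨g, hg, rfl⟩, rfl⟩ w hw
    have hgZ : g ∈ scalars ι F := (sup_le (fun a ha => hHZ a ha) le_rfl : K ≤ scalars ι F) hg
    obtain ⟨c, hc⟩ := (mem_scalars_iff g).mp hgZ
    show (gu g : Module.End F (ι → F)) w ∈ W
    rw [gu_apply, hc, Matrix.smul_mulVec, Matrix.one_mulVec]
    exact W.smul_mem _ hw) with h | h
  · rw [h, finrank_bot] at hfr; omega
  · rw [h, finrank_top, Module.finrank_fintype_fun_eq_card, card_odd_idx] at hfr; omega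

end

end Cfsg.Agent.GeomClasses.AschRel
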