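import Cfsg.Agent.GeomClasses.Aschbacher.Rel.OrthOdd
import Cfsg.Agent.Forms.Discr

/-! # Main argument for orthogonal groups in odd dimension -/

set_option autoImplicit false
set_option maxHeartbeats 400000

namespace Cfsg.Agent.GeomClasses.AschRel

open Matrix Cfsg.Geo
open scoped commutatorElement
open Cfsg.Agent.GeomClasses.Asch (Irr Normalises conjHom conjHom_apply phi_injective tup)

variable {F : Type*} [Field F] [Fintype F] {m : ℕ}

local notation "ι" => (Unit ⊕ (Fin m ⊕ Fin m))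
local notation "Qo" => Cfsg.quadFormOdd m F
local notation "Bo" => oddGram m F
local notation "fo" => matForm (RingEquiv.refl F) (oddGram m F)

omit [Fintype F] in
/-- A factor Gram matrix of odd size is symmetric. -/
theorem gram_symm {d : ℕ} (hd : Odd d) {G : Matrix (Fin d) (Fin d) F} (hG : IsUnit G.det) {ν : F}
    (h : (Gᵀ).map (RingEquiv.refl F) = ν • G) : Gᵀ = G := by
  have h' : Gᵀ = ν • G := h
  have h1 : ν ^ d = 1 := by
    have := congrArg Matrix.det h'
    rw [Matrix.det_transpose, Matrix.det_smul, Fintype.card_fin] at this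
    exact mul_right_cancel₀ hG.ne_zero (by rw [one_mul]; exact this.symm)
  have h2 : (ν * ν - 1) • G = 0 := by
    have := congrArg Matrix.transpose h'
    rw [Matrix.transpose_transpose, Matrix.transpose_smul, h', smul_smul] at this
    rw [sub_smul, one_smul, ← this, sub_self]
  have hν2 : ν * ν = 1 := sub_eq_zero.mp ((smul_eq_zero.mp h2).resolve_right fun h0 => by
    rcases Nat.eq_zero_or_pos d with rfl | hd0
    · exact absurd hd (by decide)
    haveI : Nonempty (Fin d) := ⟨⟨0, hd0⟩⟩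
    exact hG.ne_zero (by rw [h0, Matrix.det_zero]))
  obtain ⟨k, rfl⟩ := hd
  rw [pow_succ, pow_mul, pow_two, hν2, one_pow, one_mul] at h1
  rw [h', h1, one_smul]

omit [Fintype F] in
theorem symmForm_of {d : ℕ} {G : Matrix (Fin d) (Fin d) F} (hG : IsUnit G.det) (hsymm : Gᵀ = G) :
    IsSymmetricForm (matForm (RingEquiv.refl F) G) := by
  refine ⟨⟨fun x y v => mf_add_left x y v, fun c x v => mf_smul_left c x v, fun v x y => mf_add_right v x y,
    fun c v x => by rw [mf_smul_right]; rfl⟩, fun u v => ?_, nondeg_matForm hG⟩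
  show u ⬝ᵥ (G *ᵥ v) = v ⬝ᵥ (G *ᵥ u)
  rw [Matrix.dotProduct_mulVec u, dotProduct_comm, ← Matrix.mulVec_transpose, hsymm]

omit [Fintype F] in
theorem gramMatrix_matForm {d : ℕ} (G : Matrix (Fin d) (Fin d) F) :
    gramMatrix (matForm (RingEquiv.refl F) G) = G := by
  funext a b; exact matForm_single _ G a b

omit [Fintype F] in
/-- Moving a Gram matrix by a congruence moves its adjoint by a conjugation. -/
theorem stG_conj {d : ℕ} {G G' : Matrix (Fin d) (Fin d) F} {S : GL (Fin d) F} {s : F} (hs : s ≠ 0) (hG : IsUnit G.det)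
    (hG' : IsUnit G'.det)
    (hS : (S : Matrix (Fin d) (Fin d) F)ᵀ * G * (S : Matrix (Fin d) (Fin d) F) = s • G') (X : Matrix (Fin d) (Fin d) F) :
    stG (RingEquiv.refl F) G ((S : Matrix (Fin d) (Fin d) F) * X * (S⁻¹ : GL (Fin d) F).val) =
      (S : Matrix (Fin d) (Fin d) F) * stG (RingEquiv.refl F) G' X * (S⁻¹ : GL (Fin d) F).val := by
  set Sm := (S : Matrix (Fin d) (Fin d) F)
  have hSu : IsUnit Sm.det := (Matrix.isUnit_iff_isUnit_det _).mp S.isUnit
  have hmap : ∀ Z : Matrix (Fin d) (Fin d) F, Z.map (RingEquiv.refl F) = Z := fun Z => by ext u w; rfl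
  have e1 : Sm⁻¹ᵀ = s⁻¹ • (G * Sm * G'⁻¹) := by
    rw [Matrix.transpose_nonsing_inv]
    refine Matrix.inv_eq_right_inv ?_
    rw [Matrix.mul_smul, ← mul_assoc, ← mul_assoc, hS, Matrix.smul_mul, Matrix.mul_nonsing_inv _ hG', smul_smul,
      inv_mul_cancel₀ hs, one_smul]
  have e2 : Smᵀ * G = s • (G' * Sm⁻¹) := by
    calc Smᵀ * G = Smᵀ * G * Sm * Sm⁻¹ := by rw [Matrix.mul_nonsing_inv_cancel_right _ _ hSu]
      _ = _ := by rw [hS, Matrix.smul_mul]
  have hSi : (S⁻¹ : GL (Fin d) F).val = Sm⁻¹ := Matrix.coe_units_inv S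
  simp only [stG, hmap, hSi, Matrix.transpose_mul]
  rw [e1]
  calc G⁻¹ * (s⁻¹ • (G * Sm * G'⁻¹) * (Xᵀ * Smᵀ)) * G =
        s⁻¹ • ((G⁻¹ * G) * (Sm * G'⁻¹ * Xᵀ * (Smᵀ * G))) := by
        simp only [Matrix.smul_mul, Matrix.mul_smul, mul_assoc]
    _ = Sm * (G'⁻¹ * Xᵀ * G') * Sm⁻¹ := by
        rw [Matrix.nonsing_inv_mul _ hG, one_mul, e2, Matrix.mul_smul, smul_smul, inv_mul_cancel₀ hs, one_smul]
        simp only [mul_assoc]

omit [Fintype F] in
/-- Conjugation on a matrix algebra. -/
noncomputable def innerHom {d : ℕ} (S : GL (Fin d) F) : Matrix (Fin d) (Fin d) F →ₐ[F] Matrix (Fin d) (Fin d) F :=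
  { toFun := fun X => (S : Matrix (Fin d) (Fin d) F) * X * (S⁻¹ : GL (Fin d) F).val
    map_one' := by simp
    map_mul' := fun X Y => by simp [mul_assoc]
    map_zero' := by simp
    map_add' := fun X Y => by simp [mul_add, add_mul]
    commutes' := fun c => by rw [← Algebra.commutes, mul_assoc, Units.mul_inv, mul_one] }

omit [Fintype F] in
theorem range_innerHom {d : ℕ} (S : GL (Fin d) F) {κ : Type} (φ : Matrix (Fin d) (Fin d) F →ₐ[F] Module.End F (κ → F)) :
    Set.range (φ.comp (innerHom S)) = Set.range φ := by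
  refine Set.Subset.antisymm (Set.range_subset_iff.mpr fun X => ⟨innerHom S X, rfl⟩) (Set.range_subset_iff.mpr fun X => ?_)
  refine ⟨(S⁻¹ : GL (Fin d) F).val * X * (S : Matrix (Fin d) (Fin d) F), ?_⟩
  show φ ((S : Matrix (Fin d) (Fin d) F) * _ * _) = _
  congr 1
  simp [mul_assoc]

/-- Two odd symmetric forms of the same size are similar. -/
theorem exists_similar {d : ℕ} (h2 : (2 : F) ≠ 0) (hd : Odd d) {G G' : Matrix (Fin d) (Fin d) F} (hG : IsUnit G.det)
    (hs : Gᵀ = G) (hG' : IsUnit G'.det) (hs' : G'ᵀ = G') :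
    ∃ (S : GL (Fin d) F) (a : F), a ≠ 0 ∧ (S : Matrix (Fin d) (Fin d) F)ᵀ * G * (S : Matrix (Fin d) (Fin d) F) = a • G' := by
  classical
  obtain ⟨k, rfl⟩ := hd
  set a := G.det * G'.det
  have ha : a ≠ 0 := mul_ne_zero hG.ne_zero hG'.ne_zero
  have sym : ∀ A : Matrix (Fin (2 * k + 1)) (Fin (2 * k + 1)) F, Aᵀ = A → (Matrix.toBilin' A).IsSymm := fun A hA => ⟨fun u v => by
    show Matrix.toBilin' A u v = Matrix.toBilin' A v u
    rw [Matrix.toBilin'_apply', Matrix.toBilin'_apply', Matrix.dotProduct_mulVec u, dotProduct_comm, ← Matrix.mulVec_transpose, hA]⟩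
  have hdetG : (a • G').det ≠ 0 := by
    rw [Matrix.det_smul]; exact mul_ne_zero (pow_ne_zero _ ha) hG'.ne_zero
  have nd : ∀ A : Matrix (Fin (2 * k + 1)) (Fin (2 * k + 1)) F, A.det ≠ 0 → (Matrix.toBilin' A).Nondegenerate := fun A hA =>
    LinearMap.BilinForm.nondegenerate_toBilin'_iff_det_ne_zero.mpr hA
  obtain ⟨e, he⟩ := Cfsg.Agent.Forms.exists_isometry_of_det (n := 2 * k) h2 (sym _ (by rw [Matrix.transpose_smul, hs'] : (a • G')ᵀ = a • G'))
    (nd _ hdetG) (sym G hs) (nd G hG.ne_zero) (Module.finrank_fin_fun F) (Module.finrank_fin_fun F) (Pi.basisFun F _) (Pi.basisFun F _) (by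
      simp only [LinearMap.BilinForm.toMatrix_basisFun, LinearMap.BilinForm.toMatrix'_toBilin', Matrix.det_smul, Fintype.card_fin]
      refine ⟨a ^ (k + 1), ?_⟩
      simp only [a]
      ring)
  let S : GL (Fin (2 * k + 1)) F := Matrix.nonsingInvUnit (LinearMap.toMatrix' e.toLinearMap) (by
    rw [LinearMap.det_toMatrix']; exact LinearEquiv.isUnit_det' e)
  refine ⟨S, a, ha, ?_⟩
  ext i j
  have hev := he (Pi.single i 1) (Pi.single j 1)
  have hmul : ∀ v, (S : Matrix (Fin (2 * k + 1)) (Fin (2 * k + 1)) F) *ᵥ v = e v := fun v => LinearMap.toMatrix'_mulVec e.toLinearMap v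
  rw [Matrix.toBilin'_apply', Matrix.toBilin'_apply', ← hmul, ← hmul] at hev
  rw [Matrix.mulVec_mulVec, ← Matrix.vecMul_transpose, ← Matrix.dotProduct_mulVec, Matrix.mulVec_mulVec, ← mul_assoc] at hev
  simpa using hev

section

variable (h2 : (2 : F) ≠ 0)
include h2

theorem odd_tensor {H : Subgroup (GL ι F)} (hI : H ≤ isometryGroup F Qo) {d : Fin 2 → ℕ} (h₁ : 3 ≤ d 0) (h₂ : d 0 < d 1)
    (ho : ∀ i, Odd (d i)) (φ : ∀ i, Matrix (Fin (d i)) (Fin (d i)) F →ₐ[F] Module.End F (ι → F))
    (hc : Pairwise fun i j => ∀ X Y, Commute (φ i X) (φ j Y)) (hi : Irr (⋃ i, Set.range (φ i)))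
    (hfix : ∀ g ∈ H, ∀ i X, (gu g : Module.End F (ι → F)) * φ i X * ((gu g)⁻¹).val ∈ Set.range (φ i))
    (hcl : ∀ i X, st (RingEquiv.refl F) Bo (φ i X) ∈ Set.range (φ i)) : GoodOdd H := by
  classical
  have hB := oddData (m := m) h2
  have hd : ∀ i, 0 < d i := fun i => (ho i).pos
  have hG : ∀ i, ∃ G : GL (Fin (d i)) F, ((G : Matrix (Fin (d i)) (Fin (d i)) F)ᵀ = G) ∧
      ∀ X, st (RingEquiv.refl F) Bo (φ i X) = φ i (stG (RingEquiv.refl F) (G : Matrix (Fin (d i)) (Fin (d i)) F) X) := by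
    intro i
    obtain ⟨G, ν, -, hG, hν⟩ := exists_factor_gram hB (hd i) (φ i) (phi_injective φ hd i) (hcl i)
    exact ⟨G, gram_symm (ho i) ((Matrix.isUnit_iff_isUnit_det _).mp G.isUnit) hν, hG⟩
  choose G hGs hG using hG
  obtain ⟨b, c, hc0, hb, hBf⟩ := gram_tensor φ hc hB hd hi G hG
  let E : (∀ i, Fin (d i)) ≃ Fin (d 0) × Fin (d 1) := piFinTwoEquiv fun i => Fin (d i)
  obtain ⟨e⟩ := finEquiv (b.reindex E)
  refine ⟨tensorProductSubgroup (d 0) (d 1) e (frameGL (b.reindex E) e) ⊓ isometryGroup F Qo, ?_,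
    le_inf (le_conj_reindex (b.reindex E) e fun g hg => ?_) hI⟩
  · iterate 5 right
    left
    refine ⟨d 0, d 1, e, frameGL (b.reindex E) e, matForm (RingEquiv.refl F) (G 0 : Matrix (Fin (d 0)) (Fin (d 0)) F),
      matForm (RingEquiv.refl F) (G 1 : Matrix (Fin (d 1)) (Fin (d 1)) F), h₁, h₂,
      symmForm_of ((Matrix.isUnit_iff_isUnit_det _).mp (G 0).isUnit) (hGs 0),
      symmForm_of ((Matrix.isUnit_iff_isUnit_det _).mp (G 1).isUnit) (hGs 1), ⟨c, hc0, fun x y => ?_⟩, rfl⟩
    rw [polar_eq h2, frame_form, formOfGram, Finset.mul_sum, gramMatrix_matForm, gramMatrix_matForm]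
    refine Finset.sum_congr rfl fun u _ => ?_
    rw [Finset.mul_sum]
    refine Finset.sum_congr rfl fun v _ => ?_
    rw [Module.Basis.reindex_apply, Module.Basis.reindex_apply, hBf, Fin.prod_univ_two, Matrix.kroneckerMap_apply]
    show x u * (c * ((G 0 : Matrix (Fin (d 0)) (Fin (d 0)) F) u.1 v.1 * (G 1 : Matrix (Fin (d 1)) (Fin (d 1)) F) u.2 v.2)) *
      y v = c * (x u * _ * id (y v))
    simp only [id]; ring
  · obtain ⟨c', a, hc', ha⟩ := coord_perm φ hc hd hi (hfix g hg) b hb
    refine ⟨Units.map (algebraMap F (Matrix (Fin (d 0)) (Fin (d 0)) F)).toMonoidHom (Units.mk0 c' hc') * a 0, a 1, ?_⟩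
    ext x y
    rw [coordGL_apply, Module.Basis.reindex_apply, Module.Basis.repr_reindex_apply, ← coordGL_apply, ha,
      Matrix.smul_apply, smul_eq_mul, tmat, Matrix.of_apply, Fin.prod_univ_two]
    show c' * ((a 0 : Matrix (Fin (d 0)) (Fin (d 0)) F) x.1 y.1 * (a 1 : Matrix (Fin (d 1)) (Fin (d 1)) F) x.2 y.2) =
      ((algebraMap F (Matrix (Fin (d 0)) (Fin (d 0)) F) c' * (a 0 : Matrix (Fin (d 0)) (Fin (d 0)) F)) x.1 y.1) * _
    rw [← Algebra.smul_def, Matrix.smul_apply, smul_eq_mul, mul_assoc]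

theorem odd_power {H : Subgroup (GL ι F)} (hI : H ≤ isometryGroup F Qo) {k t : ℕ} (hk : 3 ≤ k) (hko : Odd k) (ht : 2 ≤ t)
    (φ : Fin t → (Matrix (Fin k) (Fin k) F →ₐ[F] Module.End F (ι → F)))
    (hc : Pairwise fun i j => ∀ X Y, Commute (φ i X) (φ j Y)) (hi : Irr (⋃ i, Set.range (φ i)))
    (hperm : ∀ g ∈ H, ∃ σ : Equiv.Perm (Fin t), ∀ i X,
      (gu g : Module.End F (ι → F)) * φ i X * ((gu g)⁻¹).val ∈ Set.range (φ (σ i)))
    (G : GL (Fin k) F) (hGs : (G : Matrix (Fin k) (Fin k) F)ᵀ = G)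
    (hG : ∀ i X, st (RingEquiv.refl F) Bo (φ i X) = φ i (stG (RingEquiv.refl F) (G : Matrix (Fin k) (Fin k) F) X)) :
    GoodOdd H := by
  classical
  have hB := oddData (m := m) h2
  have hd : ∀ _ : Fin t, 0 < k := fun _ => by omega
  by_cases hex : ¬ (Fintype.card F = 3 ∧ k = 3)
  · obtain ⟨b, c, hc0, hb, hBf⟩ := gram_tensor φ hc hB hd hi (fun _ => G) hG
    obtain ⟨e⟩ := finEquiv b
    refine ⟨tensorWreathSubgroup k t e (frameGL b e) ⊓ isometryGroup F Qo, ?_,
      le_inf (le_conj_reindex b e fun g hg => coord_mem_wreath φ hc (by omega) (by omega) hi (hperm g hg) b hb) hI⟩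
    iterate 7 right
    refine ⟨k, t, e, frameGL b e, matForm (RingEquiv.refl F) (G : Matrix (Fin k) (Fin k) F), hk, ht, hex,
      symmForm_of ((Matrix.isUnit_iff_isUnit_det _).mp G.isUnit) hGs, ⟨c, hc0, fun x y => ?_⟩, rfl⟩
    rw [polar_eq h2, frame_form, gramMatrix_matForm, Finset.mul_sum]
    refine Finset.sum_congr rfl fun u _ => ?_
    rw [Finset.mul_sum]
    refine Finset.sum_congr rfl fun v _ => ?_
    rw [hBf]
    show _ * (y v) = _
    simp only [id]; ring
  push_neg at hex
  obtain ⟨h3, rfl⟩ := hex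
  obtain ⟨S, s, hs, hS⟩ := exists_similar h2 hko ((Matrix.isUnit_iff_isUnit_det _).mp G.isUnit) hGs
    (G' := 1) (by simp) Matrix.transpose_one
  let φ' := fun i => (φ i).comp (innerHom S)
  have hr : ∀ i, Set.range (φ' i) = Set.range (φ i) := fun i => range_innerHom S (φ i)
  have hG' : ∀ i X, st (RingEquiv.refl F) Bo (φ' i X) =
      φ' i (stG (RingEquiv.refl F) ((1 : GL (Fin 3) F) : Matrix (Fin 3) (Fin 3) F) X) := by
    intro i X
    show st _ _ (φ i (innerHom S X)) = φ i (innerHom S _)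
    rw [hG]
    exact congrArg (φ i) (stG_conj hs ((Matrix.isUnit_iff_isUnit_det _).mp G.isUnit) (by simp) (by simpa using hS) X)
  have hc' : Pairwise fun i j => ∀ X Y, Commute (φ' i X) (φ' j Y) := fun i j hij X Y => hc hij _ _
  have hi' : Irr (⋃ i, Set.range (φ' i)) := by simpa only [hr] using hi
  obtain ⟨b, c, hc0, hb, hBf⟩ := gram_tensor φ' hc' hB hd hi' (fun _ => 1) hG'
  have horth : ∀ x y, fo (b x) (b y) = if x = y then c else 0 := by
    intro x y
    rw [hBf]
    by_cases hxy : x = y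
    · subst hxy
      simp [Matrix.one_apply]
    · obtain ⟨u, hu⟩ := Function.ne_iff.mp hxy
      rw [if_neg hxy, Finset.prod_eq_zero (Finset.mem_univ u), mul_zero]
      simp [Matrix.one_apply, hu]
  let N := Fintype.card (Fin t → Fin 3)
  let en := Fintype.equivFin (Fin t → Fin 3)
  let D : Fin N → Submodule F (ι → F) := fun i => Submodule.span F {b (en.symm i)}
  have hN : 2 ≤ N := by
    simp only [N, Fintype.card_fun, Fintype.card_fin]
    exact le_trans (by norm_num) (Nat.pow_le_pow_right (by norm_num : 1 ≤ 3) (show 1 ≤ t by omega))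
  have hli : LinearIndependent F fun i => b (en.symm i) := b.linearIndependent.comp _ en.symm.injective
  have hD : IsMDecomposition 1 D := by
    refine ⟨hN, one_pos, fun i => finrank_span_singleton (b.ne_zero _), hli.iSupIndep_span_singleton, ?_⟩
    rw [← Submodule.span_range_eq_iSup, ← b.span_eq]
    congr 1
    exact en.symm.surjective.range_comp b
  have hv0 : c ≠ 0 := hc0
  have hnd : IsNondegenerateMDecomposition fo 1 D := by
    refine ⟨hD, fun i w hw hw0 => ?_, fun i j hij u hu v hv => ?_⟩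
    · obtain ⟨l, rfl⟩ := Submodule.mem_span_singleton.mp hw
      have hl : l ≠ 0 := fun h0 => hw0 (by rw [h0, zero_smul])
      constructor <;> refine ⟨b (en.symm i), Submodule.mem_span_singleton_self _, ?_⟩
      · rw [mf_smul_right, horth, if_pos rfl]; exact mul_ne_zero hl hv0
      · rw [mf_smul_left, horth, if_pos rfl]; exact mul_ne_zero hl hv0
    · obtain ⟨l, rfl⟩ := Submodule.mem_span_singleton.mp hu
      obtain ⟨l', rfl⟩ := Submodule.mem_span_singleton.mp hv
      rw [mf_smul_left, mf_smul_right, horth, if_neg fun e => hij (en.symm.injective e), mul_zero, mul_zero]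
  have hpm : ∀ x : F, x ≠ 0 → x * x = 1 := fun x hx => by
    have := FiniteField.pow_card_sub_one_eq_one x hx
    rw [h3] at this
    rw [← pow_two]; exact this
  have h30 : (3 : F) = 0 := by
    have := Nat.cast_card_eq_zero F
    rw [h3] at this; exact_mod_cast this
  have hmono : ∀ g ∈ H, g ∈ decompositionStabilizer D := by
    intro g hg
    have hperm' : ∃ σ : Equiv.Perm (Fin t), ∀ i X,
        (gu g : Module.End F (ι → F)) * φ' i X * ((gu g)⁻¹).val ∈ Set.range (φ' (σ i)) := by
      obtain ⟨π, hπ⟩ := hperm g hg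
      exact ⟨π, fun i X => by rw [hr]; exact hπ i _⟩
    obtain ⟨π, c', a, hc', ha⟩ := coord_wreath φ' hc' (by omega) hi' hperm' b hb
    set M := (coordGL b g : Matrix (Fin t → Fin 3) (Fin t → Fin 3) F)
    have himg : ∀ y, (g : Matrix ι ι F) *ᵥ b y = ∑ x, M x y • b x := by
      intro y
      conv_lhs => rw [← gu_apply, ← b.sum_repr ((gu g : Module.End F (ι → F)) (b y))]
      simp only [M, coordGL_apply]
    have hMM : ∀ (y y' : Fin t → Fin 3), ∑ x, M x y * M x y' = if y = y' then 1 else 0 := by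
      intro y y'
      have e := iso_of_mem h2 (hI hg) (b y) (b y')
      rw [himg, himg, mf_sum_left] at e
      simp only [mf_smul_left, mf_sum_right, mf_smul_right, horth, mul_ite, mul_zero, Finset.sum_ite_eq, Finset.mem_univ,
        if_true, RingEquiv.refl_apply] at e
      simp only [← mul_assoc, ← Finset.sum_mul] at e
      refine mul_right_cancel₀ hv0 ?_
      rw [Finset.sum_congr rfl fun x (_ : x ∈ Finset.univ) => mul_comm (M x y) (M x y'), e]
      split_ifs <;> simp
    let D' : Fin t → Matrix (Fin 3) (Fin 3) F := fun i => (a i : Matrix (Fin 3) (Fin 3) F)ᵀ * (a i : Matrix (Fin 3) (Fin 3) F)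
    have hprod : ∀ (y y' : Fin t → Fin 3), c' * c' * ∏ i, D' i (y i) (y' i) = if y = y' then 1 else 0 := by
      intro y y'
      rw [← hMM]
      simp only [M, D', Matrix.mul_apply, Matrix.transpose_apply, Fintype.prod_sum, Finset.mul_sum, ha]
      refine Fintype.sum_equiv (Equiv.arrowCongr π (Equiv.refl _)) _ _ fun u => ?_
      simp only [Equiv.arrowCongr_apply, Equiv.coe_refl, Function.comp_apply, id_eq, Equiv.symm_apply_apply,
        Finset.prod_mul_distrib]
      ring
    have hdiag : ∀ i u, D' i u u ≠ 0 := by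
      intro i u h0
      have := hprod (Function.update (fun _ => 0) i u) (Function.update (fun _ => 0) i u)
      rw [if_pos rfl, Finset.prod_eq_zero (Finset.mem_univ i) (by simpa using h0), mul_zero] at this
      exact zero_ne_one this
    have hoff : ∀ i u v, u ≠ v → D' i u v = 0 := by
      intro i u v huv
      have := hprod (Function.update (fun _ => 0) i u) (Function.update (fun _ => 0) i v)
      rw [if_neg (fun e => huv (by simpa using congrFun e i))] at this
      have h := Finset.prod_eq_zero_iff.mp ((mul_eq_zero.mp this).resolve_left (mul_ne_zero hc' hc'))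
      obtain ⟨j, -, hj⟩ := h
      by_cases hji : j = i
      · subst hji; simpa using hj
      · rw [Function.update_of_ne hji, Function.update_of_ne hji] at hj; exact absurd hj (hdiag j 0)
    have heq : ∀ i u v, D' i u u = D' i v v := by
      intro i u v
      have e1 := hprod (Function.update (fun _ => 0) i u) (Function.update (fun _ => 0) i u)
      have e2 := hprod (Function.update (fun _ => 0) i v) (Function.update (fun _ => 0) i v)
      rw [if_pos rfl, ← Finset.mul_prod_erase _ _ (Finset.mem_univ i), Function.update_self] at e1 e2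
      have hre : ∀ w, ∏ j ∈ Finset.univ.erase i, D' j (Function.update (fun _ => (0 : Fin 3)) i w j)
          (Function.update (fun _ => (0 : Fin 3)) i w j) = ∏ j ∈ Finset.univ.erase i, D' j 0 0 := fun w =>
        Finset.prod_congr rfl fun j hj => by rw [Function.update_of_ne (Finset.ne_of_mem_erase hj)]
      rw [hre] at e1 e2
      have hp : c' * c' * ∏ j ∈ Finset.univ.erase i, D' j 0 0 ≠ 0 :=
        mul_ne_zero (mul_ne_zero hc' hc') (Finset.prod_ne_zero_iff.mpr fun j _ => hdiag j 0)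
      refine mul_left_cancel₀ hp ?_
      linear_combination e1 - e2
    have hscal : ∀ i, D' i = 1 := by
      intro i
      have hD' : D' i = D' i 0 0 • 1 := by
        ext u v
        by_cases huv : u = v
        · subst huv; rw [Matrix.smul_apply, Matrix.one_apply_eq, smul_eq_mul, mul_one]; exact heq i u 0
        · rw [Matrix.smul_apply, Matrix.one_apply_ne huv, smul_zero, hoff i u v huv]
      have hdet := congrArg Matrix.det hD'
      rw [Matrix.det_smul, Matrix.det_one, mul_one, Fintype.card_fin] at hdet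
      simp only [D', Matrix.det_mul, Matrix.det_transpose] at hdet
      rw [hpm _ ((Matrix.isUnit_iff_isUnit_det _).mp (a i).isUnit).ne_zero] at hdet
      have h1 : D' i 0 0 = 1 := by
        have := hpm _ (hdiag i 0)
        rw [pow_succ, pow_two, this, one_mul] at hdet
        exact hdet.symm
      rw [hD', h1, one_smul]
    have hcol : ∀ i v, ∃ u, ∀ u', u' ≠ u → (a i : Matrix (Fin 3) (Fin 3) F) u' v = 0 := by
      intro i v
      have h1 := congrFun (congrFun (hscal i) v) v
      simp only [D', Matrix.mul_apply, Matrix.transpose_apply, Fin.sum_univ_three, Matrix.one_apply_eq] at h1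
      have hsq : ∀ u, (a i : Matrix (Fin 3) (Fin 3) F) u v * (a i : Matrix (Fin 3) (Fin 3) F) u v = 0 ∨
          (a i : Matrix (Fin 3) (Fin 3) F) u v * (a i : Matrix (Fin 3) (Fin 3) F) u v = 1 := fun u => by
        by_cases h0 : (a i : Matrix (Fin 3) (Fin 3) F) u v = 0
        · exact Or.inl (by rw [h0, zero_mul])
        · exact Or.inr (hpm _ h0)
      have h10 : (1 : F) ≠ 0 := one_ne_zero
      rcases hsq 0 with p0 | p0 <;> rcases hsq 1 with p1 | p1 <;> rcases hsq 2 with p2 | p2 <;> rw [p0, p1, p2] at h1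
      · exact absurd (by linear_combination -h1) h10
      · exact ⟨2, fun u' hu' => mul_self_eq_zero.mp (by fin_cases u' <;> first | exact p0 | exact p1 | exact absurd rfl hu')⟩
      · exact ⟨1, fun u' hu' => mul_self_eq_zero.mp (by fin_cases u' <;> first | exact p0 | exact p2 | exact absurd rfl hu')⟩
      · exact absurd (by linear_combination h1) h10
      · exact ⟨0, fun u' hu' => mul_self_eq_zero.mp (by fin_cases u' <;> first | exact p1 | exact p2 | exact absurd rfl hu')⟩
      · exact absurd (by linear_combination h1) h10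
      · exact absurd (by linear_combination h1) h10
      · exact absurd (by linear_combination h30 - h1) h10
    choose col hcol using hcol
    refine mem_decomp_of_forall hD fun i => ?_
    set y := en.symm i
    let x₀ : Fin t → Fin 3 := fun j => col (π.symm j) (y (π.symm j))
    refine ⟨en x₀, fun v hv => ?_⟩
    obtain ⟨l, rfl⟩ := Submodule.mem_span_singleton.mp hv
    rw [Matrix.mulVec_smul, himg, Finset.sum_eq_single x₀]
    · refine Submodule.smul_mem _ _ (Submodule.smul_mem _ _ ?_)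
      show b x₀ ∈ Submodule.span F {b (en.symm (en x₀))}
      rw [Equiv.symm_apply_apply]; exact Submodule.mem_span_singleton_self _
    · intro x _ hx
      obtain ⟨j, hj⟩ := Function.ne_iff.mp hx
      have : M x y = 0 := by
        simp only [M, ha]
        rw [Finset.prod_eq_zero (Finset.mem_univ (π.symm j)), mul_zero]
        rw [Equiv.apply_symm_apply]
        exact hcol _ _ _ hj
      rw [this, zero_smul]
    · simp
  have hiso : IsOrthogonalMDecomposition Qo 1 D := by
    refine ⟨by rw [polar_eq h2]; exact hnd, fun i j => ?_⟩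
    refine ⟨(LinearEquiv.toSpanNonzeroSingleton F _ (b (en.symm i)) (b.ne_zero _)).symm.trans
      (LinearEquiv.toSpanNonzeroSingleton F _ (b (en.symm j)) (b.ne_zero _)), fun w => ?_⟩
    obtain ⟨l, rfl⟩ := (LinearEquiv.toSpanNonzeroSingleton F _ (b (en.symm i)) (b.ne_zero _)).surjective w
    rw [LinearEquiv.trans_apply, LinearEquiv.symm_apply_apply]
    show Qo (l • b (en.symm j)) = Qo (l • b (en.symm i))
    rw [quad_eq h2, quad_eq h2, mf_smul_left, mf_smul_left, mf_smul_right, mf_smul_right, horth, horth, if_pos rfl,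
      if_pos rfl]
  exact ⟨decompositionStabilizer D ⊓ isometryGroup F Qo,
    Or.inr <| Or.inr <| Or.inr <| Or.inl ⟨N, D, by rw [h3]; exact Nat.prime_three, hiso, rfl⟩, le_inf hmono hI⟩

/-- Two factors of equal size. -/
theorem equal_pair {H : Subgroup (GL ι F)} (hI : H ≤ isometryGroup F Qo) {d : ℕ} (hd : 3 ≤ d) (hdo : Odd d)
    (φA φC : Matrix (Fin d) (Fin d) F →ₐ[F] Module.End F (ι → F)) (hAC : ∀ X Y, Commute (φA X) (φC Y))
    (hirr : Irr (Set.range φA ∪ Set.range φC))
    (hA : ∀ g ∈ H, ∀ X, (gu g : Module.End F (ι → F)) * φA X * ((gu g)⁻¹).val ∈ Set.range φA)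
    (hC : ∀ g ∈ H, ∀ X, (gu g : Module.End F (ι → F)) * φC X * ((gu g)⁻¹).val ∈ Set.range φC)
    (GA GC : GL (Fin d) F) (sA : (GA : Matrix (Fin d) (Fin d) F)ᵀ = GA) (sC : (GC : Matrix (Fin d) (Fin d) F)ᵀ = GC)
    (hGA : ∀ X, st (RingEquiv.refl F) Bo (φA X) = φA (stG (RingEquiv.refl F) (GA : Matrix (Fin d) (Fin d) F) X))
    (hGC : ∀ X, st (RingEquiv.refl F) Bo (φC X) = φC (stG (RingEquiv.refl F) (GC : Matrix (Fin d) (Fin d) F) X)) :
    GoodOdd H := by
  classical
  have uA := (Matrix.isUnit_iff_isUnit_det _).mp GA.isUnit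
  have uC := (Matrix.isUnit_iff_isUnit_det _).mp GC.isUnit
  obtain ⟨S, a, ha, hS⟩ := exists_similar h2 hdo uC sC uA sA
  have hr := range_innerHom S φC
  refine odd_power h2 hI hd hdo le_rfl ![φA, φC.comp (innerHom S)] ?_ ?_ (fun g hg => ⟨1, ?_⟩) GA sA ?_
  · intro i j h
    revert h
    revert i j
    simp only [Fin.forall_fin_two]
    exact ⟨⟨fun h => absurd rfl h, fun _ X Y => hAC X _⟩, ⟨fun _ X Y => (hAC Y _).symm, fun h => absurd rfl h⟩⟩
  · refine fun W hW => hirr W fun s hs => hW s <| Set.mem_iUnion.mpr ?_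
    rcases hs with hs | hs
    · exact ⟨0, hs⟩
    · exact ⟨1, show s ∈ Set.range (φC.comp (innerHom S)) by rwa [hr]⟩
  · rw [Fin.forall_fin_two]
    refine ⟨hA g hg, fun X => ?_⟩
    show _ ∈ Set.range (φC.comp (innerHom S))
    rw [hr]
    exact hC g hg _
  · rw [Fin.forall_fin_two]
    refine ⟨hGA, fun X => ?_⟩
    show st _ _ (φC (innerHom S X)) = φC (innerHom S _)
    rw [hGC]
    exact congrArg φC (stG_conj ha uC uA hS X)

/-- The structure theorem for odd orthogonal groups. -/
theorem odd_structure (hm : 3 ≤ m) (H : Subgroup (GL ι F)) (hI : H ≤ isometryGroup F Qo) :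
    GoodOdd H ∨ InOrthogonalResidualClass H := by
  classical
  by_cases hgood : GoodOdd H
  · exact Or.inl hgood
  right
  have hB := oddData (m := m) h2
  haveI : Nontrivial ι := ⟨Sum.inl (), Sum.inr (Sum.inl ⟨0, by omega⟩), by simp⟩
  set Z := scalars ι F
  set K := H ⊔ Z
  have hsim := sim_sup h2 hI
  by_cases hirr : Irr ((fun g : (Module.End F (ι → F))ˣ => (g : Module.End F (ι → F))) '' (gu '' (K : Set _)))
  swap
  · exfalso
    refine hgood ?_
    rcases reducible_cases hB hsim hirr with ⟨W, hW0, hW, hKW⟩ | ⟨W, W', hW0, hW1, -, -, hW, -, -, -, -, hKW, -⟩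
    · refine ⟨subspaceStabilizer W ⊓ isometryGroup F Qo, Or.inl ⟨W, hW0, fun w hw => ?_, rfl⟩,
        le_inf (le_sup_left.trans hKW) hI⟩
      rw [quad_eq h2, hW w hw w hw, zero_mul]
    · exact ⟨subspaceStabilizer W ⊓ isometryGroup F Qo, Or.inr (Or.inl ⟨W, hW0, hW1, by rw [polar_eq h2]; exact hW, rfl⟩),
        le_inf (le_sup_left.trans hKW) hI⟩
  have hKnZ : ¬ K ≤ Z := by
    intro hle
    let W : Submodule F (ι → F) := Submodule.span F {Pi.single (Sum.inl ()) 1}
    have hfr : Module.finrank F W = 1 := finrank_span_singleton (by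
      intro h0
      have := congrFun h0 (Sum.inl ())
      simp at this)
    rcases hirr W (by
      rintro _ ⟨_, ⟨g, hg, rfl⟩, rfl⟩ w hw
      obtain ⟨c, hc⟩ := (mem_scalars_iff g).mp (hle hg)
      show (gu g : Module.End F (ι → F)) w ∈ W
      rw [gu_apply, hc, Matrix.smul_mulVec, Matrix.one_mulVec]
      exact W.smul_mem _ hw) with h | h
    · rw [h, finrank_bot] at hfr; omega
    · rw [h, finrank_top, Module.finrank_fintype_fun_eq_card, card_odd_idx] at hfr; omega
  have hodd_dvd : ∀ d : ℕ, d ∣ 2 * m + 1 → Odd d := fun d hd => Odd.of_dvd_nat ⟨m, rfl⟩ hd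
  have hfull : ∀ N, N ≤ K → NormalisedBy K N → ¬ N ≤ Z → Full N := by
    intro N hNK hN hNZ
    rcases normal_cases hB hsim hNK hirr hN hNZ with ⟨E, hcomm, hnorm, hcl, hbig⟩ | hf |
      ⟨d, e, φA, φC, hd, he, hde, hAC, hirr2, hfA, hfC, hclA, hclC⟩
    · exact absurd (odd_comm h2 hI hm hirr hcomm hnorm hcl hbig) hgood
    · exact hf
    exfalso
    refine hgood ?_
    rw [card_odd_idx] at hde
    have hdo : Odd d := hodd_dvd d ⟨e, hde.symm⟩
    have heo : Odd e := hodd_dvd e ⟨d, by rw [hde.symm]; exact mul_comm d e⟩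
    have hd3 : 3 ≤ d := by obtain ⟨k, hk⟩ := hdo; omega
    have he3 : 3 ≤ e := by obtain ⟨k, hk⟩ := heo; omega
    have pair : ∀ (n₁ n₂ : ℕ), 3 ≤ n₁ → n₁ < n₂ → Odd n₁ → Odd n₂ →
        ∀ (φ₁ : Matrix (Fin n₁) (Fin n₁) F →ₐ[F] Module.End F (ι → F))
          (φ₂ : Matrix (Fin n₂) (Fin n₂) F →ₐ[F] Module.End F (ι → F)),
        (∀ X Y, Commute (φ₁ X) (φ₂ Y)) → Irr (Set.range φ₁ ∪ Set.range φ₂) →
        (∀ g ∈ K, ∀ X, (gu g : Module.End F (ι → F)) * φ₁ X * ((gu g)⁻¹).val ∈ Set.range φ₁) →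
        (∀ g ∈ K, ∀ X, (gu g : Module.End F (ι → F)) * φ₂ X * ((gu g)⁻¹).val ∈ Set.range φ₂) →
        (∀ X, st (RingEquiv.refl F) Bo (φ₁ X) ∈ Set.range φ₁) →
        (∀ X, st (RingEquiv.refl F) Bo (φ₂ X) ∈ Set.range φ₂) → GoodOdd H := by
      intro n₁ n₂ h₁ h₂ o₁ o₂ φ₁ φ₂ hcom hirr3 f₁ f₂ c₁ c₂
      let dd : Fin 2 → ℕ := ![n₁, n₂]
      let φ : ∀ i, Matrix (Fin (dd i)) (Fin (dd i)) F →ₐ[F] Module.End F (ι → F) :=
        Fin.cons (α := fun i => Matrix (Fin (dd i)) (Fin (dd i)) F →ₐ[F] Module.End F (ι → F)) φ₁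
          (Fin.cons φ₂ finZeroElim)
      refine odd_tensor h2 hI (d := dd) h₁ h₂ ?_ φ ?_ ?_ (fun g hg => ?_) ?_
      · rw [Fin.forall_fin_two]; exact ⟨o₁, o₂⟩
      · intro i j h
        revert h
        revert i j
        simp only [Fin.forall_fin_two]
        exact ⟨⟨fun h => absurd rfl h, fun _ X Y => hcom X Y⟩, ⟨fun _ X Y => (hcom Y X).symm, fun h => absurd rfl h⟩⟩
      · exact fun W hW => hirr3 W fun s hs => hW s <| Set.mem_iUnion.mpr <| by
          rcases hs with hs | hs
          · exact ⟨0, hs⟩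
          · exact ⟨1, hs⟩
      · rw [Fin.forall_fin_two]; exact ⟨f₁ g (Subgroup.mem_sup_left hg), f₂ g (Subgroup.mem_sup_left hg)⟩
      · rw [Fin.forall_fin_two]; exact ⟨c₁, c₂⟩
    rcases lt_trichotomy d e with h | h | h
    · exact pair d e hd3 h hdo heo φA φC hAC hirr2 hfA hfC hclA hclC
    · subst h
      -- both factors carry forms; move the second onto the first
      haveI : Nonempty (Fin d) := ⟨⟨0, by omega⟩⟩
      have hinjA : Function.Injective φA := RingHom.injective φA.toRingHom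
      have hinjC : Function.Injective φC := RingHom.injective φC.toRingHom
      obtain ⟨GA, νA, -, hGA, hνA⟩ := exists_factor_gram hB (by omega) φA hinjA hclA
      obtain ⟨GC, νC, -, hGC, hνC⟩ := exists_factor_gram hB (by omega) φC hinjC hclC
      have sA := gram_symm hdo ((Matrix.isUnit_iff_isUnit_det _).mp GA.isUnit) hνA
      have sC := gram_symm hdo ((Matrix.isUnit_iff_isUnit_det _).mp GC.isUnit) hνC
      exact equal_pair h2 hI hd3 hdo φA φC hAC hirr2 (fun g hg => hfA g (Subgroup.mem_sup_left hg))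
        (fun g hg => hfC g (Subgroup.mem_sup_left hg)) GA GC sA sC hGA hGC
    · exact pair e d he3 h heo hdo φC φA (fun X Y => (hAC Y X).symm) (by rwa [Set.union_comm]) hfC hfA hclC hclA
  obtain ⟨M, ⟨hMn, hZM, hMK, hMne⟩, hmin⟩ := exists_minimal_of_wellFoundedLT
    (fun M : Subgroup (GL ι F) => NormalisedBy K M ∧ Z ≤ M ∧ M ≤ K ∧ M ≠ Z)
    ⟨K, fun g hg x hx => mul_mem (mul_mem hg hx) (inv_mem hg), le_sup_right, le_rfl, fun h => hKnZ h.le⟩
  have hmin' : ∀ N, NormalisedBy K N → Z ≤ N → N ≤ M → N = Z ∨ N = M := fun N h1 h2 h3 => by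
    by_cases h : N = Z
    · exact Or.inl h
    · exact Or.inr (le_antisymm h3 (hmin ⟨h1, h2, h3.trans hMK, h⟩ h3))
  have hKH : ⁅K, K⁆ ≤ H := (commutator_sup_scalars H H).trans (Subgroup.commutator_le_self H)
  by_cases hab : ⁅M, M⁆ ≤ Z
  · exfalso
    refine exists_two_commute_false (hfull M hMK hMn fun h => hMne (le_antisymm h hZM)) fun a ha b hb => ?_
    rw [← commutatorElement_eq_one_iff_mul_comm]
    have hz := hab (Subgroup.commutator_mem_commutator ha hb)
    obtain ⟨c, hc⟩ := (mem_scalars_iff _).mp hz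
    have hd := congrArg Matrix.det hc
    rw [Matrix.det_smul, Matrix.det_one, mul_one, card_odd_idx, commutatorElement_def] at hd
    simp only [Units.val_mul, Matrix.det_mul] at hd
    have hone : ∀ g : GL ι F, (g : Matrix ι ι F).det * ((g⁻¹ : GL ι F) : Matrix ι ι F).det = 1 := fun g => by
      rw [← Matrix.det_mul, ← Units.val_mul, mul_inv_cancel, Units.val_one, Matrix.det_one]
    have hd' : (1 : F) = (c : F) ^ (2 * m + 1) := by
      rw [← hd]; linear_combination -(hone a) - ((a : Matrix ι ι F).det * ((a⁻¹ : GL ι F) : Matrix ι ι F).det) * (hone b)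
    have hi := iso_of_mem h2 (hI (hKH (Subgroup.commutator_mem_commutator (hMK ha) (hMK hb))))
    have hcc : (c : F) * c = 1 := by
      obtain ⟨⟨x, hx⟩, -⟩ := nondeg_matForm (σ := RingEquiv.refl F) hB.unit (Pi.single (Sum.inl ()) 1) (by
        intro h0
        have := congrFun h0 (Sum.inl ())
        simp at this)
      have := hi x (Pi.single (Sum.inl ()) 1)
      rw [hc, Matrix.smul_mulVec, Matrix.one_mulVec, Matrix.smul_mulVec, Matrix.one_mulVec, mf_smul_left, mf_smul_right,
        ← mul_assoc] at this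
      exact mul_right_cancel₀ hx (by rw [one_mul]; exact this)
    rw [pow_succ, pow_mul, pow_two, hcc, one_pow, one_mul] at hd'
    refine Units.ext ?_
    rw [hc, ← hd', one_smul]
    rfl
  rcases nonab_split inferInstance le_sup_left hKH hMK hMn hmin' hfull hab hZM with
    ⟨P, hPM, hPH, hPfull, hnormH, hcore⟩ | ⟨t, d, N, φA, g, ht, hd, hNM, -, hrange, hgK, hcom, hirr2, hperm⟩
  · have hnsub : ∀ F₀ : Subfield F, F₀ ≠ ⊤ → ¬ RealisableOver F₀ (matrixSet P) := by
      intro F₀ h1 h3
      obtain ⟨F₁, r, Pc, hr, hcard, hHle, hent⟩ := subfield_of_realisable hPfull hnormH h1 h3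
      obtain ⟨c, B', hc, hB', -, he⟩ := form_rational hPfull hB.unit
        (fun x hx => matrix_eq_of_iso (iso_of_mem h2 (hI (hPH hx)))) (F₁ := F₁) (fun a ha => ha) Pc hent
      refine hgood (odd_subfield h2 hI hr hcard hHle hc hB' ?_)
      rwa [show (Pc : Matrix ι ι F).map (RingEquiv.refl F) = (Pc : Matrix ι ι F) by ext u v; rfl] at he
    have hPc := hcore hnsub
    refine ⟨P, hPc, ?_⟩
    rintro ⟨σ, f, hf, hfix⟩
    have h3 : ∀ v x y, f v (x + y) = f v x + f v y := fun v x y => by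
      rw [hf.herm, hf.add_left, map_add, ← hf.herm, ← hf.herm]
    have h4 : ∀ (c : F) v x, f v (c • x) = σ c * f v x := fun c v x => by
      rw [hf.herm, hf.smul_left, map_mul, ← hf.herm]
    have he := eq_matForm hf.add_left hf.smul_left h3 h4
    have hu : IsUnit (gram f).det := isUnit_of_nondeg (σ := σ) (by
      rw [show matForm σ (gram f) = f from funext fun u => funext fun v => (he u v).symm]; exact hf.nondegenerate)
    refine hnsub _ (fixedBy_ne_top hf.ne_refl) (realisable_of_two_forms hPfull hf.ne_refl hf.involutive hB.unit hu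
      (fun x hx => ?_) fun x hx => fix_gram fun u v => by rw [← he, ← he]; exact hfix _ ⟨x, hx, rfl⟩ u v)
    have e := matrix_eq_of_iso (iso_of_mem h2 (hI (hPH hx)))
    rwa [show (x : Matrix ι ι F).map (RingEquiv.refl F) = (x : Matrix ι ι F) by ext u v; rfl] at e
  · exfalso
    refine hgood ?_
    have hdo : Odd d := by
      let φ := fun i => (conjHom (gu (g i))).comp φA
      obtain ⟨b, -⟩ := Asch.exists_tensor_basis φ hcom (fun _ => by omega) hirr2
      have hcard := (Module.finrank_eq_card_basis b).symm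
      rw [Module.finrank_fintype_fun_eq_card, card_odd_idx, Fintype.card_fun, Fintype.card_fin, Fintype.card_fin] at hcard
      exact hodd_dvd d ⟨d ^ (t - 1), by rw [← pow_succ', Nat.sub_add_cancel (by omega)]; exact hcard.symm⟩
    have hd3 : 3 ≤ d := by obtain ⟨k, hk⟩ := hdo; omega
    haveI : Nonempty (Fin d) := ⟨⟨0, by omega⟩⟩
    have hclA : ∀ X, st (RingEquiv.refl F) Bo (φA X) ∈ Set.range φA := fun X => by
      have h1 := env_closed hB (fun x hx => hsim x (hMK (hNM hx))) (φA X) (hrange ▸ ⟨X, rfl⟩)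
      exact hrange.ge h1
    have hinjA : Function.Injective φA := RingHom.injective φA.toRingHom
    obtain ⟨G, ν, -, hG, hν⟩ := exists_factor_gram hB (by omega) φA hinjA hclA
    refine odd_power h2 hI hd3 hdo ht (fun i => (conjHom (gu (g i))).comp φA) hcom hirr2
      (fun k hk => hperm k (Subgroup.mem_sup_left hk)) G
      (gram_symm hdo ((Matrix.isUnit_iff_isUnit_det _).mp G.isUnit) hν) fun i X => ?_
    show st _ _ (conjHom (gu (g i)) (φA X)) = conjHom (gu (g i)) (φA _)
    rw [st_conj hB (hsim _ (hgK i)), hG]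

end

end Cfsg.Agent.GeomClasses.AschRel
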