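import Cfsg.Agent.GeomClasses.Aschbacher.Rel.TensorForm

/-! # Two tensor factors in coordinates -/

set_option autoImplicit false
set_option maxHeartbeats 400000

namespace Cfsg.Agent.GeomClasses.AschRel

open Matrix Cfsg.Geo
open scoped Kronecker
open Cfsg.Agent.GeomClasses.Asch (Irr tup exists_tensor_basis phi_injective)

variable {F : Type*} [Field F] [Fintype F] {ι : Type} [Fintype ι] [DecidableEq ι] [Nonempty ι]
  {σ : F ≃+* F} {B : Matrix ι ι F} {ε : F}

/-- Coordinates adapted to two commuting factors and a form. -/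
theorem pair_frame (h : FormData σ B ε) {K : Subgroup (GL ι F)} {d e : ℕ} (hd : 0 < d) (he : 0 < e)
    (φA : Matrix (Fin d) (Fin d) F →ₐ[F] Module.End F (ι → F)) (φC : Matrix (Fin e) (Fin e) F →ₐ[F] Module.End F (ι → F))
    (hAC : ∀ X Y, Commute (φA X) (φC Y)) (hirr : Irr (Set.range φA ∪ Set.range φC))
    (hA : ∀ g ∈ K, ∀ X, (gu g : Module.End F (ι → F)) * φA X * ((gu g)⁻¹).val ∈ Set.range φA)
    (hC : ∀ g ∈ K, ∀ X, (gu g : Module.End F (ι → F)) * φC X * ((gu g)⁻¹).val ∈ Set.range φC)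
    (GA : GL (Fin d) F) (GC : GL (Fin e) F)
    (hGA : ∀ X, st σ B (φA X) = φA (stG σ (GA : Matrix (Fin d) (Fin d) F) X))
    (hGC : ∀ X, st σ B (φC X) = φC (stG σ (GC : Matrix (Fin e) (Fin e) F) X)) :
    ∃ (b : Module.Basis (Fin d × Fin e) F (ι → F)) (c : F), c ≠ 0 ∧
      (∀ x y, matForm σ B (b x) (b y) =
        c * ((GA : Matrix (Fin d) (Fin d) F) x.1 y.1 * (GC : Matrix (Fin e) (Fin e) F) x.2 y.2)) ∧
      ∀ g ∈ K, ∃ (c' : F) (a : GL (Fin d) F) (a' : GL (Fin e) F), c' ≠ 0 ∧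
        (coordGL b g : Matrix (Fin d × Fin e) (Fin d × Fin e) F) =
          c' • ((a : Matrix (Fin d) (Fin d) F) ⊗ₖ (a' : Matrix (Fin e) (Fin e) F)) := by
  classical
  let dd : Fin 2 → ℕ := ![d, e]
  let φ : ∀ i, Matrix (Fin (dd i)) (Fin (dd i)) F →ₐ[F] Module.End F (ι → F) :=
    Fin.cons (α := fun i => Matrix (Fin (dd i)) (Fin (dd i)) F →ₐ[F] Module.End F (ι → F)) φA
      (Fin.cons φC finZeroElim)
  let G : ∀ i, GL (Fin (dd i)) F := Fin.cons (α := fun i => GL (Fin (dd i)) F) GA (Fin.cons GC finZeroElim)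
  have hd' : ∀ i, 0 < dd i := by rw [Fin.forall_fin_two]; exact ⟨hd, he⟩
  have hc : Pairwise fun i j => ∀ X Y, Commute (φ i X) (φ j Y) := by
    intro i j h
    revert h
    revert i j
    simp only [Fin.forall_fin_two]
    exact ⟨⟨fun h => absurd rfl h, fun _ X Y => hAC X Y⟩, ⟨fun _ X Y => (hAC Y X).symm, fun h => absurd rfl h⟩⟩
  have hi : Irr (⋃ i, Set.range (φ i)) := fun W hW => hirr W fun s hs => hW s <| Set.mem_iUnion.mpr <| by
    rcases hs with hs | hs
    · exact ⟨0, hs⟩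
    · exact ⟨1, hs⟩
  obtain ⟨b, c, hc0, hb, hBf⟩ := gram_tensor φ hc h hd' hi G (by rw [Fin.forall_fin_two]; exact ⟨hGA, hGC⟩)
  let E : (∀ i, Fin (dd i)) ≃ Fin d × Fin e := piFinTwoEquiv fun i => Fin (dd i)
  refine ⟨b.reindex E, c, hc0, fun x y => ?_, fun g hg => ?_⟩
  · rw [Module.Basis.reindex_apply, Module.Basis.reindex_apply, hBf, Fin.prod_univ_two]
    rfl
  · obtain ⟨c', a, hc', ha⟩ := coord_perm φ hc hd' hi (g := g) (by
      rw [Fin.forall_fin_two]; exact ⟨hA g hg, hC g hg⟩) b hb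
    refine ⟨c', a 0, a 1, hc', ?_⟩
    ext x y
    rw [coordGL_apply, Module.Basis.reindex_apply, Module.Basis.repr_reindex_apply, ← coordGL_apply, ha,
      Matrix.smul_apply, Matrix.smul_apply, smul_eq_mul, smul_eq_mul, tmat, Matrix.of_apply, Fin.prod_univ_two]
    rfl

omit [Fintype F] [Nonempty ι] in
/-- The image of a basis vector in coordinates. -/
theorem image_coord {κ : Type} [Fintype κ] [DecidableEq κ] (b : Module.Basis κ F (ι → F)) (g : GL ι F) (v : ι → F)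
    (x : κ) : b.repr ((g : Matrix ι ι F) *ᵥ v) x = ∑ y, (coordGL b g : Matrix κ κ F) x y * b.repr v y := by
  conv_lhs => rw [← gu_apply, ← b.sum_repr v, map_sum, map_sum, Finsupp.finset_sum_apply]
  refine Finset.sum_congr rfl fun y _ => ?_
  rw [map_smul, map_smul, Finsupp.smul_apply, coordGL_apply, smul_eq_mul, mul_comm]

omit [Fintype F] [Nonempty ι] in
theorem image_basis {κ : Type} [Fintype κ] [DecidableEq κ] (b : Module.Basis κ F (ι → F)) (g : GL ι F) (y : κ) :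
    (g : Matrix ι ι F) *ᵥ b y = ∑ x, (coordGL b g : Matrix κ κ F) x y • b x := by
  conv_lhs => rw [← gu_apply, ← b.sum_repr ((gu g : Module.End F (ι → F)) (b y))]
  simp only [coordGL_apply]

end Cfsg.Agent.GeomClasses.AschRel
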