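import Cfsg.Agent.GeomClasses.Aschbacher.Rel.Basic
import Mathlib.GroupTheory.Solvable

/-! # Perfect subgroups inside small factors -/

set_option autoImplicit false

namespace Cfsg.Agent.GeomClasses.AschRel

open Matrix Cfsg.Geo

variable {F : Type*} [Field F] {ι : Type} [Fintype ι] [DecidableEq ι]

/-- A perfect group cannot generate a matrix algebra whose relevant unit group is solvable. -/
theorem perfect_factor_false {d : ℕ} (hd : 2 ≤ d) {N : Subgroup (GL ι F)} (hN : N ≤ ⁅N, N⁆)
    (φA : Matrix (Fin d) (Fin d) F →ₐ[F] Module.End F (ι → F)) (hinj : Function.Injective φA)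
    (hrange : φA.range = env N) (U : Subgroup (GL (Fin d) F)) (hU : Group.IsSolvable U)
    (hmem : ∀ x ∈ N, ∀ a : GL (Fin d) F, φA (a : Matrix (Fin d) (Fin d) F) = (gu x : Module.End F (ι → F)) → a ∈ U) :
    False := by
  classical
  have hex : ∀ x : N, ∃ X, φA X = (gu (x : GL ι F) : Module.End F (ι → F)) := fun x => by
    have : (gu (x : GL ι F) : Module.End F (ι → F)) ∈ φA.range := hrange.symm ▸ mem_env x.2
    exact this
  choose f hf using hex
  have hmul : ∀ x y, f (x * y) = f x * f y := fun x y => hinj (by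
    rw [map_mul, hf, hf, hf, Subgroup.coe_mul, map_mul, Units.val_mul])
  have hone : f 1 = 1 := hinj (by rw [hf, map_one, Subgroup.coe_one, map_one, Units.val_one])
  let f' : N →* GL (Fin d) F := MonoidHom.toHomUnits
    { toFun := f, map_one' := hone, map_mul' := hmul }
  have hf' : ∀ x, φA ((f' x : GL (Fin d) F) : Matrix (Fin d) (Fin d) F) = (gu (x : GL ι F) : Module.End F (ι → F)) :=
    fun x => by rw [MonoidHom.coe_toHomUnits]; exact hf x
  let ψ : N →* U := f'.codRestrict U fun x => hmem x x.2 _ (hf' x)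
  have hψ : Function.Injective ψ := by
    intro x y hxy
    have e : (gu (x : GL ι F) : Module.End F (ι → F)) = (gu (y : GL ι F) : Module.End F (ι → F)) := by
      rw [← hf' x, ← hf' y]; exact congrArg (fun z : U => φA ((z : GL (Fin d) F) : Matrix (Fin d) (Fin d) F)) hxy
    refine Subtype.ext (Units.ext ?_)
    have := congrArg LinearMap.toMatrix' e
    rwa [gu_coe, gu_coe, LinearMap.toMatrix'_toLin', LinearMap.toMatrix'_toLin'] at this
  haveI : Group.IsSolvable N := Group.isSolvable_of_isSolvable_injective hψ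
  have hperf : commutator N = ⊤ := by
    refine eq_top_iff.mpr fun x _ => ?_
    have hx := hN x.2
    rw [show ⁅N, N⁆ = (commutator N).map N.subtype from (Subgroup.map_subtype_commutator N).symm] at hx
    obtain ⟨y, hy, he⟩ := hx
    exact (Subtype.ext he : y = x) ▸ hy
  have hsub : ∀ x : N, x = 1 := by
    obtain ⟨n, hn⟩ := (Group.isSolvable_def N).mp inferInstance
    have htop : ∀ k, derivedSeries N k = ⊤ := by
      intro k
      induction k with
      | zero => rfl
      | succ k ih => rw [derivedSeries_succ, ih]; exact hperf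
    intro x
    have : x ∈ derivedSeries N n := by rw [htop]; trivial
    rwa [hn, Subgroup.mem_bot] at this
  have henv : ∀ X ∈ env N, ∃ c : F, X = algebraMap F _ c := by
    intro X hX
    induction hX using Algebra.adjoin_induction with
    | mem a ha =>
      obtain ⟨x, hx, rfl⟩ := ha
      refine ⟨1, ?_⟩
      show (gu x : Module.End F (ι → F)) = _
      rw [map_one, show x = 1 from congrArg Subtype.val (hsub ⟨x, hx⟩), map_one, Units.val_one]
    | algebraMap c => exact ⟨c, rfl⟩
    | add x y _ _ hx hy => obtain ⟨a, rfl⟩ := hx; obtain ⟨b, rfl⟩ := hy; exact ⟨a + b, (map_add _ a b).symm⟩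
    | mul x y _ _ hx hy => obtain ⟨a, rfl⟩ := hx; obtain ⟨b, rfl⟩ := hy; exact ⟨a * b, (map_mul _ a b).symm⟩
  have hmem' : φA (Matrix.single ⟨0, by omega⟩ ⟨1, by omega⟩ 1) ∈ env N := hrange ▸ ⟨_, rfl⟩
  obtain ⟨c, hc⟩ := henv _ hmem'
  rw [← φA.commutes] at hc
  have := congrFun (congrFun (hinj hc) ⟨0, by omega⟩) ⟨1, by omega⟩
  simp [Matrix.algebraMap_matrix_apply] at this

end Cfsg.Agent.GeomClasses.AschRel
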