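import Cfsg.Agent.GeomClasses.Aschbacher.Rel.Adjoint
import Cfsg.Agent.GeomClasses.Aschbacher.Tensor

/-! # Subfield groups -/

set_option autoImplicit false

namespace Cfsg.Agent.GeomClasses.AschRel

open Matrix Cfsg.Geo
open Cfsg.Agent.GeomClasses.Asch (exists_inner)

variable {F : Type*} [Field F] {ι : Type} [Fintype ι] [DecidableEq ι]

theorem exists_inner_ι (α : Matrix ι ι F ≃ₐ[F] Matrix ι ι F) :
    ∃ g : GL ι F, ∀ X, α X = (g : Matrix ι ι F) * X * (g⁻¹ : GL ι F).val := by
  let R := Matrix.reindexAlgEquiv F F (Fintype.equivFin ι)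
  obtain ⟨g, hg⟩ := exists_inner ((R.symm.trans α).trans R)
  refine ⟨Units.map R.symm.toAlgHom.toMonoidHom g, fun X => R.injective ?_⟩
  have := hg (R X)
  simp only [AlgEquiv.trans_apply, AlgEquiv.symm_apply_apply] at this
  rw [this, map_mul, map_mul, ← map_inv]
  simp

variable [Fintype F]

/-- A proper subfield lies in one of prime index. -/
theorem exists_prime_index {F₀ : Subfield F} (h : F₀ ≠ ⊤) :
    ∃ (F₁ : Subfield F) (r : ℕ), r.Prime ∧ F₀ ≤ F₁ ∧ Fintype.card F = Nat.card F₁ ^ r := by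
  haveI : Fintype F₀ := Fintype.ofFinite _
  have hdeg : Module.finrank F₀ F ≠ 1 := fun h1 => h (eq_top_iff.mpr fun x _ => by
    obtain ⟨a, ha⟩ := (finrank_eq_one_iff_of_nonzero' (1 : F) one_ne_zero).mp h1 x
    rw [← ha, Subfield.smul_def, smul_eq_mul, mul_one]
    exact a.2)
  obtain ⟨r, hr, hdvd⟩ := Nat.exists_prime_and_dvd hdeg
  haveI : Fact r.Prime := ⟨hr⟩
  have hdvd' : r ∣ Nat.card (F ≃ₐ[F₀] F) := by rwa [IsGalois.card_aut_eq_finrank]
  obtain ⟨s, hs⟩ := exists_prime_orderOf_dvd_card' r hdvd'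
  let L : IntermediateField F₀ F := IntermediateField.fixedField (Subgroup.zpowers s)
  have hL : Module.finrank L F = r := by
    rw [IntermediateField.finrank_fixedField_eq_card, Nat.card_zpowers, hs]
  refine ⟨L.toSubfield, r, hr, fun x hx => L.algebraMap_mem ⟨x, hx⟩, ?_⟩
  haveI : Fintype L := Fintype.ofFinite _
  rw [Module.card_eq_pow_finrank (K := L) (V := F), hL]
  congr 1
  rw [← Nat.card_eq_fintype_card]
  rfl

/-- The normaliser of a spanning group realisable over a proper subfield is in the subfield class. -/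
theorem subfield_of_realisable {H X : Subgroup (GL (ι) F)} (hX : Full X)
    (hnorm : ∀ g ∈ H, ∀ x ∈ X, g * x * g⁻¹ ∈ X) {F₀ : Subfield F} (hF₀ : F₀ ≠ ⊤)
    (hreal : RealisableOver F₀ (matrixSet X)) :
    ∃ (F₁ : Subfield F) (r : ℕ) (P : GL ι F), r.Prime ∧ Fintype.card F = Nat.card F₁ ^ r ∧
      H ≤ subfieldSubgroup F₁ P ∧
      ∀ x ∈ X, ∀ i j, ((P⁻¹ : GL ι F).val * (x : Matrix ι ι F) * (P : Matrix ι ι F)) i j ∈ F₁ := by
  classical
  obtain ⟨F₁, r, hr, hle, hcard⟩ := exists_prime_index hF₀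
  obtain ⟨B, hB⟩ := hreal
  refine ⟨F₁, r, B⁻¹, hr, hcard, fun g hg => ?_, fun x hx i j => by rw [inv_inv]; exact hle (hB _ ⟨x, hx, rfl⟩ i j)⟩
  refine ⟨B * g * B⁻¹, ?_, by simp [mul_assoc]⟩
  set h : GL (ι) F := B * g * B⁻¹ with hh
  let emb : Matrix (ι) (ι) F₁ →+* Matrix (ι) (ι) F := (F₁.subtype).mapMatrix
  have hembinj : Function.Injective emb := fun a b hab => Matrix.ext fun i j => Subtype.ext (congrFun (congrFun hab i) j)
  let X' : Set (Matrix (ι) (ι) F₁) := {Y | ∃ x ∈ X, emb Y = ((B * x * B⁻¹ : GL (ι) F) : Matrix _ _ F)}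
  have hlift : ∀ x ∈ X, ∃ Y ∈ X', emb Y = ((B * x * B⁻¹ : GL (ι) F) : Matrix (ι) (ι) F) := fun x hx => by
    refine ⟨Matrix.of fun i j => ⟨_, hle (hB _ ⟨x, hx, rfl⟩ i j)⟩, ⟨x, hx, ?_⟩, ?_⟩ <;>
      (ext i j; simp [emb])
  have hspanF : ∀ Z : Matrix (ι) (ι) F, Z ∈ Submodule.span F (emb '' X') := by
    intro Z
    have key : ∀ W : Matrix (ι) (ι) F, (B : Matrix (ι) (ι) F) * W * (B⁻¹ : GL (ι) F).val ∈
        Submodule.span F (emb '' X') := by
      intro W
      have hW : W ∈ Submodule.span F (matrixSet X) := hX ▸ trivial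
      induction hW using Submodule.span_induction with
      | mem y hy =>
        obtain ⟨x, hx, rfl⟩ := hy
        obtain ⟨Y, hY, e⟩ := hlift x hx
        exact Submodule.subset_span ⟨Y, hY, by rw [e]; simp⟩
      | zero => simp
      | add a b _ _ ha hb => rw [mul_add, add_mul]; exact add_mem ha hb
      | smul c a _ ha => rw [Matrix.mul_smul, Matrix.smul_mul]; exact Submodule.smul_mem _ c ha
    have := key ((B⁻¹ : GL (ι) F).val * Z * (B : Matrix (ι) (ι) F))
    simpa [mul_assoc] using this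
  have hspan1 : ∀ Z : Matrix (ι) (ι) F₁, Z ∈ Submodule.span F₁ X' := by
    intro Z
    by_contra hZ
    obtain ⟨f, hf, hf0⟩ := Submodule.exists_dual_map_eq_bot_of_notMem hZ inferInstance
    have hsum : ∀ Y : Matrix (ι) (ι) F₁, f Y = ∑ i, ∑ j, Y i j * f (Matrix.single i j 1) := by
      intro Y
      conv_lhs => rw [Matrix.matrix_eq_sum_single Y]
      simp only [map_sum]
      refine Finset.sum_congr rfl fun i _ => Finset.sum_congr rfl fun j _ => ?_
      rw [show Matrix.single i j (Y i j) = Y i j • Matrix.single i j (1 : F₁) by simp, map_smul, smul_eq_mul]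
    let φ : Matrix (ι) (ι) F →ₗ[F] F :=
      ∑ i, ∑ j, (f (Matrix.single i j 1) : F) • Matrix.entryLinearMap F F i j
    have hφ : ∀ Y, φ (emb Y) = (f Y : F) := by
      intro Y
      rw [hsum]
      simp [φ, emb, mul_comm]
    have hvan : ∀ W, φ W = 0 := by
      intro W
      induction hspanF W using Submodule.span_induction with
      | mem y hy =>
        obtain ⟨Y, hY, rfl⟩ := hy
        have : f Y = 0 := by
          have : f Y ∈ (Submodule.span F₁ X').map f := ⟨Y, Submodule.subset_span hY, rfl⟩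
          rwa [hf0, Submodule.mem_bot] at this
        rw [hφ, this]; rfl
      | zero => simp
      | add a b _ _ ha hb => rw [map_add, ha, hb, add_zero]
      | smul c a _ ha => rw [map_smul, ha, smul_zero]
    exact hf (Subtype.ext ((hφ Z).symm.trans (hvan _)))
  have hconj : ∀ Z, ∃ Z', emb Z' = (h : Matrix (ι) (ι) F) * emb Z * (h⁻¹ : GL (ι) F).val := by
    intro Z
    induction hspan1 Z using Submodule.span_induction with
    | mem y hy =>
      obtain ⟨x, hx, e⟩ := hy
      obtain ⟨Y, -, e'⟩ := hlift _ (hnorm g hg x hx)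
      refine ⟨Y, ?_⟩
      rw [e', e, ← Units.val_mul, ← Units.val_mul]
      congr 1
      simp [hh, mul_assoc]
    | zero => exact ⟨0, by simp⟩
    | add a b _ _ ha hb =>
      obtain ⟨a', ea⟩ := ha; obtain ⟨b', eb⟩ := hb
      exact ⟨a' + b', by rw [map_add, map_add, ea, eb, mul_add, add_mul]⟩
    | smul c a _ ha =>
      obtain ⟨a', ea⟩ := ha
      have hs : ∀ Y : Matrix (ι) (ι) F₁, emb (c • Y) = (c : F) • emb Y := fun Y => by ext i j; simp [emb]
      exact ⟨c • a', by rw [hs, hs, ea, Matrix.mul_smul, Matrix.smul_mul]⟩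
  choose α hα using hconj
  have hembalg : ∀ c : F₁, (h : Matrix (ι) (ι) F) * emb (algebraMap F₁ _ c) * (h⁻¹ : GL (ι) F).val =
      emb (algebraMap F₁ _ c) := fun c => by
    have : emb (algebraMap F₁ _ c) = algebraMap F _ (c : F) := by
      ext i j
      by_cases e : i = j <;> simp [emb, Matrix.algebraMap_matrix_apply, e]
    rw [this, ← Algebra.commutes, mul_assoc, Units.mul_inv, mul_one]
  let αh : Matrix (ι) (ι) F₁ →ₐ[F₁] Matrix (ι) (ι) F₁ :=
    { toFun := α
      map_one' := hembinj (by rw [hα, map_one]; simp)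
      map_mul' := fun a b => hembinj (by rw [hα, map_mul, map_mul, hα, hα]; simp [mul_assoc])
      map_zero' := hembinj (by rw [hα, map_zero]; simp)
      map_add' := fun a b => hembinj (by rw [hα, map_add, map_add, hα, hα]; simp [mul_add, add_mul])
      commutes' := fun c => hembinj (by rw [hα, hembalg]) }
  have hαinj : Function.Injective αh := fun a b hab => by
    have := (hα a).symm.trans ((congrArg emb (show α a = α b from hab)).trans (hα b))
    have h2 := congrArg (fun M => (h⁻¹ : GL (ι) F).val * M * (h : Matrix (ι) (ι) F)) this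
    exact hembinj (by simpa [mul_assoc] using h2)
  obtain ⟨a, ha⟩ := exists_inner_ι (AlgEquiv.ofBijective αh
    ⟨hαinj, LinearMap.injective_iff_surjective (f := αh.toLinearMap) |>.mp hαinj⟩)
  let A : GL (ι) F := Matrix.GeneralLinearGroup.map (F₁.subtype : F₁ →+* F) a
  have hA : (A : Matrix (ι) (ι) F) = emb a := rfl
  have hA' : (A⁻¹ : GL (ι) F).val = emb (a⁻¹ : GL (ι) F₁).val := by
    rw [show A⁻¹ = Matrix.GeneralLinearGroup.map (F₁.subtype : F₁ →+* F) a⁻¹ from (map_inv _ a).symm]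
    rfl
  have hsc : A⁻¹ * h ∈ scalars (ι) F := by
    obtain ⟨c, hc⟩ : ((A⁻¹ * h : GL (ι) F) : Matrix (ι) (ι) F) ∈ Set.range (Matrix.scalar (ι)) :=
      Matrix.mem_range_scalar_iff_commute_single'.mpr (fun i j => by
        have e : Matrix.single i j (1 : F) = emb (Matrix.single i j 1) := by
          ext k l; simp [emb, Matrix.single_apply, apply_ite]
        have h1 : (h : Matrix (ι) (ι) F) * Matrix.single i j 1 =
            (A : Matrix (ι) (ι) F) * Matrix.single i j 1 * (A⁻¹ : GL (ι) F).val * (h : Matrix (ι) (ι) F) := by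
          have h0 : emb (α (Matrix.single i j 1)) = emb ((a : Matrix (ι) (ι) F₁) * Matrix.single i j 1 *
              (a⁻¹ : GL (ι) F₁).val) := congrArg emb (ha _)
          rw [hA, hA', e, ← map_mul, ← map_mul, ← h0, hα, mul_assoc, Units.inv_mul, mul_one]
        show _ * _ = _ * _
        rw [Units.val_mul, mul_assoc _ (h : Matrix (ι) (ι) F), h1]
        simp [mul_assoc])
    rcases isEmpty_or_nonempty ι with hι | hι
    · exact (mem_scalars_iff _).mpr ⟨1, Subsingleton.elim _ _⟩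
    refine (mem_scalars_iff _).mpr ⟨Units.mk0 c fun h0 => (A⁻¹ * h).ne_zero (by rw [← hc, h0, map_zero]), ?_⟩
    refine hc.symm.trans ?_
    exact (Matrix.smul_one_eq_diagonal c).symm
  have := Subgroup.mul_mem_sup (show A ∈ (Matrix.GeneralLinearGroup.map (F₁.subtype : F₁ →+* F)).range from ⟨a, rfl⟩) hsc
  rwa [mul_inv_cancel_left] at this

omit [Fintype F] in
theorem Full.ne_zero_entry [Nonempty ι] {B : Matrix ι ι F} (hB : IsUnit B.det) : ∃ i j, B i j ≠ 0 := by
  by_contra h
  push_neg at h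
  exact hB.ne_zero (by rw [show B = 0 from Matrix.ext h, Matrix.det_zero])

/-- A form fixed by a spanning group with entries in a subfield is a multiple of a rational one. -/
theorem form_rational [Nonempty ι] {X : Subgroup (GL ι F)} (hX : Full X) {σ : F ≃+* F} {B : Matrix ι ι F}
    (hB : IsUnit B.det) (hfix : ∀ x ∈ X, (x : Matrix ι ι F)ᵀ * B * (x : Matrix ι ι F).map σ = B)
    {F₁ : Subfield F} (hσF : ∀ a ∈ F₁, σ a ∈ F₁) (P : GL ι F)
    (hP : ∀ x ∈ X, ∀ i j, ((P⁻¹ : GL ι F).val * (x : Matrix ι ι F) * (P : Matrix ι ι F)) i j ∈ F₁) :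
    ∃ (c : F) (B' : Matrix ι ι F), c ≠ 0 ∧ (∀ i j, B' i j ∈ F₁) ∧ IsUnit B'.det ∧
      (P : Matrix ι ι F)ᵀ * B * (P : Matrix ι ι F).map σ = c • B' := by
  classical
  set Pm := (P : Matrix ι ι F)
  set Pi' := (P⁻¹ : GL ι F).val
  have hPu : IsUnit Pm.det := (Matrix.isUnit_iff_isUnit_det _).mp P.isUnit
  set B1 := Pmᵀ * B * Pm.map σ
  have hPσ : IsUnit (Pm.map σ).det := by
    rw [show (Pm.map σ).det = σ Pm.det from (RingEquiv.map_det σ _).symm]; exact hPu.map σ.toRingHom
  have hB1 : IsUnit B1.det := by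
    simp only [B1, Matrix.det_mul, Matrix.det_transpose]; exact (hPu.mul hB).mul hPσ
  let X' := X.map (MulAut.conj P⁻¹).toMonoidHom
  have hX'v : ∀ y ∈ X', ∃ x ∈ X, (y : Matrix ι ι F) = Pi' * (x : Matrix ι ι F) * Pm := by
    rintro _ ⟨x, hx, rfl⟩; exact ⟨x, hx, by simp [Pi', Pm]⟩
  have hfull : Full X' := by
    refine eq_top_iff.mpr fun Z _ => ?_
    have key : ∀ W, Pi' * W * Pm ∈ Submodule.span F (matrixSet X') := by
      intro W
      have hW : W ∈ Submodule.span F (matrixSet X) := hX ▸ trivial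
      induction hW using Submodule.span_induction with
      | mem y hy =>
        obtain ⟨x, hx, rfl⟩ := hy
        exact Submodule.subset_span ⟨MulAut.conj P⁻¹ x, ⟨x, hx, rfl⟩, by simp [Pi', Pm]⟩
      | zero => simp
      | add a b _ _ ha hb => rw [mul_add, add_mul]; exact add_mem ha hb
      | smul c a _ ha => rw [Matrix.mul_smul, Matrix.smul_mul]; exact Submodule.smul_mem _ c ha
    have := key (Pm * Z * Pi')
    simpa [Pi', Pm, mul_assoc] using this
  have hfix1 : ∀ y ∈ X', (y : Matrix ι ι F)ᵀ * B1 * (y : Matrix ι ι F).map σ = B1 := by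
    intro y hy
    obtain ⟨x, hx, e⟩ := hX'v y hy
    have hc : Pm * (y : Matrix ι ι F) = (x : Matrix ι ι F) * Pm := by rw [e]; simp [Pi', Pm, ← mul_assoc]
    calc _ = (Pm * (y : Matrix ι ι F))ᵀ * B * (Pm * (y : Matrix ι ι F)).map σ := by
          simp only [B1, Matrix.transpose_mul, Matrix.map_mul, mul_assoc]
      _ = Pmᵀ * ((x : Matrix ι ι F)ᵀ * B * (x : Matrix ι ι F).map σ) * Pm.map σ := by
          rw [hc]; simp only [Matrix.transpose_mul, Matrix.map_mul, mul_assoc]
      _ = _ := by rw [hfix x hx]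
  obtain ⟨i₀, j₀, hij⟩ := Full.ne_zero_entry hB1
  obtain ⟨lam, hlam⟩ : ∃ lam : F →ₗ[F₁] F₁, lam (B1 i₀ j₀) ≠ 0 := by
    by_contra hh
    push_neg at hh
    exact hij ((Module.forall_dual_apply_eq_zero_iff F₁ (B1 i₀ j₀)).mp hh)
  let B' : Matrix ι ι F := B1.map fun a => (lam a : F)
  have hlin : ∀ (a : F) (z : F) (_ : z ∈ F₁), (lam (a * z) : F) = (lam a : F) * z := by
    intro a z hz
    rw [mul_comm a, show z * a = (⟨z, hz⟩ : F₁) • a from rfl, map_smul, mul_comm]
    rfl
  have hfix' : ∀ y ∈ X', (y : Matrix ι ι F)ᵀ * B' * (y : Matrix ι ι F).map σ = B' := by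
    intro y hy
    obtain ⟨x, hx, e⟩ := hX'v y hy
    have hent : ∀ i j, (y : Matrix ι ι F) i j ∈ F₁ := fun i j => e ▸ hP x hx i j
    ext i j
    conv_rhs => rw [show B' i j = (lam (B1 i j) : F) from rfl, ← hfix1 y hy]
    simp only [Matrix.mul_apply, Matrix.transpose_apply, Matrix.map_apply, Finset.sum_mul, map_sum,
      AddSubmonoidClass.coe_finset_sum]
    refine Finset.sum_congr rfl fun u _ => Finset.sum_congr rfl fun v _ => ?_
    rw [mul_assoc ((y : Matrix ι ι F) v i), mul_assoc ((y : Matrix ι ι F) v i), mul_comm ((y : Matrix ι ι F) v i) (B1 v u * _),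
      mul_assoc (B1 v u), hlin _ _ (mul_mem (hσF _ (hent u j)) (hent v i))]
    simp only [B', Matrix.map_apply]
    ring
  obtain ⟨k, hk⟩ := similar_of_normalises hfull σ hB1 hfix1 hfix'
  have hk0 : k ≠ 0 := by
    intro h0
    refine hlam (Subtype.ext ?_)
    have := congrFun (congrFun hk i₀) j₀
    rw [h0, zero_smul] at this
    exact this
  refine ⟨k⁻¹, B', inv_ne_zero hk0, fun i j => (lam _).2, ?_, ?_⟩
  · rw [hk, Matrix.det_smul]; exact (hk0.isUnit.pow _).mul hB1
  · rw [hk, smul_smul, inv_mul_cancel₀ hk0, one_smul]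

end Cfsg.Agent.GeomClasses.AschRel
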