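import Cfsg.Agent.GeomClasses.Aschbacher.Rel.TensorForm

/-! # Operators permuting equal tensor factors -/

set_option autoImplicit false

namespace Cfsg.Agent.GeomClasses.AschRel

open Matrix Cfsg.Geo
open Cfsg.Agent.GeomClasses.Asch (Irr tup exists_tensor_basis tup_mulSingle phi_mul_tup exists_factor)

variable {F : Type*} [Field F] {ι : Type} [Fintype ι] [DecidableEq ι] [Nonempty ι] {m t : ℕ}

theorem coord_wreath (φ : Fin t → (Matrix (Fin m) (Fin m) F →ₐ[F] Module.End F (ι → F)))
    (hcomm : Pairwise fun i j => ∀ X Y, Commute (φ i X) (φ j Y)) (hm : 0 < m)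
    (hirr : Irr (⋃ i, Set.range (φ i))) {g : GL ι F}
    (hperm : ∃ σ : Equiv.Perm (Fin t), ∀ i X,
      (gu g : Module.End F (ι → F)) * φ i X * ((gu g)⁻¹).val ∈ Set.range (φ (σ i)))
    (b : Module.Basis (Fin t → Fin m) F (ι → F))
    (hb : ∀ g x y, b.repr (tup φ hcomm g (b y)) x = ∏ i, g i (x i) (y i)) :
    ∃ (σ : Equiv.Perm (Fin t)) (c : F) (a : Fin t → GL (Fin m) F), c ≠ 0 ∧
      ∀ x y, (coordGL b g : Matrix (Fin t → Fin m) (Fin t → Fin m) F) x y =
        c * ∏ i, (a i : Matrix (Fin m) (Fin m) F) (x (σ i)) (y i) := by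
  classical
  obtain ⟨σ, hσ⟩ := hperm
  let π : (ι → F) ≃ₗ[F] (ι → F) := b.equiv b (Equiv.arrowCongr σ (Equiv.refl (Fin m)))
  have hπb : ∀ y, π (b y) = b (y ∘ σ.symm) := fun y => by
    rw [Module.Basis.equiv_apply]; rfl
  let πu : (Module.End F (ι → F))ˣ := ⟨π.toLinearMap, π.symm.toLinearMap,
    LinearMap.ext π.apply_symm_apply, LinearMap.ext π.symm_apply_apply⟩
  have hπφ : ∀ i X, φ (σ i) X * (πu : Module.End F (ι → F)) = (πu : Module.End F (ι → F)) * φ i X := by
    intro i X
    refine b.ext fun y => b.repr.injective (Finsupp.ext fun x => ?_)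
    show b.repr (φ (σ i) X (π (b y))) x = b.repr (π (φ i X (b y))) x
    rw [hπb, ← tup_mulSingle φ hcomm (σ i) X, hb, ← tup_mulSingle φ hcomm i X,
      ← b.sum_repr (tup φ hcomm (Pi.mulSingle i X) (b y)), map_sum, map_sum, Finsupp.finset_sum_apply,
      Finset.sum_eq_single (x ∘ σ)]
    · rw [map_smul, map_smul, hπb, Finsupp.smul_apply, b.repr_self, hb,
        show (x ∘ σ) ∘ σ.symm = x from funext fun k => congrArg x (σ.apply_symm_apply k),
        Finsupp.single_eq_same, smul_eq_mul, mul_one]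
      refine (Fintype.prod_equiv σ _ _ fun k => ?_).symm
      by_cases h : k = i
      · subst h; simp
      · simp [Pi.mulSingle_eq_of_ne h, Pi.mulSingle_eq_of_ne (fun hh => h (σ.injective hh))]
    · intro z _ hz
      rw [map_smul, map_smul, hπb, Finsupp.smul_apply, b.repr_self, Finsupp.single_eq_of_ne, smul_zero]
      intro h; exact hz (funext fun k => by rw [h]; simp)
    · simp
  obtain ⟨c, a, ha⟩ := exists_factor φ hcomm (fun _ => hm) hirr (πu⁻¹ * gu g) fun i X => by
    obtain ⟨Y, hY⟩ := hσ i X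
    refine ⟨Y, ?_⟩
    have hπ2 : (πu⁻¹).val * φ (σ i) Y = φ i Y * (πu⁻¹).val := by
      calc _ = (πu⁻¹).val * (φ (σ i) Y * (πu : Module.End F (ι → F))) * (πu⁻¹).val := by
            simp [mul_assoc]
        _ = _ := by rw [hπφ, ← mul_assoc, Units.inv_mul, one_mul]
    symm
    calc _ = (πu⁻¹).val * ((gu g : Module.End F (ι → F)) * φ i X * ((gu g)⁻¹).val) * (πu : Module.End F (ι → F)) := by
          simp [mul_assoc]
      _ = φ i Y := by rw [← hY, hπ2, mul_assoc, Units.inv_mul, mul_one]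
  refine ⟨σ, c, a, fun h0 => (πu⁻¹ * gu g).ne_zero (by rw [ha, h0, zero_smul]), fun x y => ?_⟩
  have e : (gu g : Module.End F (ι → F)) =
      c • ((πu : Module.End F (ι → F)) * tup φ hcomm fun i => (a i : Matrix (Fin m) (Fin m) F)) := by
    rw [← mul_smul_comm, ← ha, Units.val_mul, ← mul_assoc, Units.mul_inv, one_mul]
  rw [coordGL_apply, e, LinearMap.smul_apply, map_smul, Finsupp.smul_apply, smul_eq_mul]
  congr 1
  show b.repr (π (tup φ hcomm _ (b y))) x = _
  rw [← b.sum_repr (tup φ hcomm _ (b y)), map_sum, map_sum, Finsupp.finset_sum_apply,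
    Finset.sum_eq_single (x ∘ σ)]
  · rw [map_smul, map_smul, hπb, Finsupp.smul_apply, b.repr_self, hb,
      show (x ∘ σ) ∘ σ.symm = x from funext fun k => congrArg x (σ.apply_symm_apply k),
      Finsupp.single_eq_same, smul_eq_mul, mul_one]
    rfl
  · intro z _ hz
    rw [map_smul, map_smul, hπb, Finsupp.smul_apply, b.repr_self, Finsupp.single_eq_of_ne, smul_zero]
    intro h; exact hz (funext fun k => by rw [h]; simp)
  · simp

theorem coord_mem_wreath (φ : Fin t → (Matrix (Fin m) (Fin m) F →ₐ[F] Module.End F (ι → F)))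
    (hcomm : Pairwise fun i j => ∀ X Y, Commute (φ i X) (φ j Y)) (hm : 0 < m) (ht : 0 < t)
    (hirr : Irr (⋃ i, Set.range (φ i))) {g : GL ι F}
    (hperm : ∃ σ : Equiv.Perm (Fin t), ∀ i X,
      (gu g : Module.End F (ι → F)) * φ i X * ((gu g)⁻¹).val ∈ Set.range (φ (σ i)))
    (b : Module.Basis (Fin t → Fin m) F (ι → F))
    (hb : ∀ g x y, b.repr (tup φ hcomm g (b y)) x = ∏ i, g i (x i) (y i)) :
    coordGL b g ∈ tensorWreathStandard m t F := by
  classical
  obtain ⟨σ, c, a, hc, hga⟩ := coord_wreath φ hcomm hm hirr hperm b hb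
  let Pσ : Matrix (Fin t → Fin m) (Fin t → Fin m) F := Matrix.of fun x y => if y = x ∘ σ then 1 else 0
  let Pσ' : Matrix (Fin t → Fin m) (Fin t → Fin m) F := Matrix.of fun x y => if y = x ∘ σ.symm then 1 else 0
  have hmul : ∀ (τ : Equiv.Perm (Fin t)) (M : Matrix (Fin t → Fin m) (Fin t → Fin m) F) x y,
      ((Matrix.of fun x y : Fin t → Fin m => if y = x ∘ τ then (1 : F) else 0) * M) x y = M (x ∘ τ) y := by
    intro τ M x y
    simp [Matrix.mul_apply]
  let p : GL (Fin t → Fin m) F := ⟨Pσ, Pσ', by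
      ext x y
      rw [hmul]; simp only [Pσ', Matrix.of_apply, Matrix.one_apply]
      refine if_congr ?_ rfl rfl
      rw [show (x ∘ σ) ∘ σ.symm = x from funext fun k => congrArg x (σ.apply_symm_apply k)]
      exact eq_comm, by
      ext x y
      rw [hmul]; simp only [Pσ, Matrix.of_apply, Matrix.one_apply]
      refine if_congr ?_ rfl rfl
      rw [show (x ∘ σ.symm) ∘ σ = x from funext fun k => congrArg x (σ.symm_apply_apply k)]
      exact eq_comm⟩
  have hp : p ∈ tensorWreathStandard m t F := Subgroup.subset_closure (Or.inr ⟨σ, fun _ _ => rfl⟩)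
  suffices h : IsPureTensor m t (p⁻¹ * coordGL b g) by
    have := mul_mem hp (Subgroup.subset_closure (Or.inl h) :
      p⁻¹ * coordGL b g ∈ tensorWreathStandard m t F)
    rwa [mul_inv_cancel_left] at this
  let i₀ : Fin t := ⟨0, by omega⟩
  refine ⟨Function.update a i₀
    (Units.map (algebraMap F (Matrix (Fin m) (Fin m) F)).toMonoidHom (Units.mk0 c hc) * a i₀), fun x y => ?_⟩
  rw [Units.val_mul, show ((p⁻¹ : GL (Fin t → Fin m) F) : Matrix _ _ F) = Pσ' from rfl, hmul, hga,
    ← Finset.mul_prod_erase _ _ (Finset.mem_univ i₀), ← Finset.mul_prod_erase Finset.univ _ (Finset.mem_univ i₀)]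
  rw [Function.update_self, Units.val_mul]
  show c * _ = (algebraMap F (Matrix (Fin m) (Fin m) F) c * (a i₀ : Matrix (Fin m) (Fin m) F)) _ _ * _
  rw [← Algebra.smul_def, Matrix.smul_apply, smul_eq_mul, ← mul_assoc]
  congr 1
  · simp
  · refine Finset.prod_congr rfl fun i hi => ?_
    rw [Function.update_of_ne (Finset.ne_of_mem_erase hi)]
    simp

end Cfsg.Agent.GeomClasses.AschRel
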