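import Cfsg.Agent.GeomClasses.Aschbacher.Rel.Blocks
import Cfsg.Agent.GeomClasses.Aschbacher.Rel.Descent
import Cfsg.Agent.GeomClasses.Aschbacher.Rel.NonabSplit
import Cfsg.Agent.GeomClasses.Aschbacher.Rel.NormalCases
import Cfsg.Agent.GeomClasses.Aschbacher.Rel.Subfield
import Cfsg.Agent.GeomClasses.Aschbacher.Rel.Wreath

/-! # Tools shared by the structure theorems relative to a form -/

set_option autoImplicit false

namespace Cfsg.Agent.GeomClasses.AschRel

open Matrix Cfsg.Geo
open scoped commutatorElement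
open Cfsg.Agent.GeomClasses.Asch (Irr Normalises conjHom conjHom_apply)

variable {F : Type*} [Field F] {ι : Type} [Fintype ι] [DecidableEq ι]

theorem exists_two_commute_false [Nontrivial ι] {N : Subgroup (GL ι F)} (hN : Full N)
    (h : ∀ a ∈ N, ∀ b ∈ N, a * b = b * a) : False := by
  obtain ⟨i, j, hij⟩ := exists_pair_ne ι
  have hall : ∀ y ∈ N, Matrix.single i j (1 : F) * (y : Matrix ι ι F) = (y : Matrix ι ι F) * Matrix.single i j 1 := by
    intro y hy
    suffices key : ∀ X : Matrix ι ι F, X * (y : Matrix ι ι F) = (y : Matrix ι ι F) * X from key _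
    intro X
    have hX : X ∈ Submodule.span F (matrixSet N) := hN ▸ trivial
    induction hX using Submodule.span_induction with
    | mem a ha => obtain ⟨x, hx, rfl⟩ := ha; rw [← Units.val_mul, ← Units.val_mul, h x hx y hy]
    | zero => simp
    | add a b _ _ ha hb => rw [mul_add, add_mul, ha, hb]
    | smul c a _ ha => rw [Matrix.mul_smul, Matrix.smul_mul, ha]
  obtain ⟨c, hc⟩ := hN.comm_scalar hall
  have h1 := congrFun (congrFun hc i) j
  rw [Matrix.single_apply_same, Matrix.smul_apply, Matrix.one_apply_ne hij, smul_zero] at h1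
  exact one_ne_zero h1

theorem matrix_eq_of_iso {σ : F ≃+* F} {B : Matrix ι ι F} {g : GL ι F}
    (h : ∀ u v, matForm σ B ((g : Matrix ι ι F) *ᵥ u) ((g : Matrix ι ι F) *ᵥ v) = matForm σ B u v) :
    (g : Matrix ι ι F)ᵀ * B * (g : Matrix ι ι F).map σ = B := fix_gram h

/-- A matrix invertible with entries in a subfield comes from the general linear group of the subfield. -/
theorem mem_range_of_entries {F₁ : Subfield F} {g : GL ι F} (h : ∀ i j, (g : Matrix ι ι F) i j ∈ F₁) :
    g ∈ (Matrix.GeneralLinearGroup.map (F₁.subtype : F₁ →+* F)).range := by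
  let M : Matrix ι ι F₁ := Matrix.of fun i j => ⟨_, h i j⟩
  have hM : (F₁.subtype).mapMatrix M = (g : Matrix ι ι F) := by ext i j; rfl
  have hu : IsUnit M.det := by
    refine isUnit_iff_ne_zero.mpr fun h0 => ?_
    have := ((Matrix.isUnit_iff_isUnit_det _).mp g.isUnit).ne_zero
    rw [← hM, ← RingHom.map_det, h0, map_zero] at this
    exact this rfl
  exact ⟨Matrix.nonsingInvUnit M hu, Units.ext hM⟩

/-- A spanning group fixing forms of two kinds is realisable over a proper subfield. -/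
theorem realisable_of_two_forms [Fintype F] {X : Subgroup (GL ι F)} (hX : Full X) {σ : F ≃+* F}
    (hσ : σ ≠ RingEquiv.refl F) (hinv : ∀ a, σ (σ a) = a) {B H₂ : Matrix ι ι F} (hB : IsUnit B.det)
    (hH : IsUnit H₂.det) (hfixB : ∀ x ∈ X, (x : Matrix ι ι F)ᵀ * B * (x : Matrix ι ι F) = B)
    (hfixH : ∀ x ∈ X, (x : Matrix ι ι F)ᵀ * H₂ * (x : Matrix ι ι F).map σ = H₂) :
    RealisableOver (fixedBy σ) (matrixSet X) := by
  have hBu : IsUnit (B⁻¹ * H₂) := by
    rw [Matrix.isUnit_iff_isUnit_det, Matrix.det_mul, Matrix.det_nonsing_inv]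
    exact (IsUnit.ringInverse hB).mul hH
  set C : GL ι F := hBu.unit
  have hC0 : (C : Matrix ι ι F) = B⁻¹ * H₂ := rfl
  have hCx : ∀ x ∈ X, (C : Matrix ι ι F) * (x : Matrix ι ι F).map σ = (x : Matrix ι ι F) * (C : Matrix ι ι F) := by
    intro x hx
    set g := (x : Matrix ι ι F)
    have hu : IsUnit gᵀ.det := by
      rw [Matrix.det_transpose]; exact (Matrix.isUnit_iff_isUnit_det _).mp x.isUnit
    have e1 : B * g = gᵀ⁻¹ * B := by
      conv_rhs => rw [← hfixB x hx]
      rw [← mul_assoc, ← mul_assoc, Matrix.nonsing_inv_mul _ hu, one_mul]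
    have e2 : H₂ * g.map σ = gᵀ⁻¹ * H₂ := by
      conv_rhs => rw [← hfixH x hx]
      rw [← mul_assoc, ← mul_assoc, Matrix.nonsing_inv_mul _ hu, one_mul]
    rw [hC0, mul_assoc, e2]
    calc B⁻¹ * (gᵀ⁻¹ * H₂) = B⁻¹ * (gᵀ⁻¹ * B) * (B⁻¹ * H₂) := by
          simp only [mul_assoc]; rw [← mul_assoc B, Matrix.mul_nonsing_inv B hB, one_mul]
      _ = _ := by rw [← e1, ← mul_assoc B⁻¹ B, Matrix.nonsing_inv_mul B hB, one_mul]
  have hmm : ∀ M : Matrix ι ι F, (M.map σ).map σ = M := fun M => by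
    ext i j; rw [Matrix.map_apply, Matrix.map_apply, hinv]
  obtain ⟨lam, hlam⟩ := hX.comm_scalar (M := (C : Matrix ι ι F) * (C : Matrix ι ι F).map σ) fun x hx => by
    have e := congrArg (fun M : Matrix ι ι F => M.map σ) (hCx x hx)
    simp only [Matrix.map_mul, hmm] at e
    rw [mul_assoc, e, ← mul_assoc, hCx x hx, mul_assoc]
  obtain ⟨P, hP, -⟩ := realisable_of_twist hσ hinv C hlam (S := matrixSet X) fun s hs => by
    obtain ⟨x, hx, rfl⟩ := hs; exact hCx x hx
  exact ⟨P⁻¹, fun s hs i j => by rw [inv_inv]; exact hP s hs i j⟩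

end Cfsg.Agent.GeomClasses.AschRel
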