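import Cfsg.Agent.GeomClasses.Aschbacher.Rel.FieldAdjoint
import Cfsg.Agent.GeomClasses.Aschbacher.Rel.NormalCases
import Cfsg.Agent.GeomClasses.Aschbacher.Rel.Tools

/-! # The structure theorem for symplectic groups: commutative algebras and reducible groups -/

set_option autoImplicit false
set_option maxHeartbeats 400000

namespace Cfsg.Agent.GeomClasses.AschRel

open Matrix Cfsg.Geo
open Cfsg.Agent.GeomClasses.Asch (Irr Normalises conjHom conjHom_apply)

variable {F : Type*} [Field F] [Fintype F] {m : ℕ}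

local notation "ι" => (Fin m ⊕ Fin m)
local notation "Bs" => (Matrix.J (Fin m) F)
local notation "fs" => matForm (RingEquiv.refl F) (Matrix.J (Fin m) F)

/-- Containment in a geometric class of the symplectic group. -/
def GoodSp (H : Subgroup (GL (Fin m ⊕ Fin m) F)) : Prop :=
  ∃ M : Subgroup (GL (Fin m ⊕ Fin m) F), InSymplecticClass m F M ∧ H ≤ M

omit [Fintype F] in
theorem card_sp_idx : Fintype.card ι = 2 * m := by simp; omega

omit [Fintype F] in
theorem symp_eq : Cfsg.sympForm m F = fs := by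
  funext u v; rfl

omit [Fintype F] in
theorem sp_skew (u v : ι → F) : fs v u = -fs u v := by
  show v ⬝ᵥ (Bs *ᵥ u) = -(u ⬝ᵥ (Bs *ᵥ v))
  rw [Matrix.dotProduct_mulVec u, dotProduct_comm _ v, ← Matrix.mulVec_transpose, Matrix.J_transpose, Matrix.neg_mulVec,
    dotProduct_neg, neg_neg]

omit [Fintype F] in
theorem sp_alt (v : ι → F) : fs v v = 0 := by
  show v ⬝ᵥ (Bs *ᵥ v) = 0
  have e : Bs *ᵥ v = Sum.elim (fun i => -v (Sum.inr i)) (fun i => v (Sum.inl i)) := by
    rw [Matrix.J, Matrix.fromBlocks_mulVec]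
    funext i
    rcases i with i | i <;> simp [Matrix.neg_mulVec]
  rw [e, dotProduct, Fintype.sum_sum_type, ← Finset.sum_add_distrib]
  exact Finset.sum_eq_zero fun i _ => by simp [mul_comm]

omit [Fintype F] in
theorem spData : FormData (RingEquiv.refl F) Bs (-1) :=
  ⟨fun a => rfl, Matrix.isUnit_det_J (Fin m) F, neg_ne_zero.mpr one_ne_zero, fun u v => by
    rw [neg_one_mul]; exact sp_skew u v⟩

omit [Fintype F] in
theorem sp_iso {g : GL ι F} (hg : g ∈ Cfsg.spGL m F) (u v : ι → F) :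
    fs ((g : Matrix ι ι F) *ᵥ u) ((g : Matrix ι ι F) *ᵥ v) = fs u v := hg u v

omit [Fintype F] in
theorem sp_sim_sup {H : Subgroup (GL ι F)} (hI : H ≤ Cfsg.spGL m F) :
    ∀ g ∈ H ⊔ scalars ι F, IsSim (RingEquiv.refl F) Bs g := by
  intro g hg
  rw [← SetLike.mem_coe, Subgroup.mul_normal] at hg
  obtain ⟨a, ha, z, hz, rfl⟩ := hg
  obtain ⟨c, hc⟩ := (mem_scalars_iff z).mp hz
  refine ⟨(c : F) * c, mul_ne_zero c.ne_zero c.ne_zero, fun u v => ?_⟩
  rw [Units.val_mul, ← Matrix.mulVec_mulVec, ← Matrix.mulVec_mulVec, sp_iso (hI ha), hc, Matrix.smul_mulVec,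
    Matrix.smul_mulVec, Matrix.one_mulVec, Matrix.one_mulVec, mf_smul_left, mf_smul_right]
  show (c : F) * ((c : F) * _) = _
  ring

omit [Fintype F] in
theorem symp_partial_of {M : Subgroup (GL ι F)} [Fintype F] (h : InSymplecticPartialClass m F M) :
    InSymplecticClass m F M := Or.inl h

theorem char_two_of_even (hq : ¬ Odd (Fintype.card F)) : (2 : F) = 0 := by
  by_contra h
  refine hq (Nat.odd_iff.mpr (FiniteField.odd_card_of_char_ne_two fun h2 => h ?_))
  haveI := (ringChar.eq_iff.mp h2 : CharP F 2)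
  exact CharP.ofNat_eq_zero F 2

theorem two_ne_of_odd (hq : Odd (Fintype.card F)) : (2 : F) ≠ 0 := by
  intro h
  have h2 : ringChar F = 2 := by
    obtain ⟨p, hp⟩ := CharP.exists F
    haveI := hp
    rw [ringChar.eq F p]
    exact (Nat.prime_dvd_prime_iff_eq (CharP.char_is_prime F p) Nat.prime_two).mp
      ((CharP.cast_eq_zero_iff F p 2).mp (by exact_mod_cast h))
  exact Nat.not_even_iff_odd.mpr hq (Nat.even_iff.mpr (FiniteField.even_card_of_char_two h2))

theorem sp_quad {H : Subgroup (GL ι F)} (hI : H ≤ Cfsg.spGL m F) (hq : ¬ Odd (Fintype.card F)) (Q : (ι → F) → F)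
    (hsm : ∀ (c : F) v, Q (c • v) = c ^ 2 * Q v) (hpol : ∀ u v, QuadraticMap.polar Q u v = fs u v)
    (hinv : ∀ g ∈ H, ∀ v, Q ((g : Matrix ι ι F) *ᵥ v) = Q v) : GoodSp H := by
  refine ⟨quadSimilarityGroup Q ⊓ Cfsg.spGL m F, symp_partial_of ?_, le_inf (fun g hg => ⟨1, fun v => ?_⟩) hI⟩
  · iterate 6 right
    refine ⟨Q, hq, ⟨hsm, ?_, ?_⟩, fun u v => hpol u v, rfl⟩
    · rw [show QuadraticMap.polar Q = fs from funext fun u => funext fun v => hpol u v]
      exact ⟨fun x y v => mf_add_left x y v, fun c x v => mf_smul_left c x v, fun v x y => mf_add_right v x y,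
        fun c v x => by rw [mf_smul_right]; rfl⟩
    · rw [show QuadraticMap.polar Q = fs from funext fun u => funext fun v => hpol u v]
      exact nondeg_matForm spData.unit
  · rw [hinv g hg, Units.val_one, one_mul]

/-- A pair of complementary totally singular subspaces. -/
theorem sp_pair {H : Subgroup (GL ι F)} (hI : H ≤ Cfsg.spGL m F) {k : ℕ} {D : Fin 2 → Submodule F (ι → F)}
    (hk : 2 * k = Fintype.card ι) (hD : IsMDecomposition k D) (hts : ∀ i, IsTotallySingularFor fs (D i))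
    (hle : H ≤ decompositionStabilizer D) : GoodSp H := by
  obtain rfl : k = m := by rw [card_sp_idx] at hk; omega
  by_cases hq : Odd (Fintype.card F)
  · refine ⟨decompositionStabilizer D ⊓ Cfsg.spGL k F, symp_partial_of ?_, le_inf hle hI⟩
    iterate 3 right
    left
    exact ⟨D, hq, hD, fun i => by rw [symp_eq]; exact hts i, rfl⟩
  have h20 := char_two_of_even hq
  have hneg : ∀ x : F, -x = x := fun x => by linear_combination (-x) * h20
  have hc : IsCompl (D 0) (D 1) := by
    refine ⟨hD.indep.pairwiseDisjoint (by decide), codisjoint_iff.mpr ?_⟩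
    rw [← hD.iSup_eq_top]
    refine le_antisymm (sup_le (le_iSup D 0) (le_iSup D 1)) (iSup_le fun i => ?_)
    fin_cases i
    · exact le_sup_left
    · exact le_sup_right
  let p : (Fin k ⊕ Fin k → F) →ₗ[F] (Fin k ⊕ Fin k → F) := Submodule.projection (D 0) (D 1) hc
  have hp0 : ∀ v, p v ∈ D 0 := by
    intro v
    obtain ⟨x, hx, y, hy, rfl⟩ := Submodule.mem_sup.mp (show v ∈ D 0 ⊔ D 1 by rw [hc.sup_eq_top]; trivial)
    simpa [p, Submodule.projection_apply_of_mem_left hc hx, Submodule.projection_apply_of_mem_right hc hy] using hx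
  have hp1 : ∀ v, v - p v ∈ D 1 := by
    intro v
    obtain ⟨x, hx, y, hy, rfl⟩ := Submodule.mem_sup.mp (show v ∈ D 0 ⊔ D 1 by rw [hc.sup_eq_top]; trivial)
    simpa [p, Submodule.projection_apply_of_mem_left hc hx, Submodule.projection_apply_of_mem_right hc hy] using hy
  have hpeq : ∀ a ∈ D 0, ∀ b ∈ D 1, p (a + b) = a := fun a ha b hb => by
    simp [p, Submodule.projection_apply_of_mem_left hc ha, Submodule.projection_apply_of_mem_right hc hb]
  let Q : (Fin k ⊕ Fin k → F) → F := fun v => matForm (RingEquiv.refl F) (Matrix.J (Fin k) F) (p v) (v - p v)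
  have hfe : ∀ u v, matForm (RingEquiv.refl F) (Matrix.J (Fin k) F) u v =
      matForm (RingEquiv.refl F) (Matrix.J (Fin k) F) (p u) (v - p v) +
        matForm (RingEquiv.refl F) (Matrix.J (Fin k) F) (p v) (u - p u) := by
    intro u v
    conv_lhs => rw [show u = p u + (u - p u) by abel, show v = p v + (v - p v) by abel, mf_add_left, mf_add_right,
      mf_add_right, hts 0 _ (hp0 u) _ (hp0 v), hts 1 _ (hp1 u) _ (hp1 v), zero_add, add_zero]
    rw [sp_skew (u := p v), hneg]
  refine sp_quad hI hq Q (fun c v => ?_) (fun u v => ?_) fun g hg v => ?_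
  · simp only [Q, map_smul, ← smul_sub, mf_smul_left, mf_smul_right, RingEquiv.refl_apply]; ring
  · rw [hfe u v]
    simp only [QuadraticMap.polar, Q, map_add, show u + v - (p u + p v) = (u - p u) + (v - p v) by abel, mf_add_left,
      mf_add_right]
    ring
  · obtain ⟨π, hπ⟩ := hle hg
    have hmem : ∀ i, ∀ w ∈ D i, (g : Matrix (Fin k ⊕ Fin k) (Fin k ⊕ Fin k) F) *ᵥ w ∈ D (π i) := fun i w hw => by
      rw [← hπ i]; exact ⟨w, hw, Matrix.toLin'_apply _ _⟩
    set gm := (g : Matrix (Fin k ⊕ Fin k) (Fin k ⊕ Fin k) F)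
    have hsplit : gm *ᵥ v = gm *ᵥ p v + gm *ᵥ (v - p v) := by rw [← Matrix.mulVec_add, add_sub_cancel]
    rcases (show π 0 = 0 ∨ π 0 = 1 by omega) with h0 | h0
    · have h1 : π 1 = 1 := by
        rcases (show π 1 = 0 ∨ π 1 = 1 by omega) with h | h
        · exact absurd (π.injective (h.trans h0.symm)) (by decide)
        · exact h
      show matForm _ _ (p (gm *ᵥ v)) (gm *ᵥ v - p (gm *ᵥ v)) = _
      rw [hsplit, hpeq _ (h0 ▸ hmem 0 _ (hp0 v)) _ (h1 ▸ hmem 1 _ (hp1 v)), add_sub_cancel_left]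
      exact sp_iso (hI hg) _ _
    · have h1 : π 1 = 0 := by
        rcases (show π 1 = 0 ∨ π 1 = 1 by omega) with h | h
        · exact h
        · exact absurd (π.injective (h.trans h0.symm)) (by decide)
      show matForm _ _ (p (gm *ᵥ v)) (gm *ᵥ v - p (gm *ᵥ v)) = _
      rw [hsplit, add_comm, hpeq _ (h1 ▸ hmem 1 _ (hp1 v)) _ (h0 ▸ hmem 0 _ (hp0 v)), add_sub_cancel_left, sp_iso (hI hg),
        sp_skew (u := p v), hneg]

theorem sp_reducible {H : Subgroup (GL ι F)} (hI : H ≤ Cfsg.spGL m F) (hm : 0 < m)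
    (hirr : ¬ Irr ((fun g : (Module.End F (ι → F))ˣ => (g : Module.End F (ι → F))) '' (gu '' ((H ⊔ scalars ι F : Subgroup _) : Set _)))) :
    GoodSp H := by
  haveI : Nonempty ι := ⟨Sum.inl ⟨0, hm⟩⟩
  rcases reducible_cases spData (sp_sim_sup hI) hirr with ⟨W, hW0, hW, hKW⟩ |
    ⟨W, W', hW0, hW1, hW'0, hW'1, hW, hW', horth, hinf, hsup, hKW, hKW'⟩
  · exact ⟨_, symp_partial_of (Or.inl ⟨W, hW0, by rw [symp_eq]; exact hW, rfl⟩), le_inf (le_sup_left.trans hKW) hI⟩
  have hdim : Module.finrank F W + Module.finrank F W' = 2 * m := by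
    rw [← Submodule.finrank_sup_add_finrank_inf_eq, hsup, hinf, finrank_bot, add_zero, finrank_top,
      Module.finrank_fintype_fun_eq_card, card_sp_idx]
  by_cases h1 : Module.finrank F W < m
  · exact ⟨_, symp_partial_of (Or.inr (Or.inl ⟨W, hW0, by rw [symp_eq]; exact hW, h1, rfl⟩)), le_inf (le_sup_left.trans hKW) hI⟩
  by_cases h2 : Module.finrank F W' < m
  · exact ⟨_, symp_partial_of (Or.inr (Or.inl ⟨W', hW'0, by rw [symp_eq]; exact hW', h2, rfl⟩)), le_inf (le_sup_left.trans hKW') hI⟩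
  let D : Fin 2 → Submodule F (ι → F) := ![W, W']
  have hD : IsMDecomposition m D := by
    refine ⟨le_rfl, hm, fun i => ?_, ?_, ?_⟩
    · fin_cases i
      · show Module.finrank F W = m; omega
      · show Module.finrank F W' = m; omega
    · rw [iSupIndep_def]
      intro i
      fin_cases i
      · refine disjoint_iff.mpr (le_bot_iff.mp ?_)
        rw [← hinf]
        exact inf_le_inf_left _ (iSup₂_le fun j hj => by fin_cases j <;> [exact absurd rfl hj; exact le_rfl])
      · refine disjoint_iff.mpr (le_bot_iff.mp ?_)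
        rw [← hinf, inf_comm W]
        exact inf_le_inf_left _ (iSup₂_le fun j hj => by fin_cases j <;> [exact le_rfl; exact absurd rfl hj])
    · refine eq_top_iff.mpr (hsup ▸ sup_le ?_ ?_)
      · exact le_iSup D 0
      · exact le_iSup D 1
  have hswap : ∀ u v, fs u v = 0 → fs v u = 0 := fun u v e => by rw [sp_skew, e, neg_zero]
  have hst : H ≤ decompositionStabilizer D := fun g hg => by
    refine ⟨1, fun i => ?_⟩
    have key : ∀ U : Submodule F (ι → F), H ≤ subspaceStabilizer U → U.map (Matrix.toLin' (g : Matrix ι ι F)) = U := by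
      intro U hU
      refine Submodule.eq_of_le_of_finrank_eq ?_ (Submodule.equivMapOfInjective _ (fun a b hab => by
        have := congrArg ((g⁻¹ : GL ι F).val *ᵥ ·) (by simpa using hab : (g : Matrix ι ι F) *ᵥ a = (g : Matrix ι ι F) *ᵥ b)
        simpa [Matrix.mulVec_mulVec] using this) U).finrank_eq.symm
      rintro _ ⟨w, hw, rfl⟩
      rw [Matrix.toLin'_apply]
      exact (hU hg w).1 hw
    fin_cases i
    · exact key W (le_sup_left.trans hKW)
    · exact key W' (le_sup_left.trans hKW')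
  refine ⟨decompositionStabilizer D ⊓ Cfsg.spGL m F, symp_partial_of (Or.inr (Or.inr (Or.inl ⟨2, m, D, ?_, rfl⟩))), le_inf hst hI⟩
  rw [symp_eq]
  refine ⟨hD, fun i => ?_, fun i j hij => ?_⟩
  · fin_cases i
    · exact hW
    · exact hW'
  · fin_cases i <;> fin_cases j
    · exact absurd rfl hij
    · exact fun u hu v hv => hswap v u (horth v hv u hu)
    · exact horth
    · exact absurd rfl hij

/-- A commutative algebra closed under adjoints gives a geometric class. -/
theorem sp_comm {H : Subgroup (GL ι F)} (hI : H ≤ Cfsg.spGL m F) (hm : 0 < m)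
    (hirr : Irr ((fun u : (Module.End F (ι → F))ˣ => (u : Module.End F (ι → F))) '' opUnits (H ⊔ scalars ι F)))
    {E : Subalgebra F (Module.End F (ι → F))} (hcomm : ∀ x ∈ E, ∀ y ∈ E, x * y = y * x)
    (hnorm : ∀ g ∈ H ⊔ scalars ι F, Normalises E (gu g)) (hcl : ∀ x ∈ E, st (RingEquiv.refl F) Bs x ∈ E)
    (hbig : ∃ x ∈ E, ∀ c : F, x ≠ algebraMap F _ c) : GoodSp H := by
  classical
  haveI : Nonempty ι := ⟨Sum.inl ⟨0, hm⟩⟩
  have hB := spData (F := F) (m := m)
  rcases blocks_or_field hB (sp_sim_sup hI) hirr hcomm hnorm hcl with ⟨t, k, D, hD, hKD, -⟩ | ⟨k, D, hk, hD, hts, hKD⟩ | hinv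
  · exact ⟨_, symp_partial_of (Or.inr (Or.inr (Or.inl ⟨t, k, D, by rw [symp_eq]; exact hD, rfl⟩))),
      le_inf (le_sup_left.trans hKD) hI⟩
  · exact sp_pair hI hk hD hts (le_sup_left.trans hKD)
  obtain ⟨r, L, hr, hLE, hfin, hLinv, hLN⟩ := Asch.exists_prime_subfield hcomm hinv hbig
  have hLcomm : ∀ x ∈ L, ∀ y ∈ L, x * y = y * x := fun x hx y hy => hcomm x (hLE hx) y (hLE hy)
  have hLcl := subfield_closed hB hcomm hinv hcl hLE hLinv
  let Φ : Module.End F (ι → F) ≃ₐ[F] Matrix ι ι F := LinearMap.toMatrixAlgEquiv'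
  let L' : Subalgebra F (Matrix ι ι F) := L.map Φ.toAlgHom
  have hmem : ∀ x, x ∈ L' ↔ Φ.symm x ∈ L := fun x =>
    ⟨by rintro ⟨y, hy, rfl⟩; simpa using hy, fun h => ⟨_, h, Φ.apply_symm_apply x⟩⟩
  have hfield : IsFieldSubalgebra r L' := by
    refine ⟨fun x hx y hy => ?_, fun x hx hx0 => ?_, ?_⟩
    · apply Φ.symm.injective
      rw [map_mul, map_mul]
      exact hLcomm _ ((hmem x).mp hx) _ ((hmem y).mp hy)
    · obtain ⟨y, hy, hxy⟩ := hLinv _ ((hmem x).mp hx) (by simpa using hx0)
      refine ⟨Φ y, (hmem _).mpr (by simpa using hy), Φ.symm.injective ?_⟩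
      simpa using hxy
    · rw [← hfin]
      exact (L.equivMapOfInjective Φ.toAlgHom Φ.injective).toLinearEquiv.finrank_eq.symm
  have hle : H ≤ subalgebraNormalizer L' := fun g hg k => by
    rw [hmem, hmem, hLN (gu g) (hnorm g (Subgroup.mem_sup_left hg)), map_mul, map_mul, ← map_inv]
    rfl
  have hadj : ∀ k ∈ L', ∀ u v, fs (k *ᵥ u) v = fs u ((LinearMap.toMatrix' (st (RingEquiv.refl F) Bs (Φ.symm k))) *ᵥ v) :=
    fun k _ u v => by
    rw [LinearMap.toMatrix'_mulVec]
    exact adjoint hB (Φ.symm k) u v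
  rcases adjoint_dichotomy hB hr hfin hLcomm hLinv hLcl with hself | ⟨rfl, ⟨ω, hω, hω'⟩, hfixed⟩
  · have hsa : ∀ k ∈ L', ∀ u v, fs (k *ᵥ u) v = fs u (k *ᵥ v) := fun k hk u v => by
      rw [hadj k hk, hself _ ((hmem k).mp hk), LinearMap.toMatrix'_mulVec]
      rfl
    have halt : ∀ k ∈ L', ∀ v, fs (k *ᵥ v) v = 0 := by
      intro k hk v
      by_cases h2 : (2 : F) = 0
      · -- every element of the finite field is a square
        letI : CommRing L := { (inferInstance : Ring L) with mul_comm := fun a b => Subtype.ext (hLcomm a a.2 b b.2) }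
        haveI : Nontrivial L := ⟨0, 1, fun h => zero_ne_one (congrArg Subtype.val h)⟩
        have hLF : IsField L := ⟨⟨0, 1, zero_ne_one⟩, mul_comm, fun {a} ha => by
          obtain ⟨y, hy, hxy⟩ := hLinv a a.2 fun h => ha (Subtype.ext h)
          exact ⟨⟨y, hy⟩, Subtype.ext hxy⟩⟩
        letI : Field L := hLF.toField
        haveI : Finite (ι → F) := Pi.finite
        haveI : Finite (Module.End F (ι → F)) := Finite.of_injective _ DFunLike.coe_injective
        have hc2 : ringChar L = 2 := by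
          haveI : CharP F 2 := (CharP.charP_iff_prime_eq_zero Nat.prime_two).mpr (by exact_mod_cast h2)
          haveI : CharP L 2 := charP_of_injective_algebraMap (algebraMap F L).injective 2
          exact ringChar.eq L 2
        obtain ⟨⟨l, hl⟩, he⟩ := FiniteField.isSquare_of_char_two hc2 (⟨Φ.symm k, (hmem k).mp hk⟩ : L)
        have e : Φ.symm k = l * l := congrArg Subtype.val he
        have ek : k = Φ l * Φ l := by rw [← map_mul, ← e, Φ.apply_symm_apply]
        have hlL : Φ l ∈ L' := (hmem _).mpr (by simpa using hl)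
        rw [ek, ← Matrix.mulVec_mulVec, hsa _ hlL]
        exact sp_alt _
      · have e := hsa k hk v v
        rw [sp_skew (u := k *ᵥ v)] at e
        have : (2 : F) * fs (k *ᵥ v) v = 0 := by linear_combination e
        exact (mul_eq_zero.mp this).resolve_left h2
    refine ⟨subalgebraNormalizer L' ⊓ Cfsg.spGL m F, Or.inr (Or.inl ⟨r, L', hr, hfield, ?_, ?_, rfl⟩), le_inf hle hI⟩
    · intro k hk u v; rw [symp_eq]; exact hsa k hk u v
    · intro k hk v; rw [symp_eq]; exact halt k hk v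
  by_cases hq : Odd (Fintype.card F)
  · refine ⟨subalgebraNormalizer L' ⊓ Cfsg.spGL m F, Or.inr (Or.inr (Or.inl ⟨L', hq, hfield, ?_, ?_, rfl⟩)), le_inf hle hI⟩
    · intro k hk
      refine ⟨Φ (st (RingEquiv.refl F) Bs (Φ.symm k)), (hmem _).mpr (by simpa using hLcl _ ((hmem k).mp hk)), ?_⟩
      intro u v
      rw [symp_eq]
      exact hadj k hk u v
    · intro hsa
      refine hω' (st_unique hB fun u v => ?_)
      have := hsa (Φ ω) ((hmem _).mpr (by simpa using hω)) u v
      rw [symp_eq] at this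
      rwa [show ∀ x, Φ ω *ᵥ x = ω x from fun x => LinearMap.toMatrix'_mulVec ω x,
        show ∀ x, Φ ω *ᵥ x = ω x from fun x => LinearMap.toMatrix'_mulVec ω x] at this
  -- even order: a quadratic form
  have h20 := char_two_of_even hq
  have hneg : ∀ x : F, -x = x := fun x => by linear_combination (-x) * h20
  set w' := st (RingEquiv.refl F) Bs ω
  obtain ⟨a, ha⟩ := hfixed (ω + w') (add_mem hω (hLcl ω hω)) (by rw [st_add hB, st_st hB, add_comm])
  obtain ⟨b, hb⟩ := hfixed (ω * w') (mul_mem hω (hLcl ω hω)) (by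
    rw [st_mul hB, st_st hB])
  have ha0 : a ≠ 0 := by
    intro h0
    rw [h0, map_zero] at ha
    refine hω' ?_
    rw [eq_neg_of_add_eq_zero_right ha]
    refine LinearMap.ext fun v => funext fun i => ?_
    exact hneg _
  let Q : (ι → F) → F := fun v => a⁻¹ * fs (ω v) v
  refine sp_quad hI hq Q (fun c v => ?_) (fun u v => ?_) fun g hg v => ?_
  · simp only [Q, map_smul, mf_smul_left, mf_smul_right, RingEquiv.refl_apply]; ring
  · simp only [QuadraticMap.polar, Q, map_add, mf_add_left, mf_add_right]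
    have e1 : fs (ω u) v = fs u (w' v) := adjoint hB ω u v
    have e2 : fs (ω v) u = fs u (ω v) := by rw [sp_skew, hneg]
    have e3 : fs u (w' v) + fs u (ω v) = a * fs u v := by
      rw [← mf_add_right, ← LinearMap.add_apply, add_comm w' ω, ha, Module.algebraMap_end_apply, mf_smul_right]
      rfl
    rw [e2, e1]
    field_simp
    linear_combination e3
  · show a⁻¹ * fs (ω ((g : Matrix ι ι F) *ᵥ v)) ((g : Matrix ι ι F) *ᵥ v) = a⁻¹ * fs (ω v) v
    congr 1
    set ω₁ := conjHom (gu g⁻¹) ω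
    have hω₁ : ω₁ ∈ L := (hLN (gu g⁻¹) (hnorm g⁻¹ (Subgroup.mem_sup_left (inv_mem hg))) ω).mp hω
    have hsimg : IsSim (RingEquiv.refl F) Bs g⁻¹ := sp_sim_sup hI _ (Subgroup.mem_sup_left (inv_mem hg))
    have hst1 : st (RingEquiv.refl F) Bs ω₁ = conjHom (gu g⁻¹) w' := st_conj hB hsimg ω
    have hsum : ω₁ + st (RingEquiv.refl F) Bs ω₁ = algebraMap F _ a := by rw [hst1, ← map_add, ha, AlgHom.commutes]
    have hprod : ω₁ * st (RingEquiv.refl F) Bs ω₁ = algebraMap F _ b := by rw [hst1, ← map_mul, hb, AlgHom.commutes]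
    have hroot : (ω₁ - ω) * (ω₁ - w') = 0 := by
      have h1 : ω₁ * ω₁ - (ω + w') * ω₁ + ω * w' = 0 := by
        rw [ha, hb, ← hsum, ← hprod, add_mul, hLcomm _ (hLcl _ hω₁) _ hω₁]
        abel
      rw [← h1, sub_mul, mul_sub, mul_sub, add_mul, hLcomm _ hω₁ _ (hLcl ω hω)]
      abel
    have hor : ω₁ = ω ∨ ω₁ = w' := by
      by_cases h : ω₁ - ω = 0
      · exact Or.inl (sub_eq_zero.mp h)
      · obtain ⟨y, -, hy⟩ := hLinv _ (sub_mem hω₁ hω) h
        refine Or.inr (sub_eq_zero.mp ?_)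
        haveI : Finite (ι → F) := Pi.finite
        haveI : Finite (Module.End F (ι → F)) := Finite.of_injective _ DFunLike.coe_injective
        calc ω₁ - w' = (y * (ω₁ - ω)) * (ω₁ - w') := by rw [mul_eq_one_comm.mp hy, one_mul]
          _ = 0 := by rw [mul_assoc, hroot, mul_zero]
    have hgv : (g : Matrix ι ι F) *ᵥ (ω₁ v) = ω ((g : Matrix ι ι F) *ᵥ v) := by
      show (g : Matrix ι ι F) *ᵥ ((conjHom (gu g⁻¹) ω) v) = _
      rw [conjHom_apply, ← gu_apply, ← gu_apply, ← Module.End.mul_apply, ← Module.End.mul_apply, map_inv, inv_inv,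
        ← mul_assoc, ← mul_assoc, ← Units.val_mul, mul_inv_cancel, Units.val_one, one_mul]
    rw [← hgv, sp_iso (hI hg)]
    rcases hor with e | e <;> rw [e]
    rw [sp_skew (u := v), hneg, ← adjoint hB ω v v]

end Cfsg.Agent.GeomClasses.AschRel
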