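import Cfsg.Agent.GeomClasses.Aschbacher.Rel.Sp
import Cfsg.Agent.GeomClasses.Aschbacher.Rel.FullCard
import Cfsg.Agent.GeomClasses.Aschbacher.Rel.Subfield
import Mathlib.LinearAlgebra.Dual.Lemmas

/-! # The abelian socle case in symplectic groups -/

set_option autoImplicit false
set_option maxHeartbeats 400000

namespace Cfsg.Agent.GeomClasses.AschRel

open Matrix Cfsg.Geo
open scoped commutatorElement

variable {F : Type*} [Field F] [Fintype F] {m : ℕ}

local notation "ι" => (Fin m ⊕ Fin m)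
local notation "Bs" => (Matrix.J (Fin m) F)
local notation "fs" => matForm (RingEquiv.refl F) (Matrix.J (Fin m) F)

omit [Fintype F] in
theorem sp_matrix {g : GL ι F} (hg : g ∈ Cfsg.spGL m F) :
    (g : Matrix ι ι F)ᵀ * Bs * (g : Matrix ι ι F).map (RingEquiv.refl F) = Bs := matrix_eq_of_iso (sp_iso hg)

/-- A realisation over a proper subfield gives the subfield class. -/
theorem sp_subfield {H X : Subgroup (GL ι F)} (hI : H ≤ Cfsg.spGL m F) (hm : 0 < m) (hX : Full X)
    (hXI : X ≤ Cfsg.spGL m F) (hnorm : ∀ g ∈ H, ∀ x ∈ X, g * x * g⁻¹ ∈ X) {F₀ : Subfield F} (hF₀ : F₀ ≠ ⊤)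
    (hreal : RealisableOver F₀ (matrixSet X)) : GoodSp H := by
  haveI : Nonempty ι := ⟨Sum.inl ⟨0, hm⟩⟩
  obtain ⟨F₁, r, P, hr, hcard, hHle, hent⟩ := subfield_of_realisable hX hnorm hF₀ hreal
  obtain ⟨c, B', hc, hB', -, he⟩ := form_rational hX (spData (F := F) (m := m)).unit (fun x hx => sp_matrix (hXI hx))
    (F₁ := F₁) (fun a ha => ha) P hent
  refine ⟨subfieldSubgroup F₁ P ⊓ Cfsg.spGL m F, symp_partial_of ?_, le_inf hHle hI⟩
  iterate 4 right
  left
  refine ⟨F₁, r, P, c⁻¹, hr, hcard, inv_ne_zero hc, fun u v hu hv => ?_, rfl⟩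
  rw [symp_eq, matForm_apply, he]
  simp only [matForm, dotProduct, Matrix.mulVec, Matrix.smul_apply, smul_eq_mul, RingEquiv.refl_apply, Finset.mul_sum]
  refine Subfield.sum_mem _ fun i _ => Subfield.sum_mem _ fun j _ => ?_
  rw [show c⁻¹ * (u i * (c * B' i j * v j)) = u i * (B' i j * v j) by field_simp]
  exact mul_mem (hu i) (mul_mem (hB' i j) (hv j))

omit [Fintype F] in
theorem sp_isotropic_bound {W : Submodule F (ι → F)} (hW : IsTotallySingularFor fs W) : Module.finrank F W ≤ m := by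
  let L : W →ₗ[F] W.dualAnnihilator :=
    { toFun := fun w => ⟨{ toFun := fun u => fs u (w : ι → F)
                           map_add' := fun a b => mf_add_left a b _
                           map_smul' := fun c a => mf_smul_left c a _ },
        (Submodule.mem_dualAnnihilator _).mpr fun u hu => hW u hu _ w.2⟩
      map_add' := fun a b => Subtype.ext (LinearMap.ext fun u => mf_add_right u _ _)
      map_smul' := fun c a => Subtype.ext (LinearMap.ext fun u => by
        show fs u (c • (a : ι → F)) = c * fs u (a : ι → F)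
        rw [mf_smul_right]; rfl) }
  have hL : Function.Injective L := by
    intro a b hab
    refine Subtype.ext (ext_right spData fun u => ?_)
    exact congrFun (congrArg DFunLike.coe (congrArg Subtype.val hab)) u
  have h1 := LinearMap.finrank_le_finrank_of_injective hL
  have h2 := Subspace.finrank_add_finrank_dualAnnihilator_eq W
  rw [Module.finrank_fintype_fun_eq_card, card_sp_idx] at h2
  omega

/-- Commuting involutive isometries span an algebra of dimension at most half the dimension. -/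
theorem sp_involutions_bound {S : Set (Matrix ι ι F)} (h2 : (2 : F) ≠ 0) (hcomm : ∀ a ∈ S, ∀ b ∈ S, a * b = b * a)
    (hinv : ∀ a ∈ S, a * a = 1) (hiso : ∀ a ∈ S, ∀ u v, fs (a *ᵥ u) (a *ᵥ v) = fs u v) :
    Module.finrank F (Algebra.adjoin F S) ≤ m := by
  classical
  set A := Algebra.adjoin F S
  have hAc : ∀ x ∈ A, ∀ y ∈ A, x * y = y * x := by
    intro x hx y hy
    refine (Algebra.commute_of_mem_adjoin_of_forall_mem_commute hy ?_ : Commute x y).eq
    intro b hb
    refine (Algebra.commute_of_mem_adjoin_of_forall_mem_commute hx ?_).symm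
    intro a ha
    exact hcomm b hb a ha
  have hsa : ∀ x ∈ A, ∀ u v, fs (x *ᵥ u) v = fs u (x *ᵥ v) := by
    intro x hx
    induction hx using Algebra.adjoin_induction with
    | mem a ha =>
      intro u v
      conv_lhs => rw [← Matrix.one_mulVec v, ← hinv a ha, ← Matrix.mulVec_mulVec]
      exact hiso a ha _ _
    | algebraMap c =>
      intro u v
      simp only [Algebra.algebraMap_eq_smul_one, Matrix.smul_mulVec, Matrix.one_mulVec, mf_smul_left, mf_smul_right,
        RingEquiv.refl_apply]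
    | add x y _ _ hx hy => intro u v; rw [Matrix.add_mulVec, Matrix.add_mulVec, mf_add_left, mf_add_right, hx, hy]
    | mul x y hx' hy' hx hy =>
      intro u v
      rw [← Matrix.mulVec_mulVec, hx, hy, Matrix.mulVec_mulVec, hAc x hx' y hy']
  obtain ⟨p, hp⟩ := CharP.exists F
  haveI := hp
  haveI : Fact p.Prime := ⟨CharP.char_is_prime F p⟩
  obtain ⟨s, -, hqs⟩ := FiniteField.card F p
  set q := Fintype.card F
  have hqodd : Odd q := by
    by_contra hq
    exact h2 (char_two_of_even hq)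
  rcases Nat.eq_zero_or_pos m with hm0 | hm0
  · subst hm0
    exact (Module.finrank_zero_of_subsingleton).le
  haveI : Nonempty ι := ⟨Sum.inl ⟨0, hm0⟩⟩
  haveI : CharP (Matrix ι ι F) p := charP_of_injective_algebraMap (algebraMap F (Matrix ι ι F)).injective p
  have hpow : ∀ x ∈ A, x ^ q = x := by
    intro x hx
    induction hx using Algebra.adjoin_induction with
    | mem a ha =>
      obtain ⟨k, hk⟩ := hqodd
      rw [hk, pow_succ, pow_mul, pow_two, hinv a ha, one_pow, one_mul]
    | algebraMap c => rw [← map_pow, FiniteField.pow_card]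
    | add x y hx' hy' hx hy => rw [show q = p ^ (s : ℕ) from hqs, add_pow_char_pow_of_commute _ _ (hAc x hx' y hy'),
        ← hqs, hx, hy]
    | mul x y hx' hy' hx hy => rw [Commute.mul_pow (hAc x hx' y hy'), hx, hy]
  let ev : (ι → F) → (A →ₗ[F] (ι → F)) := fun v =>
    { toFun := fun x => (x : Matrix ι ι F) *ᵥ v
      map_add' := fun x y => by simp [Matrix.add_mulVec]
      map_smul' := fun c x => by simp [Matrix.smul_mulVec] }
  obtain ⟨_, ⟨v, rfl⟩, hmin⟩ := exists_minimal_of_wellFoundedLT (fun N => ∃ v, N = LinearMap.ker (ev v))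
    ⟨_, 0, rfl⟩
  have hker : LinearMap.ker (ev v) = ⊥ := by
    refine eq_bot_iff.mpr fun b hb => (Submodule.mem_bot F).mpr ?_
    by_contra hb0
    have hbv : (b : Matrix ι ι F) *ᵥ v = 0 := hb
    have hq2 : 2 ≤ q := Fintype.one_lt_card
    set e : Matrix ι ι F := (b : Matrix ι ι F) ^ (q - 1)
    have heA : e ∈ A := pow_mem b.2 _
    have hbe : (b : Matrix ι ι F) * e = b := by
      rw [← pow_succ', Nat.sub_add_cancel (by omega)]; exact hpow _ b.2
    have hee : e * e = e := by
      rw [show e = (b : Matrix ι ι F) ^ (q - 2) * b by rw [← pow_succ, show q - 2 + 1 = q - 1 by omega],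
        mul_assoc, show (b : Matrix ι ι F) * ((b : Matrix ι ι F) ^ (q - 2) * b) = b by
          rw [← pow_succ, show q - 2 + 1 = q - 1 by omega]; exact hbe]
    have hev : e *ᵥ v = 0 := by
      rw [show e = (b : Matrix ι ι F) ^ (q - 2) * b by rw [← pow_succ, show q - 2 + 1 = q - 1 by omega],
        ← Matrix.mulVec_mulVec, hbv, Matrix.mulVec_zero]
    obtain ⟨w, hw⟩ : ∃ w, e *ᵥ w ≠ 0 := by
      by_contra h
      push_neg at h
      have he0 : e = 0 := Matrix.toLin'.injective (LinearMap.ext fun w => by simp [h w])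
      exact hb0 (Subtype.ext (by rw [← hbe, he0, mul_zero]; rfl))
    have hle : LinearMap.ker (ev (v + e *ᵥ w)) ≤ LinearMap.ker (ev v) := by
      intro x hx
      have hxv : (x : Matrix ι ι F) *ᵥ (v + e *ᵥ w) = 0 := hx
      have h1 := congrArg ((1 - e) *ᵥ ·) hxv
      simp only [Matrix.mulVec_zero] at h1
      show (x : Matrix ι ι F) *ᵥ v = 0
      rw [Matrix.mulVec_mulVec, sub_mul, one_mul, hAc e heA x x.2, Matrix.sub_mulVec, ← Matrix.mulVec_mulVec,
        Matrix.mulVec_add, Matrix.mulVec_add, hev, zero_add, Matrix.mulVec_mulVec w e e, hee, add_sub_cancel_right] at h1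
      exact h1
    have heq := le_antisymm hle (hmin ⟨_, rfl⟩ hle)
    have hein : (⟨e, heA⟩ : A) ∈ LinearMap.ker (ev (v + e *ᵥ w)) := by rw [heq]; exact hev
    have : e *ᵥ (v + e *ᵥ w) = 0 := hein
    rw [Matrix.mulVec_add, hev, zero_add, Matrix.mulVec_mulVec, hee] at this
    exact hw this
  rw [← LinearMap.finrank_range_of_inj (LinearMap.ker_eq_bot.mp hker)]
  refine sp_isotropic_bound ?_
  rintro _ ⟨x, rfl⟩ _ ⟨y, rfl⟩
  show fs ((x : Matrix ι ι F) *ᵥ v) ((y : Matrix ι ι F) *ᵥ v) = 0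
  rw [hsa x x.2, Matrix.mulVec_mulVec]
  set z := (x : Matrix ι ι F) * (y : Matrix ι ι F)
  have e := hsa z (mul_mem x.2 y.2) v v
  rw [sp_skew] at e
  have : (2 : F) * fs v (z *ᵥ v) = 0 := by linear_combination -e
  exact (mul_eq_zero.mp this).resolve_left h2

/-- The abelian case: the normaliser of a group of symplectic type. -/
theorem sp_abelian {H M : Subgroup (GL ι F)} (hI : H ≤ Cfsg.spGL m F) (hm : 0 < m) (hZM : scalars ι F ≤ M)
    (hMK : M ≤ H ⊔ scalars ι F) (hMn : NormalisedBy (H ⊔ scalars ι F) M)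
    (hfull : ∀ N, N ≤ H ⊔ scalars ι F → NormalisedBy (H ⊔ scalars ι F) N → ¬ N ≤ scalars ι F → Full N)
    (hMnZ : ¬ M ≤ scalars ι F) (hab : ⁅M, M⁆ ≤ scalars ι F) : GoodSp H := by
  classical
  set Z := scalars ι F
  set K := H ⊔ Z
  haveI : Nonempty ι := ⟨Sum.inl ⟨0, hm⟩⟩
  haveI : Nontrivial ι := ⟨Sum.inl ⟨0, hm⟩, Sum.inr ⟨0, hm⟩, by simp⟩
  set I := Cfsg.spGL m F
  set R := M ⊓ I with hRdef
  have hdec : ∀ g ∈ K, ∃ a ∈ H, ∃ z ∈ Z, g = a * z := fun g hg => by
    rw [← SetLike.mem_coe, Subgroup.mul_normal] at hg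
    obtain ⟨a, ha, z, hz, rfl⟩ := hg
    exact ⟨a, ha, z, hz, rfl⟩
  have hRn : NormalisedBy K R := by
    intro g hg x hx
    refine ⟨hMn g hg x hx.1, ?_⟩
    obtain ⟨a, ha, z, hz, rfl⟩ := hdec g hg
    rw [show a * z * x * (a * z)⁻¹ = a * (z * x * z⁻¹) * a⁻¹ by group, scalars_comm hz x, mul_inv_cancel_right]
    exact I.mul_mem (I.mul_mem (hI ha) hx.2) (I.inv_mem (hI ha))
  have hRM : ∀ x ∈ M, ∃ a ∈ R, ∃ z ∈ Z, x = a * z := fun x hx => by
    obtain ⟨a, ha, z, hz, rfl⟩ := hdec x (hMK hx)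
    refine ⟨a, ⟨?_, hI ha⟩, z, hz, rfl⟩
    simpa using mul_mem hx (inv_mem (hZM hz))
  have hRK : R ≤ K := inf_le_left.trans hMK
  have hRnZ : ¬ R ≤ Z := fun h => hMnZ fun x hx => by
    obtain ⟨a, ha, z, hz, rfl⟩ := hRM x hx
    exact mul_mem (h ha) hz
  have hR : Full R := hfull R hRK hRn hRnZ
  have htw : ∀ a ∈ R, ∀ b ∈ R, ⁅a, b⁆ ∈ Z := fun a ha b hb => hab (Subgroup.commutator_mem_commutator ha.1 hb.1)
  obtain ⟨u₀, v₀, huv⟩ : ∃ u v, fs u v ≠ 0 := by
    obtain ⟨⟨x, hx⟩, -⟩ := nondeg_matForm (σ := RingEquiv.refl F) (spData (F := F) (m := m)).unit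
      (Pi.single (Sum.inl ⟨0, hm⟩) 1) (by simp)
    exact ⟨x, _, hx⟩
  have hsc : ∀ z ∈ I, ∀ c : Fˣ, (z : Matrix ι ι F) = (c : F) • 1 → (c : F) * c = 1 := by
    intro z hz c hc
    have := sp_iso hz u₀ v₀
    rw [hc, Matrix.smul_mulVec, Matrix.smul_mulVec, Matrix.one_mulVec, Matrix.one_mulVec, mf_smul_left, mf_smul_right,
      ← mul_assoc] at this
    exact mul_right_cancel₀ huv (by rw [one_mul]; exact this)
  have hcsq : ∀ a ∈ R, ∀ b ∈ R, ∃ c : F, c * c = 1 ∧
      (a : Matrix ι ι F) * (b : Matrix ι ι F) = c • ((b : Matrix ι ι F) * (a : Matrix ι ι F)) := by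
    intro a ha b hb
    obtain ⟨c, hc⟩ := (mem_scalars_iff _).mp (htw a ha b hb)
    refine ⟨c, hsc _ (I.mul_mem (I.mul_mem (I.mul_mem ha.2 hb.2) (I.inv_mem ha.2)) (I.inv_mem hb.2)) c hc, ?_⟩
    rw [← Units.val_mul, ← Units.val_mul, show a * b = ⁅a, b⁆ * (b * a) by rw [commutatorElement_def]; group,
      Units.val_mul, hc, Matrix.smul_mul, one_mul]
  have h2 : (2 : F) ≠ 0 := by
    intro h20
    refine exists_two_commute_false hR fun a ha b hb => ?_
    obtain ⟨c, hc, e⟩ := hcsq a ha b hb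
    have hc1 : c = 1 := by
      rcases mul_self_eq_one_iff.mp hc with h | h
      · exact h
      · rw [h]; linear_combination (-1 : F) * h20
    rw [hc1, one_smul, ← Units.val_mul, ← Units.val_mul] at e
    exact Units.ext e
  have hsq : ∀ x ∈ R, x * x ∈ Z := by
    intro x hx
    obtain ⟨c, hc⟩ := hR.comm_scalar (M := ((x * x : GL ι F) : Matrix ι ι F)) fun y hy => by
      obtain ⟨c, hcc, e⟩ := hcsq x hx y hy
      rw [Units.val_mul, mul_assoc, e, Matrix.mul_smul, ← mul_assoc, e, Matrix.smul_mul, smul_smul, hcc, one_smul, mul_assoc]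
    exact (mem_scalars_iff _).mpr ⟨Units.mk0 c fun h0 => (x * x).ne_zero (by rw [hc, h0, zero_smul]), hc⟩
  let ε : GL ι F := Units.map (algebraMap F (Matrix ι ι F)).toMonoidHom (-1)
  have hεm : (ε : Matrix ι ι F) = (-1 : F) • 1 := Algebra.algebraMap_eq_smul_one _
  have hεZ : ε ∈ Z := (mem_scalars_iff _).mpr ⟨-1, by rw [hεm]; rfl⟩
  have hεR : ε ∈ R := ⟨hZM hεZ, fun u v => by
    show fs ((ε : Matrix ι ι F) *ᵥ u) ((ε : Matrix ι ι F) *ᵥ v) = fs u v
    rw [hεm, Matrix.smul_mulVec, Matrix.smul_mulVec, Matrix.one_mulVec, Matrix.one_mulVec, mf_smul_left, mf_smul_right,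
      RingEquiv.refl_apply]
    ring⟩
  have hε1 : ε ≠ 1 := fun h => h2 (by
    have e := congrArg (fun z : GL ι F => (z : Matrix ι ι F)) h
    simp only [hεm, Units.val_one] at e
    have := congrArg (fun X : Matrix ι ι F => X (Sum.inl ⟨0, hm⟩) (Sum.inl ⟨0, hm⟩)) e
    simp at this
    linear_combination -this)
  have hpm : ∀ z ∈ I, z ∈ Z → z = 1 ∨ z = ε := by
    intro z hz hzZ
    obtain ⟨c, hc⟩ := (mem_scalars_iff _).mp hzZ
    rcases mul_self_eq_one_iff.mp (hsc z hz c hc) with h | h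
    · exact Or.inl (Units.ext (by rw [hc, h, one_smul]; rfl))
    · exact Or.inr (Units.ext (by rw [hc, h, hεm]))
  have h4 : ∀ x ∈ R, x ^ 4 = 1 := by
    intro x hx
    have h := hpm (x * x) (I.mul_mem hx.2 hx.2) (hsq x hx)
    rw [show x ^ 4 = (x * x) * (x * x) by simp [pow_succ, mul_assoc]]
    rcases h with h | h <;> rw [h]
    · rw [one_mul]
    · exact Units.ext (by rw [Units.val_mul, hεm, Matrix.smul_mul, one_mul, smul_smul]; simp)
  have hcenter : ∀ x : R, x ∈ Subgroup.center R ↔ x = 1 ∨ x = ⟨ε, hεR⟩ := by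
    intro x
    rw [center_iff hR]
    constructor
    · intro hx
      rcases hpm _ x.2.2 hx with h | h
      · exact Or.inl (Subtype.ext h)
      · exact Or.inr (Subtype.ext h)
    · rintro (rfl | rfl)
      · exact one_mem Z
      · exact hεZ
  have hcard2 : Nat.card (Subgroup.center R) = 2 := by
    refine Nat.card_eq_two_iff.mpr ⟨1, ⟨⟨ε, hεR⟩, (hcenter _).mpr (Or.inr rfl)⟩, fun h => hε1 ?_, ?_⟩
    · exact (congrArg (fun z : Subgroup.center R => ((z : R) : GL ι F)) h).symm
    · refine Set.eq_univ_of_forall fun z => ?_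
      rcases (hcenter z.1).mp z.2 with h | h
      · exact Or.inl (Subtype.ext h)
      · exact Or.inr (Subtype.ext h)
  obtain ⟨w, hwli, hQ, hrep⟩ := full_basis hR htw
  haveI : Fact (Nat.Prime 2) := ⟨Nat.prime_two⟩
  have hpg : IsPGroup 2 R := fun x => ⟨2, Subtype.ext (by simpa using h4 x x.2)⟩
  obtain ⟨j, hj⟩ := IsPGroup.iff_card.mp hpg
  have hcardR : Nat.card R = Fintype.card ι * Fintype.card ι * 2 := by
    rw [Subgroup.card_eq_card_quotient_mul_card_subgroup (Subgroup.center R), hQ, hcard2]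
  obtain ⟨k, -, hk⟩ := (Nat.dvd_prime_pow Nat.prime_two).mp (show Fintype.card ι ∣ 2 ^ j by
    rw [← hj, hcardR]; exact Dvd.dvd.mul_right (dvd_mul_right _ _) 2)
  have hRk : Nat.card R = 2 ^ (1 + 2 * k) := by rw [hcardR, hk]; ring
  have hnorm : ∀ g ∈ H, ∀ x ∈ R, g * x * g⁻¹ ∈ R := fun g hg => hRn g (Subgroup.mem_sup_left hg)
  by_cases hp : (Fintype.card F).Prime
  swap
  · have hbot : (⊥ : Subfield F) ≠ ⊤ := by
      intro e'
      obtain ⟨p, hp'⟩ := CharP.exists F
      haveI := hp'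
      haveI : Fact p.Prime := ⟨CharP.char_is_prime F p⟩
      have hbij : Function.Bijective (ZMod.castHom (dvd_refl p) F) := by
        refine ⟨RingHom.injective _, fun x => ?_⟩
        have hx : x ∈ (⊥ : Subfield F) := e' ▸ trivial
        exact (bot_le : (⊥ : Subfield F) ≤ (ZMod.castHom (dvd_refl p) F).fieldRange) hx
      exact hp (by rw [← Fintype.card_of_bijective hbij, ZMod.card]; exact Fact.out)
    haveI : Fintype (R ⧸ Subgroup.center R) := Fintype.ofFinite _
    refine sp_subfield hI hm hR inf_le_right hnorm hbot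
      (realisable_of_small_span hR w (by rw [← Nat.card_eq_fintype_card, hQ]) ?_)
    rintro _ ⟨x, hx, rfl⟩
    obtain ⟨u, ⟨z, hz, hzu⟩, e⟩ := hrep ⟨x, hx⟩
    show (x : Matrix ι ι F) ∈ Submodule.span _ _
    rw [show (x : Matrix ι ι F) = _ from e]
    have hu : (u : F) ∈ (⊥ : Subfield F) := by
      rcases mul_self_eq_one_iff.mp (hsc _ z.2.2 u hzu) with h | h <;> rw [h]
      · exact one_mem _
      · exact neg_mem (one_mem _)
    exact Submodule.smul_mem _ (⟨u, hu⟩ : (⊥ : Subfield F)) (Submodule.subset_span ⟨_, rfl⟩)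
  have hst : IsSymplecticTypeGroup 2 R := by
    refine ⟨Nat.prime_two, hpg, fun A hA hAc => ?_, ?_⟩
    · let A' : Subgroup (GL ι F) := A.map R.subtype
      have hA'n : NormalisedBy K A' := by
        intro g hg y hy
        obtain ⟨a, ha, rfl⟩ := Subgroup.mem_map.mp hy
        have hg' : ∀ b ∈ R, g⁻¹ * b * g ∈ R := fun b hb => by simpa using hRn g⁻¹ (inv_mem hg) b hb
        let φ : R ≃* R :=
          { toFun := fun b => ⟨g * b * g⁻¹, hRn g hg b b.2⟩
            invFun := fun b => ⟨g⁻¹ * b * g, hg' b b.2⟩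
            left_inv := fun b => Subtype.ext (by show g⁻¹ * (g * _ * g⁻¹) * g = _; group)
            right_inv := fun b => Subtype.ext (by show g * (g⁻¹ * _ * g) * g⁻¹ = _; group)
            map_mul' := fun b b' => Subtype.ext (by
              show g * (b * b' : GL ι F) * g⁻¹ = g * (b : GL ι F) * g⁻¹ * (g * b' * g⁻¹); group) }
        refine Subgroup.mem_map.mpr ⟨φ a, ?_, rfl⟩
        have := hA.fixed φ
        rw [← this] at ha
        exact ha
      have hA'Z : A' ≤ Z := by
        by_contra h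
        refine exists_two_commute_false (hfull A' ((Subgroup.map_subtype_le A).trans hRK) hA'n h) ?_
        intro a ha b hb
        obtain ⟨a', ha', rfl⟩ := Subgroup.mem_map.mp ha
        obtain ⟨b', hb', rfl⟩ := Subgroup.mem_map.mp hb
        exact congrArg (fun w : A => ((w : R) : GL ι F)) (hAc.is_comm.comm ⟨a', ha'⟩ ⟨b', hb'⟩)
      have hAC : A ≤ Subgroup.center R := fun a ha => (center_iff hR a).mpr (hA'Z ⟨a, ha, rfl⟩)
      haveI : IsCyclic (Subgroup.center R) := isCyclic_of_prime_card hcard2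
      exact isCyclic_of_injective (Subgroup.inclusion hAC) (Subgroup.inclusion_injective hAC)
    · have hd := Monoid.exponent_dvd_of_forall_pow_eq_one (G := R) (n := 4) fun x => Subtype.ext (by simpa using h4 x x.2)
      rw [show 2 * Nat.gcd 2 2 = 4 from rfl]
      obtain ⟨i, hi, he⟩ := (Nat.dvd_prime_pow Nat.prime_two (m := 2)).mp (by simpa using hd)
      rcases (show i ≤ 1 ∨ i = 2 by omega) with hi1 | rfl
      · exfalso
        refine exists_two_commute_false hR fun a ha b hb => ?_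
        have hsq1 : ∀ w : R, w * w = 1 := fun w => by
          have := Monoid.pow_exponent_eq_one w
          have h2' : w ^ 2 = 1 := by
            obtain ⟨t, ht⟩ := Nat.pow_dvd_pow 2 hi1
            rw [pow_one] at ht
            rw [ht, pow_mul, ← he, this, one_pow]
          rwa [pow_two] at h2'
        have hinv : ∀ w : R, w⁻¹ = w := fun w => inv_eq_of_mul_eq_one_right (hsq1 w)
        have hcm : (⟨a, ha⟩ : R) * ⟨b, hb⟩ = (⟨b, hb⟩ : R) * ⟨a, ha⟩ := by
          rw [← hinv ((⟨a, ha⟩ : R) * ⟨b, hb⟩), _root_.mul_inv_rev, hinv, hinv]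
        exact congrArg Subtype.val hcm
      · simpa using he
  have hminus : IsOfMinusType k R := by
    intro A hAc hA2
    let S : Set (Matrix ι ι F) := (fun a : R => ((a : GL ι F) : Matrix ι ι F)) '' (A : Set R)
    have hb := sp_involutions_bound (S := S) h2
      (by rintro _ ⟨a, ha, rfl⟩ _ ⟨b, hb, rfl⟩
          rw [← Units.val_mul, ← Units.val_mul]
          exact congrArg Units.val (congrArg (fun w : A => ((w : R) : GL ι F)) (hAc.is_comm.comm ⟨a, ha⟩ ⟨b, hb⟩)))
      (by rintro _ ⟨a, ha, rfl⟩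
          rw [← Units.val_mul, ← Units.val_one]
          exact congrArg Units.val (congrArg Subtype.val (hA2 a ha)))
      (by rintro _ ⟨a, -, rfl⟩ u v; exact sp_iso a.2.2 u v)
    let π : A →* R ⧸ Subgroup.center R := (QuotientGroup.mk' _).comp A.subtype
    have hker : Nat.card π.ker ≤ 2 := by
      rw [← hcard2]
      refine Nat.card_le_card_of_injective (fun a => ⟨((a : A) : R), (QuotientGroup.eq_one_iff _).mp a.2⟩) fun a b e => ?_
      exact Subtype.ext (Subtype.ext (congrArg (fun z : Subgroup.center R => (z : R)) e))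
    have hrange : Nat.card π.range ≤ m := by
      haveI : Fintype π.range := Fintype.ofFinite _
      rw [Nat.card_eq_fintype_card]
      let B := Algebra.adjoin F S
      have hwB : ∀ q : π.range, w q ∈ B := by
        rintro ⟨_, a, rfl⟩
        obtain ⟨u, -, e⟩ := hrep (a : R)
        show w (QuotientGroup.mk (a : R)) ∈ B
        rw [show w (QuotientGroup.mk (a : R)) = (u : F)⁻¹ • (((a : R) : GL ι F) : Matrix ι ι F) by
          rw [e, smul_smul, inv_mul_cancel₀ u.ne_zero, one_smul]]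
        exact B.smul_mem (Algebra.subset_adjoin (R := F) ⟨(a : R), a.2, rfl⟩) _
      refine le_trans ?_ hb
      refine LinearIndependent.fintype_card_le_finrank (R := F) (b := fun q : π.range => (⟨w q, hwB q⟩ : B)) ?_
      refine LinearIndependent.of_comp B.val.toLinearMap ?_
      exact hwli.comp _ Subtype.val_injective
    have h1 : Nat.card A = Nat.card π.ker * Nat.card π.range := by
      rw [Subgroup.card_eq_card_quotient_mul_card_subgroup π.ker, mul_comm,
        Nat.card_congr (QuotientGroup.quotientKerEquivRange π).toEquiv]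
    have h2k : 2 ^ k = 2 * m := by rw [← hk, card_sp_idx]
    have := Nat.mul_le_mul hker hrange
    rw [pow_succ, h2k]
    omega
  obtain ⟨p, hpF⟩ : ∃ p, Fintype.card F = p := ⟨_, rfl⟩
  refine ⟨subgroupNormalizer R ⊓ I, symp_partial_of ?_, le_inf (fun g hg => ?_) hI⟩
  · iterate 5 right
    left
    refine ⟨R, Fintype.card F, k, hst, hR.absIrred, fun x hx => ⟨1, fun u v => ?_⟩, hp, ?_, rfl, hRk, hcard2, hminus, rfl⟩
    · rw [symp_eq, sp_iso hx.2, Units.val_one, one_mul]
    · by_contra hq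
      exact h2 (char_two_of_even hq)
  · refine Subgroup.mem_normalizer_iff.mpr fun x => ⟨fun hx => hnorm g hg x hx, fun hx => ?_⟩
    have := hnorm g⁻¹ (inv_mem hg) _ hx
    simpa [mul_assoc] using this

end Cfsg.Agent.GeomClasses.AschRel
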