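import Cfsg.Agent.GeomClasses.Aschbacher.Rel.SpTensor
import Cfsg.Agent.GeomClasses.Aschbacher.Rel.SpAbelian
import Cfsg.Agent.GeomClasses.Aschbacher.Rel.NonabSplit
import Cfsg.Agent.GeomClasses.Aschbacher.Rel.SmallFactor
import Cfsg.Agent.Core.BurnsidePQ

/-! # Main argument for symplectic groups -/

set_option autoImplicit false
set_option maxHeartbeats 400000

namespace Cfsg.Agent.GeomClasses.AschRel

open Matrix Cfsg.Geo
open scoped commutatorElement Kronecker
open Cfsg.Agent.GeomClasses.Asch (Irr Normalises conjHom conjHom_apply phi_injective tup)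

variable {F : Type*} [Field F] [Fintype F] {m : ℕ}

local notation "ι" => (Fin m ⊕ Fin m)
local notation "Bs" => (Matrix.J (Fin m) F)
local notation "fs" => matForm (RingEquiv.refl F) (Matrix.J (Fin m) F)

omit [Fintype F] in
theorem gramMatrix_mf {d : ℕ} (G : Matrix (Fin d) (Fin d) F) :
    gramMatrix (matForm (RingEquiv.refl F) G) = G := by
  funext a b; exact matForm_single _ G a b

omit [Fintype F] in
theorem symmetric_mf {d : ℕ} {G : Matrix (Fin d) (Fin d) F} (hG : IsUnit G.det)
    (hs : ∀ i j, G i j = G j i) : IsSymmetricForm (matForm (RingEquiv.refl F) G) := by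
  refine ⟨⟨fun x y v => mf_add_left x y v, fun c x v => mf_smul_left c x v, fun v x y => mf_add_right v x y,
    fun c v x => by rw [mf_smul_right]; rfl⟩, fun u v => ?_, nondeg_matForm hG⟩
  show u ⬝ᵥ (G *ᵥ v) = v ⬝ᵥ (G *ᵥ u)
  rw [Matrix.dotProduct_mulVec u, dotProduct_comm, ← Matrix.mulVec_transpose,
    show Gᵀ = G from Matrix.ext fun i j => hs j i]

omit [Fintype F] in
theorem symplectic_mf {d : ℕ} (h2 : (2 : F) ≠ 0) {G : Matrix (Fin d) (Fin d) F} (hG : IsUnit G.det)
    (hs : ∀ i j, G i j = -G j i) : IsSymplecticForm (matForm (RingEquiv.refl F) G) := by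
  have hskew : ∀ u v, matForm (RingEquiv.refl F) G u v = -matForm (RingEquiv.refl F) G v u := fun u v => by
    show u ⬝ᵥ (G *ᵥ v) = -(v ⬝ᵥ (G *ᵥ u))
    rw [Matrix.dotProduct_mulVec u, dotProduct_comm, ← Matrix.mulVec_transpose,
      show Gᵀ = -G from Matrix.ext fun i j => by rw [Matrix.transpose_apply, Matrix.neg_apply, hs], Matrix.neg_mulVec,
      dotProduct_neg]
  refine ⟨⟨fun x y v => mf_add_left x y v, fun c x v => mf_smul_left c x v, fun v x y => mf_add_right v x y,
    fun c v x => by rw [mf_smul_right]; rfl⟩, hskew, fun v => ?_, nondeg_matForm hG⟩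
  have h := hskew v v
  have : (2 : F) * matForm (RingEquiv.refl F) G v v = 0 := by linear_combination h
  exact (mul_eq_zero.mp this).resolve_left h2

omit [Fintype F] in
theorem exists_entry {d : ℕ} (hd : 0 < d) {G : Matrix (Fin d) (Fin d) F} (hG : IsUnit G.det) : ∃ i j, G i j ≠ 0 := by
  by_contra h
  push_neg at h
  haveI : Nonempty (Fin d) := ⟨⟨0, hd⟩⟩
  exact hG.ne_zero (by rw [show G = 0 from Matrix.ext h, Matrix.det_zero])

/-- A pair of normalised tensor factors. -/
theorem sp_tensor {H : Subgroup (GL ι F)} (hI : H ≤ Cfsg.spGL m F) (hm : 0 < m)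
    (hirr : Irr ((fun g : (Module.End F (ι → F))ˣ => (g : Module.End F (ι → F))) ''
      (gu '' ((H ⊔ scalars ι F : Subgroup _) : Set _))))
    {d e : ℕ} (hd : 2 ≤ d) (he : 2 ≤ e) (φA : Matrix (Fin d) (Fin d) F →ₐ[F] Module.End F (ι → F))
    (φC : Matrix (Fin e) (Fin e) F →ₐ[F] Module.End F (ι → F)) (hAC : ∀ X Y, Commute (φA X) (φC Y))
    (hirr2 : Irr (Set.range φA ∪ Set.range φC))
    (hA : ∀ g ∈ H ⊔ scalars ι F, ∀ X, (gu g : Module.End F (ι → F)) * φA X * ((gu g)⁻¹).val ∈ Set.range φA)
    (hC : ∀ g ∈ H ⊔ scalars ι F, ∀ X, (gu g : Module.End F (ι → F)) * φC X * ((gu g)⁻¹).val ∈ Set.range φC)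
    (GA : GL (Fin d) F) (GC : GL (Fin e) F) {νA νC : F}
    (hGA : ∀ X, st (RingEquiv.refl F) Bs (φA X) = φA (stG (RingEquiv.refl F) (GA : Matrix (Fin d) (Fin d) F) X))
    (hGC : ∀ X, st (RingEquiv.refl F) Bs (φC X) = φC (stG (RingEquiv.refl F) (GC : Matrix (Fin e) (Fin e) F) X))
    (hνA : ∀ i j, (GA : Matrix (Fin d) (Fin d) F) j i = νA * (GA : Matrix (Fin d) (Fin d) F) i j)
    (hνC : ∀ i j, (GC : Matrix (Fin e) (Fin e) F) j i = νC * (GC : Matrix (Fin e) (Fin e) F) i j)
    (hνA1 : νA = -1) : GoodSp H := by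
  classical
  haveI : Nonempty ι := ⟨Sum.inl ⟨0, hm⟩⟩
  set K := H ⊔ scalars ι F
  set A := (GA : Matrix (Fin d) (Fin d) F)
  set C := (GC : Matrix (Fin e) (Fin e) F)
  have uA : IsUnit A.det := (Matrix.isUnit_iff_isUnit_det _).mp GA.isUnit
  have uC : IsUnit C.det := (Matrix.isUnit_iff_isUnit_det _).mp GC.isUnit
  obtain ⟨b, c, hc, hf, hcoord⟩ := pair_frame spData (K := K) (by omega) (by omega) φA φC hAC hirr2 hA hC GA GC hGA hGC
  obtain ⟨i₀, j₀, hij⟩ := exists_entry (by omega : 0 < d) uA
  obtain ⟨k₀, l₀, hkl⟩ := exists_entry (by omega : 0 < e) uC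
  have hνC1 : νC = 1 := by
    have h1 := sp_skew (b (i₀, k₀)) (b (j₀, l₀))
    rw [hf, hf] at h1
    replace h1 : c * (A j₀ i₀ * C l₀ k₀) = -(c * (A i₀ j₀ * C k₀ l₀)) := h1
    rw [hνA i₀ j₀, hνC k₀ l₀, hνA1] at h1
    have : (νC - 1) * (c * (A i₀ j₀ * C k₀ l₀)) = 0 := by linear_combination -h1
    exact sub_eq_zero.mp ((mul_eq_zero.mp this).resolve_right (mul_ne_zero hc (mul_ne_zero hij hkl)))
  have hAskew : ∀ i j, A i j = -A j i := fun i j => by rw [hνA i j, hνA1]; ring
  have hCsymm : ∀ i j, C i j = C j i := fun i j => by rw [hνC i j, hνC1, one_mul]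
  by_cases hq : Odd (Fintype.card F)
  · have h2 := two_ne_of_odd hq
    by_cases he3 : 3 ≤ e
    · obtain ⟨ee⟩ := finEquiv b
      refine ⟨tensorProductSubgroup d e ee (frameGL b ee) ⊓ Cfsg.spGL m F, ?_,
        le_inf (le_conj_reindex b ee fun g hg => ?_) hI⟩
      · iterate 3 right
        left
        refine ⟨d, e, ee, frameGL b ee, matForm (RingEquiv.refl F) A, matForm (RingEquiv.refl F) C, hq, he3,
          symplectic_mf h2 uA hAskew, symmetric_mf uC hCsymm, ⟨c, hc, fun x y => ?_⟩, rfl⟩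
        rw [symp_eq, frame_form, formOfGram, Finset.mul_sum, gramMatrix_mf, gramMatrix_mf]
        refine Finset.sum_congr rfl fun u _ => ?_
        rw [Finset.mul_sum]
        refine Finset.sum_congr rfl fun v _ => ?_
        rw [hf, Matrix.kroneckerMap_apply]
        show x u * (c * (A u.1 v.1 * C u.2 v.2)) * y v = c * (x u * _ * id (y v))
        simp only [id]; ring
      · obtain ⟨c', a, a', hc', ha⟩ := hcoord g (Subgroup.mem_sup_left hg)
        refine ⟨Units.map (algebraMap F (Matrix (Fin d) (Fin d) F)).toMonoidHom (Units.mk0 c' hc') * a, a', ?_⟩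
        rw [ha, Units.val_mul]
        show _ = (algebraMap F (Matrix (Fin d) (Fin d) F) c' * (a : Matrix (Fin d) (Fin d) F)) ⊗ₖ _
        rw [← Algebra.smul_def, Matrix.smul_kronecker]
    -- a symmetric factor of size two
    obtain rfl : e = 2 := by omega
    let j2 : Matrix (Fin 2) (Fin 2) F := !![0, 1; -1, 0]
    set X₀ := C⁻¹ * j2
    have hst : stG (RingEquiv.refl F) C X₀ = -X₀ := by
      have hCt : Cᵀ = C := Matrix.ext fun i j => hCsymm j i
      have hj : j2ᵀ = -j2 := by ext i j; fin_cases i <;> fin_cases j <;> simp [j2]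
      have hmap : ∀ Z : Matrix (Fin 2) (Fin 2) F, Z.map (RingEquiv.refl F) = Z := fun Z => by ext i j; rfl
      rw [stG, hmap, Matrix.transpose_mul, Matrix.transpose_nonsing_inv, hCt, hj]
      simp only [X₀, Matrix.neg_mul, Matrix.mul_neg, mul_assoc, Matrix.nonsing_inv_mul _ uC, mul_one]
    have huniq : ∀ Z, stG (RingEquiv.refl F) C Z = -Z → ∃ s : F, Z = s • X₀ := by
      intro Z hZ
      set W := C * Z
      have hCt : Cᵀ = C := Matrix.ext fun i j => hCsymm j i
      have hW : Wᵀ = -W := by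
        have hmap : ∀ Z : Matrix (Fin 2) (Fin 2) F, Z.map (RingEquiv.refl F) = Z := fun Z => by ext i j; rfl
        rw [stG, hmap] at hZ
        have := congrArg (C * ·) hZ
        simp only [← mul_assoc, Matrix.mul_nonsing_inv _ uC, one_mul, Matrix.mul_neg] at this
        rw [Matrix.transpose_mul, hCt, this]
      refine ⟨W 0 1, ?_⟩
      have hWj : W = W 0 1 • j2 := by
        have e : ∀ i j, W j i = -W i j := fun i j => congrFun (congrFun hW i) j
        have h00 : W 0 0 = 0 := by
          have h' : (2 : F) * W 0 0 = 0 := by linear_combination e 0 0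
          exact (mul_eq_zero.mp h').resolve_left h2
        have h11 : W 1 1 = 0 := by
          have h' : (2 : F) * W 1 1 = 0 := by linear_combination e 1 1
          exact (mul_eq_zero.mp h').resolve_left h2
        ext i j; fin_cases i <;> fin_cases j <;> simp [j2, h00, h11, e 0 1]
      calc Z = C⁻¹ * W := by rw [show W = C * Z from rfl, ← mul_assoc, Matrix.nonsing_inv_mul _ uC, one_mul]
        _ = _ := by rw [hWj, Matrix.mul_smul]; simp [j2, X₀]
    set J := φC X₀
    set E := Algebra.adjoin F ({J} : Set (Module.End F (ι → F)))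
    have hstJ : st (RingEquiv.refl F) Bs J = -J := by rw [hGC, hst, map_neg]
    have hEcomm : ∀ x ∈ E, ∀ y ∈ E, x * y = y * x := by
      intro x hx y hy
      refine (Algebra.commute_of_mem_adjoin_of_forall_mem_commute hy ?_ : Commute x y).eq
      rintro _ rfl
      refine (Algebra.commute_of_mem_adjoin_of_forall_mem_commute hx ?_).symm
      rintro _ rfl
      exact Commute.refl _
    have hEcl : ∀ x ∈ E, st (RingEquiv.refl F) Bs x ∈ E := by
      intro x hx
      induction hx using Algebra.adjoin_induction with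
      | mem a ha => obtain rfl := ha; rw [hstJ]; exact neg_mem (Algebra.subset_adjoin rfl)
      | algebraMap c => rw [st_algebraMap spData]; exact Subalgebra.algebraMap_mem _ _
      | add x y _ _ hx hy => rw [st_add spData]; exact add_mem hx hy
      | mul x y _ _ hx hy => rw [st_mul spData]; exact mul_mem hy hx
    have hone : ∀ g ∈ K, conjHom (gu g) J ∈ E := by
      intro g hg
      obtain ⟨Z, hZ⟩ : conjHom (gu g) J ∈ Set.range φC := hC g hg X₀
      have hinj : Function.Injective φC := RingHom.injective φC.toRingHom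
      have h1 : st (RingEquiv.refl F) Bs (conjHom (gu g) J) = -conjHom (gu g) J := by
        rw [st_conj spData (sp_sim_sup hI g hg), hstJ, map_neg]
      rw [← hZ, hGC, ← map_neg] at h1
      obtain ⟨s, hs⟩ := huniq Z (hinj h1)
      rw [← hZ, hs, map_smul]
      exact E.smul_mem (Algebra.subset_adjoin rfl) s
    have hmapE : ∀ g ∈ K, ∀ x ∈ E, conjHom (gu g) x ∈ E := by
      intro g hg x hx
      induction hx using Algebra.adjoin_induction with
      | mem a ha => obtain rfl := ha; exact hone g hg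
      | algebraMap c => rw [AlgHom.commutes]; exact Subalgebra.algebraMap_mem _ _
      | add x y _ _ hx hy => rw [map_add]; exact add_mem hx hy
      | mul x y _ _ hx hy => rw [map_mul]; exact mul_mem hx hy
    have hEnorm : ∀ g ∈ K, Normalises E (gu g) := by
      intro g hg X
      refine ⟨fun hX => hmapE g hg X hX, fun hX => ?_⟩
      have := hmapE g⁻¹ (inv_mem hg) _ hX
      rw [conjHom_apply, map_inv, inv_inv] at this
      simpa [mul_assoc] using this
    refine sp_comm hI hm hirr hEcomm hEnorm hEcl ⟨J, Algebra.subset_adjoin rfl, fun s hs => ?_⟩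
    have hinj : Function.Injective φC := RingHom.injective φC.toRingHom
    have h1 := hinj (hs.trans (φC.commutes s).symm)
    have h3 : j2 = s • C := by
      have := congrArg (C * ·) h1
      simp only [X₀, ← mul_assoc, Matrix.mul_nonsing_inv _ uC, one_mul, Algebra.algebraMap_eq_smul_one, Matrix.mul_smul, mul_one] at this
      exact this
    have e01 := congrFun (congrFun h3 0) 1
    have e10 := congrFun (congrFun h3 1) 0
    simp [j2] at e01 e10
    rw [hCsymm 1 0, ← e01] at e10
    exact h2 (by linear_combination -e10)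
  -- even characteristic
  have h20 := char_two_of_even hq
  have hAsymm : ∀ i j, A i j = A j i := fun i j => by rw [hAskew i j]; linear_combination (-A j i) * h20
  by_cases hdC : ∃ i, C i i ≠ 0
  · exact (sp_hyperplane (sp_sim_sup hI) hirr h20 he b hc A GC ⟨i₀, j₀, hij⟩ hCsymm hdC hf hcoord).elim
  push_neg at hdC
  by_cases hdA : ∃ i, A i i ≠ 0
  · refine (sp_hyperplane (sp_sim_sup hI) hirr h20 hd (b.reindex (Equiv.prodComm _ _)) hc C GA ⟨k₀, l₀, hkl⟩ hAsymm hdA
      (fun x y => ?_) fun g hg => ?_).elim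
    · rw [Module.Basis.reindex_apply, Module.Basis.reindex_apply, hf]
      show c * (A x.2 y.2 * C x.1 y.1) = _
      ring
    · obtain ⟨c', a, a', hc', ha⟩ := hcoord g hg
      refine ⟨c', a', a, hc', ?_⟩
      ext x y
      rw [coordGL_apply, Module.Basis.reindex_apply, Module.Basis.repr_reindex_apply, ← coordGL_apply, ha]
      simp only [Matrix.smul_apply, Matrix.kroneckerMap_apply, smul_eq_mul]
      show c' * ((a : Matrix (Fin d) (Fin d) F) x.2 y.2 * (a' : Matrix (Fin e) (Fin e) F) x.1 y.1) = _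
      ring
  push_neg at hdA
  refine sp_pure_quad hI hq b hAsymm hdA hCsymm hdC hf fun g hg y => ?_
  obtain ⟨c', a, a', -, ha⟩ := hcoord g (Subgroup.mem_sup_left hg)
  refine ⟨fun i => c' * (a : Matrix (Fin d) (Fin d) F) i y.1, fun k => (a' : Matrix (Fin e) (Fin e) F) k y.2, fun x => ?_⟩
  rw [ha, Matrix.smul_apply, Matrix.kroneckerMap_apply, smul_eq_mul, mul_assoc]

/-- Permuted factors of equal size. -/
theorem sp_power {H : Subgroup (GL ι F)} (hI : H ≤ Cfsg.spGL m F) (hm : 0 < m) {k t : ℕ} (hk : 2 ≤ k) (ht : 2 ≤ t)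
    (hex : ¬ (Fintype.card F = 3 ∧ k = 2))
    (φ : Fin t → (Matrix (Fin k) (Fin k) F →ₐ[F] Module.End F (ι → F)))
    (hc : Pairwise fun i j => ∀ X Y, Commute (φ i X) (φ j Y)) (hi : Irr (⋃ i, Set.range (φ i)))
    (hperm : ∀ g ∈ H, ∃ σ : Equiv.Perm (Fin t), ∀ i X,
      (gu g : Module.End F (ι → F)) * φ i X * ((gu g)⁻¹).val ∈ Set.range (φ (σ i)))
    (G : GL (Fin k) F) {ν : F}
    (hν : ∀ i j, (G : Matrix (Fin k) (Fin k) F) j i = ν * (G : Matrix (Fin k) (Fin k) F) i j)
    (hG : ∀ i X, st (RingEquiv.refl F) Bs (φ i X) = φ i (stG (RingEquiv.refl F) (G : Matrix (Fin k) (Fin k) F) X)) :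
    GoodSp H := by
  classical
  haveI : Nonempty ι := ⟨Sum.inl ⟨0, hm⟩⟩
  have hd : ∀ _ : Fin t, 0 < k := fun _ => by omega
  set A := (G : Matrix (Fin k) (Fin k) F)
  have uA : IsUnit A.det := (Matrix.isUnit_iff_isUnit_det _).mp G.isUnit
  obtain ⟨b, c, hc0, hb, hBf⟩ := gram_tensor φ hc spData hd hi (fun _ => G) hG
  obtain ⟨i₀, j₀, hij⟩ := exists_entry (by omega : 0 < k) uA
  have hν2 : ν * ν = 1 := by
    have h1 := hν i₀ j₀
    have h2' := hν j₀ i₀
    rw [h1] at h2'
    have : (ν * ν - 1) * A i₀ j₀ = 0 := by linear_combination -h2'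
    exact sub_eq_zero.mp ((mul_eq_zero.mp this).resolve_right hij)
  have hνt : ν ^ t = -1 := by
    have h1 := sp_skew (b fun _ => i₀) (b fun _ => j₀)
    rw [hBf, hBf] at h1
    simp only [Finset.prod_const, Finset.card_univ, Fintype.card_fin] at h1
    change c * A j₀ i₀ ^ t = -(c * A i₀ j₀ ^ t) at h1
    rw [hν, mul_pow] at h1
    have : (ν ^ t + 1) * (c * A i₀ j₀ ^ t) = 0 := by linear_combination h1
    exact eq_neg_of_add_eq_zero_left ((mul_eq_zero.mp this).resolve_right (mul_ne_zero hc0 (pow_ne_zero _ hij)))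
  by_cases hq : Odd (Fintype.card F)
  · have h2 := two_ne_of_odd hq
    have hν1 : ν = -1 := by
      rcases mul_self_eq_one_iff.mp hν2 with h | h
      · rw [h, one_pow] at hνt; exact absurd (by linear_combination hνt) h2
      · exact h
    have hto : Odd t := by
      rcases Nat.even_or_odd t with h | h
      · rw [hν1, h.neg_one_pow] at hνt; exact absurd (by linear_combination hνt) h2
      · exact h
    have ht3 : 3 ≤ t := by obtain ⟨s, hs⟩ := hto; omega
    obtain ⟨e⟩ := finEquiv b
    refine ⟨tensorWreathSubgroup k t e (frameGL b e) ⊓ Cfsg.spGL m F, ?_,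
      le_inf (le_conj_reindex b e fun g hg => coord_mem_wreath φ hc (by omega) (by omega) hi (hperm g hg) b hb) hI⟩
    iterate 4 right
    refine ⟨k, t, e, frameGL b e, matForm (RingEquiv.refl F) A, hq, hto, ht3, hex,
      symplectic_mf h2 uA (fun i j => by rw [hν i j, hν1]; ring), ⟨c, hc0, fun x y => ?_⟩, rfl⟩
    rw [symp_eq, frame_form, gramMatrix_mf, Finset.mul_sum]
    refine Finset.sum_congr rfl fun u _ => ?_
    rw [Finset.mul_sum]
    refine Finset.sum_congr rfl fun v _ => ?_
    rw [hBf]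
    show _ * (y v) = _
    simp only [id]; ring
  have h20 := char_two_of_even hq
  have hν1 : ν = 1 := by
    rcases mul_self_eq_one_iff.mp hν2 with h | h
    · exact h
    · rw [h]; linear_combination (-1 : F) * h20
  have hsymm : ∀ i j, A i j = A j i := fun i j => by rw [hν i j, hν1, one_mul]
  have hdiag : ∀ i, A i i = 0 := by
    intro i
    have h1 := sp_alt (b fun _ => i)
    rw [hBf] at h1
    simp only [Finset.prod_const, Finset.card_univ, Fintype.card_fin] at h1
    exact (pow_eq_zero_iff (by omega)).mp ((mul_eq_zero.mp h1).resolve_left hc0)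
  obtain ⟨t', rfl⟩ : ∃ t', t = t' + 1 := ⟨t - 1, by omega⟩
  let ee : Fin k × (Fin t' → Fin k) ≃ (Fin (t' + 1) → Fin k) := Fin.consEquiv fun _ => Fin k
  let S : (Fin t' → Fin k) → (Fin t' → Fin k) → F := fun a a' => ∏ j, A (a j) (a' j)
  refine sp_pure_quad hI hq (b.reindex ee.symm) (T := A) (S := S) hsymm hdiag
    (fun a a' => Finset.prod_congr rfl fun j _ => hsymm _ _)
    (fun a => Finset.prod_eq_zero (Finset.mem_univ (⟨0, by omega⟩ : Fin t')) (hdiag _)) (c := c) (fun x y => ?_) fun g hg y => ?_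
  · rw [Module.Basis.reindex_apply, Module.Basis.reindex_apply, hBf, Fin.prod_univ_succ]
    rfl
  · obtain ⟨π, c', a, -, ha⟩ := coord_wreath φ hc (by omega) hi (hperm g hg) b hb
    refine ⟨fun i => c' * (a (π.symm 0) : Matrix (Fin k) (Fin k) F) i (ee y (π.symm 0)),
      fun z => ∏ j, (a (π.symm j.succ) : Matrix (Fin k) (Fin k) F) (z j) (ee y (π.symm j.succ)), fun x => ?_⟩
    rw [coordGL_apply, Module.Basis.reindex_apply, Module.Basis.repr_reindex_apply, ← coordGL_apply, Equiv.symm_symm, ha,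
      mul_assoc]
    congr 1
    rw [← π.symm.prod_comp, Fin.prod_univ_succ, Equiv.apply_symm_apply]
    simp only [Equiv.apply_symm_apply]
    rfl

/-- The structure theorem for symplectic groups. -/
theorem sp_structure (hm : 2 ≤ m) (H : Subgroup (GL ι F)) (hI : H ≤ Cfsg.spGL m F) :
    GoodSp H ∨ InSymplecticResidualClass H := by
  classical
  by_cases hgood : GoodSp H
  · exact Or.inl hgood
  right
  have hB := spData (F := F) (m := m)
  haveI : Nonempty ι := ⟨Sum.inl ⟨0, by omega⟩⟩
  haveI : Nontrivial ι := ⟨Sum.inl ⟨0, by omega⟩, Sum.inr ⟨0, by omega⟩, by simp⟩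
  set Z := scalars ι F
  set K := H ⊔ Z
  have hsim := sp_sim_sup hI
  by_cases hirr : Irr ((fun g : (Module.End F (ι → F))ˣ => (g : Module.End F (ι → F))) '' (gu '' (K : Set _)))
  swap
  · exact absurd (sp_reducible hI (by omega) hirr) hgood
  have hKnZ : ¬ K ≤ Z := by
    intro hle
    let W : Submodule F (ι → F) := Submodule.span F {Pi.single (Sum.inl ⟨0, by omega⟩) 1}
    have hfr : Module.finrank F W = 1 := finrank_span_singleton (by simp)
    rcases hirr W (by
      rintro _ ⟨_, ⟨g, hg, rfl⟩, rfl⟩ w hw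
      obtain ⟨c, hc⟩ := (mem_scalars_iff g).mp (hle hg)
      show (gu g : Module.End F (ι → F)) w ∈ W
      rw [gu_apply, hc, Matrix.smul_mulVec, Matrix.one_mulVec]
      exact W.smul_mem _ hw) with h | h
    · rw [h, finrank_bot] at hfr; omega
    · rw [h, finrank_top, Module.finrank_fintype_fun_eq_card, card_sp_idx] at hfr; omega
  have hfull : ∀ N, N ≤ K → NormalisedBy K N → ¬ N ≤ Z → Full N := by
    intro N hNK hN hNZ
    rcases normal_cases hB hsim hNK hirr hN hNZ with ⟨E, hcomm, hnorm, hcl, hbig⟩ | hf |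
      ⟨d, e, φA, φC, hd, he, hde, hAC, hirr2, hfA, hfC, hclA, hclC⟩
    · exact absurd (sp_comm hI (by omega) hirr hcomm hnorm hcl hbig) hgood
    · exact hf
    exfalso
    refine hgood ?_
    haveI : Nonempty (Fin d) := ⟨⟨0, by omega⟩⟩
    haveI : Nonempty (Fin e) := ⟨⟨0, by omega⟩⟩
    have hinjA : Function.Injective φA := RingHom.injective φA.toRingHom
    have hinjC : Function.Injective φC := RingHom.injective φC.toRingHom
    obtain ⟨GA, νA, -, hGA, hνA⟩ := exists_factor_gram hB (by omega) φA hinjA hclA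
    obtain ⟨GC, νC, -, hGC, hνC⟩ := exists_factor_gram hB (by omega) φC hinjC hclC
    have eA : ∀ i j, (GA : Matrix (Fin d) (Fin d) F) j i = νA * (GA : Matrix (Fin d) (Fin d) F) i j := fun i j =>
      congrFun (congrFun hνA i) j
    have eC : ∀ i j, (GC : Matrix (Fin e) (Fin e) F) j i = νC * (GC : Matrix (Fin e) (Fin e) F) i j := fun i j =>
      congrFun (congrFun hνC i) j
    obtain ⟨b, c, hc, hf, -⟩ := pair_frame hB (K := K) (by omega) (by omega) φA φC hAC hirr2 hfA hfC GA GC hGA hGC
    obtain ⟨i₀, j₀, hij⟩ := exists_entry (by omega : 0 < d) ((Matrix.isUnit_iff_isUnit_det _).mp GA.isUnit)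
    obtain ⟨k₀, l₀, hkl⟩ := exists_entry (by omega : 0 < e) ((Matrix.isUnit_iff_isUnit_det _).mp GC.isUnit)
    have hAC1 : νA * νC = -1 := by
      have h1 := sp_skew (b (i₀, k₀)) (b (j₀, l₀))
      rw [hf, hf] at h1
      simp only [eA i₀ j₀, eC k₀ l₀] at h1
      have : (νA * νC + 1) * (c * ((GA : Matrix (Fin d) (Fin d) F) i₀ j₀ * (GC : Matrix (Fin e) (Fin e) F) k₀ l₀)) = 0 := by
        linear_combination h1
      exact eq_neg_of_add_eq_zero_left ((mul_eq_zero.mp this).resolve_right (mul_ne_zero hc (mul_ne_zero hij hkl)))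
    have hAA : νA * νA = 1 := by
      have h1 := eA i₀ j₀
      have h2' := eA j₀ i₀
      rw [h1] at h2'
      have : (νA * νA - 1) * (GA : Matrix (Fin d) (Fin d) F) i₀ j₀ = 0 := by linear_combination -h2'
      exact sub_eq_zero.mp ((mul_eq_zero.mp this).resolve_right hij)
    rcases mul_self_eq_one_iff.mp hAA with h | h
    · rw [h, one_mul] at hAC1
      exact sp_tensor hI (by omega) hirr he hd φC φA (fun X Y => (hAC Y X).symm) (by rwa [Set.union_comm]) hfC hfA GC GA
        hGC hGA eC eA hAC1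
    · exact sp_tensor hI (by omega) hirr hd he φA φC hAC hirr2 hfA hfC GA GC hGA hGC eA eC h
  obtain ⟨M, ⟨hMn, hZM, hMK, hMne⟩, hmin⟩ := exists_minimal_of_wellFoundedLT
    (fun M : Subgroup (GL ι F) => NormalisedBy K M ∧ Z ≤ M ∧ M ≤ K ∧ M ≠ Z)
    ⟨K, fun g hg x hx => mul_mem (mul_mem hg hx) (inv_mem hg), le_sup_right, le_rfl, fun h => hKnZ h.le⟩
  have hmin' : ∀ N, NormalisedBy K N → Z ≤ N → N ≤ M → N = Z ∨ N = M := fun N h1 h2 h3 => by
    by_cases h : N = Z
    · exact Or.inl h
    · exact Or.inr (le_antisymm h3 (hmin ⟨h1, h2, h3.trans hMK, h⟩ h3))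
  have hMnZ : ¬ M ≤ Z := fun h => hMne (le_antisymm h hZM)
  have hKH : ⁅K, K⁆ ≤ H := (commutator_sup_scalars H H).trans (Subgroup.commutator_le_self H)
  by_cases hab : ⁅M, M⁆ ≤ Z
  · exact absurd (sp_abelian hI (by omega) hZM hMK hMn hfull hMnZ hab) hgood
  rcases nonab_split inferInstance le_sup_left hKH hMK hMn hmin' hfull hab hZM with
    ⟨P, hPM, hPH, hPfull, hnormH, hcore⟩ | ⟨t, d, N, φA, g, ht, hd, hNM, hNp, hrange, hgK, hcom, hirr2, hperm⟩
  swap
  · exfalso
    refine hgood ?_
    haveI : Nonempty (Fin d) := ⟨⟨0, by omega⟩⟩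
    have hinjA : Function.Injective φA := RingHom.injective φA.toRingHom
    have hclA : ∀ X, st (RingEquiv.refl F) Bs (φA X) ∈ Set.range φA := fun X => by
      have h1 := env_closed hB (fun x hx => hsim x (hMK (hNM hx))) (φA X) (hrange ▸ ⟨X, rfl⟩)
      exact hrange.ge h1
    obtain ⟨G, ν, -, hG, hν⟩ := exists_factor_gram hB (by omega) φA hinjA hclA
    by_cases hex : Fintype.card F = 3 ∧ d = 2
    · exfalso
      obtain ⟨h3, rfl⟩ := hex
      have hsol : Group.IsSolvable (GL (Fin 2) F) := Cfsg.Agent.Core.isSolvable_of_card_dvd_two_primes (p := 2) (q := 3)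
        (a := 4) (b := 1) Nat.prime_two Nat.prime_three (by
          rw [Matrix.card_GL_field, h3, Fin.prod_univ_two]; norm_num)
      haveI := hsol
      exact perfect_factor_false le_rfl hNp φA hinjA hrange ⊤
        (Group.isSolvable_of_isSolvable_injective (Subgroup.subtype_injective (⊤ : Subgroup (GL (Fin 2) F))))
        fun _ _ _ _ => trivial
    refine sp_power hI (by omega) hd ht hex (fun i => (conjHom (gu (g i))).comp φA) hcom hirr2
      (fun k hk => hperm k (Subgroup.mem_sup_left hk)) G (fun i j => congrFun (congrFun hν i) j) fun i X => ?_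
    show st _ _ (conjHom (gu (g i)) (φA X)) = conjHom (gu (g i)) (φA _)
    rw [st_conj hB (hsim _ (hgK i)), hG]
  have hnsub : ∀ F₀ : Subfield F, F₀ ≠ ⊤ → ¬ RealisableOver F₀ (matrixSet P) := fun F₀ h1 h3 =>
    hgood (sp_subfield hI (by omega) hPfull (hPH.trans hI) hnormH h1 h3)
  refine ⟨P, hcore hnsub, ?_, ?_⟩
  · rintro ⟨Q, hQ, hfix⟩
    have hpb := hQ.polar_bilinear
    set Bq := gram (QuadraticMap.polar Q)
    have heq : ∀ u v, QuadraticMap.polar Q u v = matForm (RingEquiv.refl F) Bq u v :=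
      eq_matForm hpb.add_left hpb.smul_left hpb.add_right hpb.smul_right
    obtain ⟨c, hc⟩ := similar_of_normalises hPfull (RingEquiv.refl F) hB.unit (fun x hx => sp_matrix (hI (hPH hx)))
      (C := Bq) fun x hx => matrix_eq_of_iso fun u v => by
        rw [← heq, ← heq]
        simp only [QuadraticMap.polar, ← Matrix.mulVec_add, hfix _ ⟨x, hx, rfl⟩]
    have hpol : ∀ u v, QuadraticMap.polar Q u v = c * fs u v := fun u v => by
      rw [heq, hc]
      simp only [matForm, Matrix.smul_mulVec, dotProduct_smul, smul_eq_mul]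
    have hc0 : c ≠ 0 := by
      intro h0
      obtain ⟨⟨x, hx⟩, -⟩ := hQ.nondegenerate (Pi.single (Sum.inl ⟨0, by omega⟩) 1) (by simp)
      exact hx (by rw [hpol, h0, zero_mul])
    by_cases hq : Odd (Fintype.card F)
    · obtain ⟨⟨x, hx⟩, -⟩ := hQ.nondegenerate (Pi.single (Sum.inl ⟨0, by omega⟩) 1) (by simp)
      have h1 := QuadraticMap.polar_comm Q x (Pi.single (Sum.inl ⟨0, by omega⟩) 1)
      rw [hpol, hpol, sp_skew x] at h1
      rw [hpol] at hx
      have : (2 : F) * (c * fs x (Pi.single (Sum.inl ⟨0, by omega⟩) 1)) = 0 := by linear_combination h1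
      exact hx ((mul_eq_zero.mp this).resolve_left (two_ne_of_odd hq))
    refine hgood (sp_quad hI hq (fun v => c⁻¹ * Q v) (fun a v => by rw [hQ.smul]; ring) (fun u v => ?_) fun g hg v => ?_)
    · have := hpol u v
      simp only [QuadraticMap.polar] at this ⊢
      rw [← mul_sub, ← mul_sub, this, ← mul_assoc, inv_mul_cancel₀ hc0, one_mul]
    congr 1
    have h20 := char_two_of_even hq
    set D : (ι → F) → F := fun w => Q ((g : Matrix ι ι F) *ᵥ w) - Q w with hD
    have hDadd : ∀ u w, D (u + w) = D u + D w := by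
      intro u w
      have e1 := hpol ((g : Matrix ι ι F) *ᵥ u) ((g : Matrix ι ι F) *ᵥ w)
      rw [sp_iso (hI hg), ← hpol u w] at e1
      simp only [QuadraticMap.polar, ← Matrix.mulVec_add] at e1
      simp only [D]
      linear_combination e1
    have hDsm : ∀ (a : F) w, D (a • w) = a ^ 2 * D w := fun a w => by
      simp only [D, Matrix.mulVec_smul, hQ.smul]; ring
    let W : Submodule F (ι → F) :=
      { carrier := {w | D w = 0}
        add_mem' := fun {u w} hu hw => by
          show D (u + w) = 0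
          rw [hDadd, show D u = 0 from hu, show D w = 0 from hw, add_zero]
        zero_mem' := by simp [D]
        smul_mem' := fun a w hw => by
          show D (a • w) = 0
          rw [hDsm, show D w = 0 from hw, mul_zero] }
    suffices hW : W = ⊤ by
      have : v ∈ W := hW ▸ trivial
      exact sub_eq_zero.mp this
    have hinv : ∀ s ∈ matrixSet P, W.map (Matrix.toLin' s) ≤ W := by
      rintro _ ⟨x, hx, rfl⟩ _ ⟨w, hw, rfl⟩
      show D (Matrix.toLin' (x : Matrix ι ι F) w) = 0
      rw [Matrix.toLin'_apply]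
      have e : ((g * x * g⁻¹ : GL ι F) : Matrix ι ι F) *ᵥ ((g : Matrix ι ι F) *ᵥ w) =
          (g : Matrix ι ι F) *ᵥ ((x : Matrix ι ι F) *ᵥ w) := by
        rw [Matrix.mulVec_mulVec, Matrix.mulVec_mulVec, ← Units.val_mul, ← Units.val_mul, inv_mul_cancel_right]
      simp only [D]
      rw [← e, hfix _ ⟨_, hnormH g hg x hx, rfl⟩, hfix _ ⟨x, hx, rfl⟩]
      exact hw
    refine (hPfull.absIrred.1 W hinv).resolve_left fun hbot => ?_
    let u₁ : ι → F := Pi.single (Sum.inl ⟨0, by omega⟩) 1
    let u₂ : ι → F := Pi.single (Sum.inr ⟨0, by omega⟩) 1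
    have hc2 : ringChar F = 2 := by
      haveI : CharP F 2 := (CharP.charP_iff_prime_eq_zero Nat.prime_two).mpr (by exact_mod_cast h20)
      exact ringChar.eq F 2
    have hne : D u₁ ≠ 0 := fun h0 => by
      have : u₁ ∈ W := h0
      rw [hbot, Submodule.mem_bot] at this
      simp [u₁] at this
    obtain ⟨s, hs⟩ := FiniteField.isSquare_of_char_two hc2 (D u₂ / D u₁)
    have hmem : s • u₁ + u₂ ∈ W := by
      show D _ = 0
      rw [hDadd, hDsm, pow_two, ← hs, div_mul_cancel₀ _ hne]
      linear_combination (D u₂) * h20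
    rw [hbot, Submodule.mem_bot] at hmem
    have := congrFun hmem (Sum.inr ⟨0, by omega⟩)
    simp [u₁, u₂] at this
  · rintro ⟨σ, f, hf, hfix⟩
    have h3 : ∀ v x y, f v (x + y) = f v x + f v y := fun v x y => by
      rw [hf.herm, hf.add_left, map_add, ← hf.herm, ← hf.herm]
    have h4 : ∀ (c : F) v x, f v (c • x) = σ c * f v x := fun c v x => by
      rw [hf.herm, hf.smul_left, map_mul, ← hf.herm]
    have he := eq_matForm hf.add_left hf.smul_left h3 h4
    have hu : IsUnit (gram f).det := isUnit_of_nondeg (σ := σ) (by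
      rw [show matForm σ (gram f) = f from funext fun u => funext fun v => (he u v).symm]; exact hf.nondegenerate)
    refine hnsub _ (fixedBy_ne_top hf.ne_refl) (realisable_of_two_forms hPfull hf.ne_refl hf.involutive hB.unit hu
      (fun x hx => ?_) fun x hx => fix_gram fun u v => by rw [← he, ← he]; exact hfix _ ⟨x, hx, rfl⟩ u v)
    have e := sp_matrix (hI (hPH hx))
    rwa [show (x : Matrix ι ι F).map (RingEquiv.refl F) = (x : Matrix ι ι F) by ext u v; rfl] at e

end Cfsg.Agent.GeomClasses.AschRel
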