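import Cfsg.Agent.GeomClasses.Aschbacher.Rel.Adjoint

/-! # Forms on tensor products -/

set_option autoImplicit false

namespace Cfsg.Agent.GeomClasses.AschRel

open Matrix Cfsg.Geo
open Cfsg.Agent.GeomClasses.Asch (Irr tup exists_tensor_basis exists_inner tup_mulSingle phi_mul_tup exists_factor phi_injective)

variable {F : Type*} [Field F] {ι : Type} [Fintype ι] [DecidableEq ι]
  {σ : F ≃+* F} {B : Matrix ι ι F} {ε : F}

/-- The adjoint induced on a matrix algebra by a Gram matrix. -/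
noncomputable def stG {d : ℕ} (σ : F ≃+* F) (G : Matrix (Fin d) (Fin d) F) (X : Matrix (Fin d) (Fin d) F) :
    Matrix (Fin d) (Fin d) F :=
  (G⁻¹ * Xᵀ * G).map σ

theorem map_map_inv (h : FormData σ B ε) {d : ℕ} (X : Matrix (Fin d) (Fin d) F) : (X.map σ).map σ = X := by
  ext i j; rw [Matrix.map_apply, Matrix.map_apply, h.invol]

/-- A matrix algebra closed under adjoints carries a form. -/
theorem exists_factor_gram (h : FormData σ B ε) {d : ℕ} (hd : 0 < d)
    (φ : Matrix (Fin d) (Fin d) F →ₐ[F] Module.End F (ι → F)) (hinj : Function.Injective φ)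
    (hclosed : ∀ X, st σ B (φ X) ∈ Set.range φ) :
    ∃ (G : GL (Fin d) F) (ν : F), ν ≠ 0 ∧ (∀ X, st σ B (φ X) = φ (stG σ (G : Matrix (Fin d) (Fin d) F) X)) ∧
      ((G : Matrix (Fin d) (Fin d) F)ᵀ).map σ = ν • (G : Matrix (Fin d) (Fin d) F) := by
  classical
  haveI : Nonempty (Fin d) := ⟨⟨0, hd⟩⟩
  choose α hα using hclosed
  have hmm : ∀ X : Matrix (Fin d) (Fin d) F, (X.map σ).map σ = X := map_map_inv h
  have hαm : ∀ X Y, α (X * Y) = α Y * α X := fun X Y => hinj (by
    rw [hα, map_mul, map_mul, st_mul h, hα, hα])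
  have hαa : ∀ X Y, α (X + Y) = α X + α Y := fun X Y => hinj (by
    rw [hα, map_add, map_add, st_add h, hα, hα])
  have hαc : ∀ c : F, α (algebraMap F _ c) = algebraMap F _ (σ c) := fun c => hinj (by
    rw [hα, AlgHom.commutes, AlgHom.commutes, st_algebraMap h])
  have hαα : ∀ X, α (α X) = X := fun X => hinj (by rw [hα, hα, st_st h])
  let β : Matrix (Fin d) (Fin d) F →ₐ[F] Matrix (Fin d) (Fin d) F :=
    { toFun := fun X => α ((Xᵀ).map σ)
      map_one' := by
        rw [Matrix.transpose_one, Matrix.map_one _ (map_zero σ) (map_one σ), ← map_one (algebraMap F _), hαc, map_one,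
          map_one]
      map_mul' := fun X Y => by rw [Matrix.transpose_mul, Matrix.map_mul, hαm]
      map_zero' := by
        rw [Matrix.transpose_zero, Matrix.map_zero _ (map_zero σ), ← map_zero (algebraMap F (Matrix (Fin d) (Fin d) F)),
          hαc, map_zero]
      map_add' := fun X Y => by rw [Matrix.transpose_add, Matrix.map_add _ (map_add σ), hαa]
      commutes' := fun c => by
        rw [show ((algebraMap F (Matrix (Fin d) (Fin d) F) c)ᵀ).map σ = algebraMap F _ (σ c) by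
          ext i j
          by_cases e : i = j <;> simp [Matrix.algebraMap_matrix_apply, e, eq_comm], hαc, h.invol] }
  have hβinj : Function.Injective β := RingHom.injective β.toRingHom
  obtain ⟨a, ha⟩ := exists_inner (AlgEquiv.ofBijective β
    ⟨hβinj, LinearMap.injective_iff_surjective (f := β.toLinearMap) |>.mp hβinj⟩)
  let σm : Matrix (Fin d) (Fin d) F →* Matrix (Fin d) (Fin d) F := σ.toRingHom.mapMatrix.toMonoidHom
  have hσm : ∀ X, σm X = X.map σ := fun X => rfl
  let G : GL (Fin d) F := Units.map σm a⁻¹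
  have hG : (G : Matrix (Fin d) (Fin d) F) = ((a⁻¹ : GL (Fin d) F).val).map σ := rfl
  have hGi : (G : Matrix (Fin d) (Fin d) F)⁻¹ = ((a : Matrix (Fin d) (Fin d) F)).map σ := by
    rw [← Matrix.coe_units_inv, ← map_inv, inv_inv]; rfl
  have hαG : ∀ X, α X = stG σ (G : Matrix (Fin d) (Fin d) F) X := by
    intro X
    have e : ((Xᵀ.map σ)ᵀ).map σ = X := by rw [Matrix.transpose_map, hmm, Matrix.transpose_transpose]
    calc α X = β (Xᵀ.map σ) := by show α X = α _; rw [e]
      _ = (a : Matrix (Fin d) (Fin d) F) * Xᵀ.map σ * (a⁻¹ : GL (Fin d) F).val := ha _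
      _ = _ := by rw [stG, hGi, hG, Matrix.map_mul, Matrix.map_mul, hmm, hmm]
  set Gm : Matrix (Fin d) (Fin d) F := (G : Matrix (Fin d) (Fin d) F)
  have hGu : IsUnit Gm.det := (Matrix.isUnit_iff_isUnit_det _).mp G.isUnit
  set N := (Gmᵀ).map σ
  have hNu : IsUnit N.det := by
    have : N.det = σ Gmᵀ.det := (RingEquiv.map_det σ Gmᵀ).symm
    rw [this, Matrix.det_transpose]; exact hGu.map σ.toRingHom
  have hcomm : ∀ X, (Gm⁻¹ * N) * X = X * (Gm⁻¹ * N) := by
    intro X
    set A : Matrix (Fin d) (Fin d) F := (Gm⁻¹).map σ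
    set Xs := Xᵀ.map σ
    set A' : Matrix (Fin d) (Fin d) F := Gm.map σ
    have hAA : A' * A = 1 := by
      simp only [A, A']
      rw [← Matrix.map_mul, Matrix.mul_nonsing_inv _ hGu, Matrix.map_one _ (map_zero σ) (map_one σ)]
    have e := hαα (X.map σ)
    rw [hαG (X.map σ), hαG] at e
    simp only [stG, Matrix.transpose_map, Matrix.transpose_mul, Matrix.transpose_transpose, Matrix.map_mul,
      ← Matrix.transpose_map] at e
    have hN' : ((Gm⁻¹)ᵀ).map σ * N = 1 := by
      rw [← Matrix.map_mul, ← Matrix.transpose_mul, Matrix.mul_nonsing_inv _ hGu, Matrix.transpose_one,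
        Matrix.map_one _ (map_zero σ) (map_one σ)]
    have e2 := congrArg (fun Z => Z.map σ) e
    simp only [Matrix.map_mul, hmm] at e2
    have key : Gm⁻¹ * N * X * N⁻¹ * Gm = X := by
      have hNi : N⁻¹ = ((Gm⁻¹)ᵀ).map σ := Matrix.inv_eq_left_inv hN'
      rw [hNi]
      simpa [N, mul_assoc, Matrix.transpose_map] using e2
    have hGN : N⁻¹ * Gm * (Gm⁻¹ * N) = 1 := by
      rw [mul_assoc, ← mul_assoc Gm, Matrix.mul_nonsing_inv _ hGu, one_mul, Matrix.nonsing_inv_mul _ hNu]
    calc Gm⁻¹ * N * X = Gm⁻¹ * N * X * (N⁻¹ * Gm * (Gm⁻¹ * N)) := by rw [hGN, mul_one]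
      _ = (Gm⁻¹ * N * X * N⁻¹ * Gm) * (Gm⁻¹ * N) := by simp only [mul_assoc]
      _ = _ := by rw [key]
  obtain ⟨ν, hν⟩ := Matrix.mem_range_scalar_iff_commute_single'.mpr fun i j =>
    ((hcomm (Matrix.single i j 1)).symm : Commute (Matrix.single i j (1 : F)) (Gm⁻¹ * N))
  have hN : N = ν • Gm := by
    have := congrArg (Gm * ·) hν
    rw [← mul_assoc, Matrix.mul_nonsing_inv _ hGu, one_mul] at this
    rw [← this, Matrix.scalar_apply, ← Matrix.smul_one_eq_diagonal, Matrix.mul_smul, mul_one]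
  refine ⟨G, ν, fun h0 => hNu.ne_zero (by rw [hN, h0, zero_smul, Matrix.det_zero]), fun X => by rw [← hαG, hα], hN⟩

section Tensor

variable {t : ℕ} {d : Fin t → ℕ} (φ : ∀ i, Matrix (Fin (d i)) (Fin (d i)) F →ₐ[F] Module.End F (ι → F))
  (hcomm : Pairwise fun i j => ∀ X Y, Commute (φ i X) (φ j Y))

/-- The matrix of a pure tensor. -/
def tmat (g : ∀ i, Matrix (Fin (d i)) (Fin (d i)) F) : Matrix (∀ i, Fin (d i)) (∀ i, Fin (d i)) F :=
  Matrix.of fun x y => ∏ i, g i (x i) (y i)

theorem tmat_mul (g g' : ∀ i, Matrix (Fin (d i)) (Fin (d i)) F) : tmat g * tmat g' = tmat (g * g') := by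
  classical
  ext x y
  simp only [tmat, Matrix.mul_apply, Matrix.of_apply, Pi.mul_apply, ← Finset.prod_mul_distrib, Fintype.prod_sum]

theorem tmat_one : tmat (1 : ∀ i, Matrix (Fin (d i)) (Fin (d i)) F) = 1 := by
  classical
  ext x y
  by_cases h : x = y
  · subst h; simp [tmat]
  · obtain ⟨i, hi⟩ := Function.ne_iff.mp h
    rw [Matrix.one_apply_ne h]
    exact Finset.prod_eq_zero (Finset.mem_univ i)
      (show (1 : Matrix (Fin (d i)) (Fin (d i)) F) (x i) (y i) = 0 from Matrix.one_apply_ne hi)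

theorem tmat_transpose (g : ∀ i, Matrix (Fin (d i)) (Fin (d i)) F) : (tmat g)ᵀ = tmat fun i => (g i)ᵀ := rfl

theorem tmat_map (g : ∀ i, Matrix (Fin (d i)) (Fin (d i)) F) : (tmat g).map σ = tmat fun i => (g i).map σ := by
  ext x y; simp [tmat]

theorem frame_form {κ : Type} [Fintype κ] [DecidableEq κ] (b : Module.Basis κ F (ι → F)) (e : ι ≃ κ) (x y : κ → F) :
    matForm σ B ((frameGL b e : Matrix ι ι F) *ᵥ (x ∘ e)) ((frameGL b e : Matrix ι ι F) *ᵥ (y ∘ e)) =
      ∑ u, ∑ v, x u * matForm σ B (b u) (b v) * σ (y v) := by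
  have hP : ∀ z : κ → F, (frameGL b e : Matrix ι ι F) *ᵥ (z ∘ e) = ∑ u, z u • b u := by
    intro z
    funext i
    show ∑ j, (Pi.basisFun F ι).toMatrix (b.reindex e.symm) i j * z (e j) = _
    rw [Finset.sum_apply, ← e.sum_comp]
    refine Finset.sum_congr rfl fun j _ => ?_
    simp [Module.Basis.toMatrix_apply, mul_comm]
  rw [hP, hP, mf_sum_left]
  refine Finset.sum_congr rfl fun u _ => ?_
  rw [mf_smul_left, mf_sum_right, Finset.mul_sum]
  exact Finset.sum_congr rfl fun v _ => by rw [mf_smul_right]; ring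

include hcomm in
/-- The form is the tensor product of the forms on the factors. -/
theorem gram_tensor [Fintype F] [Nonempty ι] (h : FormData σ B ε) (hd : ∀ i, 0 < d i)
    (hirr : Irr (⋃ i, Set.range (φ i))) (G : ∀ i, GL (Fin (d i)) F)
    (hG : ∀ i X, st σ B (φ i X) = φ i (stG σ (G i : Matrix (Fin (d i)) (Fin (d i)) F) X)) :
    ∃ (b : Module.Basis (∀ i, Fin (d i)) F (ι → F)) (c : F), c ≠ 0 ∧
      (∀ g x y, b.repr (tup φ hcomm g (b y)) x = ∏ i, g i (x i) (y i)) ∧
      ∀ x y, matForm σ B (b x) (b y) = c * ∏ i, (G i : Matrix (Fin (d i)) (Fin (d i)) F) (x i) (y i) := by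
  classical
  obtain ⟨b, hb⟩ := exists_tensor_basis φ hcomm hd hirr
  let Bb : Matrix (∀ i, Fin (d i)) (∀ i, Fin (d i)) F := Matrix.of fun x y => matForm σ B (b x) (b y)
  let C := tmat fun i => (G i : Matrix (Fin (d i)) (Fin (d i)) F)
  let C' := tmat fun i => ((G i)⁻¹ : GL (Fin (d i)) F).val
  have hCC : C * C' = 1 := by rw [tmat_mul, ← tmat_one]; congr 1; funext i; simp
  have hC'C : C' * C = 1 := by rw [tmat_mul, ← tmat_one]; congr 1; funext i; simp
  have hact : ∀ g y, tup φ hcomm g (b y) = ∑ x, tmat g x y • b x := fun g y => by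
    conv_lhs => rw [← b.sum_repr (tup φ hcomm g (b y))]
    simp only [hb]; rfl
  have key : ∀ i Y, (Bb : Matrix _ _ F) * tmat (Pi.mulSingle i Y) =
      tmat (Pi.mulSingle i ((G i : Matrix (Fin (d i)) (Fin (d i)) F) * Y * ((G i)⁻¹ : GL (Fin (d i)) F).val)) * Bb := by
    intro i Y
    set G' := (G i : Matrix (Fin (d i)) (Fin (d i)) F)
    set G'' := ((G i)⁻¹ : GL (Fin (d i)) F).val
    set X := (G' * Y * G'')ᵀ
    have hGu : IsUnit G'.det := (Matrix.isUnit_iff_isUnit_det _).mp (G i).isUnit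
    have hGi : G'⁻¹ = G'' := (Matrix.coe_units_inv (G i)).symm
    have hX : stG σ G' X = Y.map σ := by
      rw [stG, Matrix.transpose_transpose, hGi]
      congr 1
      simp [G', G'', mul_assoc]
    ext x y
    have e := adjoint h (φ i X) (b x) (b y)
    rw [hG, hX, ← tup_mulSingle φ hcomm i X, ← tup_mulSingle φ hcomm i (Y.map σ), hact, hact, mf_sum_left,
      mf_sum_right] at e
    simp only [mf_smul_left, mf_smul_right] at e
    simp only [Matrix.mul_apply]
    refine Eq.trans ?_ (e.symm.trans ?_)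
    · refine Finset.sum_congr rfl fun u _ => ?_
      rw [mul_comm]
      congr 1
      rw [show σ (tmat (Pi.mulSingle i (Y.map σ)) u y) = tmat (fun j => ((Pi.mulSingle i (Y.map σ) :
        ∀ j, Matrix (Fin (d j)) (Fin (d j)) F) j).map σ) u y by rw [← tmat_map]; rfl]
      congr 1
      funext j
      by_cases hj : j = i
      · subst hj; rw [Pi.mulSingle_eq_same, Pi.mulSingle_eq_same, map_map_inv h]
      · rw [Pi.mulSingle_eq_of_ne hj, Pi.mulSingle_eq_of_ne hj, Matrix.map_one _ (map_zero σ) (map_one σ)]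
    · refine Finset.sum_congr rfl fun u _ => ?_
      show tmat (Pi.mulSingle i X) u x * Bb u y = _
      congr 1
      show (tmat (Pi.mulSingle i X))ᵀ x u = _
      rw [tmat_transpose]
      congr 1
      funext j
      by_cases hj : j = i
      · subst hj; simp [X]
      · simp [Pi.mulSingle_eq_of_ne hj]
  have hCkey : ∀ i Y, tmat (Pi.mulSingle i ((G i : Matrix (Fin (d i)) (Fin (d i)) F) * Y *
      ((G i)⁻¹ : GL (Fin (d i)) F).val)) * C = C * tmat (Pi.mulSingle i Y) := by
    intro i Y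
    rw [tmat_mul, tmat_mul]
    congr 1
    funext j
    by_cases hj : j = i
    · subst hj; simp [mul_assoc]
    · simp [Pi.mulSingle_eq_of_ne hj]
  let L := Matrix.toLinAlgEquiv b
  have hL : ∀ g, L (tmat g) = tup φ hcomm g := fun g => b.ext fun y => by
    rw [hact g y]; exact Matrix.toLin_self _ _ _ _
  obtain ⟨c, hc⟩ := Asch.commute_all_scalar φ hcomm hd hirr (X := L (C' * Bb)) fun i Y => by
    rw [← tup_mulSingle φ hcomm i Y, ← hL]
    show _ * _ = _ * _
    rw [← map_mul, ← map_mul]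
    congr 1
    calc C' * Bb * tmat (Pi.mulSingle i Y) = C' * (tmat (Pi.mulSingle i ((G i : Matrix (Fin (d i)) (Fin (d i)) F) * Y *
          ((G i)⁻¹ : GL (Fin (d i)) F).val)) * C) * (C' * Bb) := by
            rw [mul_assoc, key]; simp only [mul_assoc]; rw [← mul_assoc C C', hCC, one_mul]
      _ = _ := by rw [hCkey]; simp only [← mul_assoc]; rw [hC'C, one_mul]
  have hB : Bb = c • C := by
    have : C' * Bb = algebraMap F _ c := L.injective (by rw [hc, AlgEquiv.commutes])
    calc Bb = C * (C' * Bb) := by rw [← mul_assoc, hCC, one_mul]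
      _ = _ := by rw [this, ← Algebra.commutes, ← Algebra.smul_def]
  refine ⟨b, c, fun hc0 => ?_, hb, fun x y => ?_⟩
  · obtain ⟨x₀⟩ : Nonempty (∀ i, Fin (d i)) := ⟨fun i => ⟨0, hd i⟩⟩
    obtain ⟨⟨u, hu⟩, -⟩ := nondeg_matForm (σ := σ) h.unit (b x₀) (b.ne_zero x₀)
    refine hu ?_
    rw [← b.sum_repr u, mf_sum_left]
    refine Finset.sum_eq_zero fun z _ => ?_
    rw [mf_smul_left, show matForm σ B (b z) (b x₀) = Bb z x₀ from rfl, hB, hc0, zero_smul]
    simp
  · show Bb x y = _
    rw [hB]; rfl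

include hcomm in
/-- Members of the group are pure tensors up to a permutation of equal factors. -/
theorem coord_perm [Nonempty ι] (hd : ∀ i, 0 < d i) (hirr : Irr (⋃ i, Set.range (φ i))) {g : GL ι F}
    (hg : ∀ i X, (gu g : Module.End F (ι → F)) * φ i X * ((gu g)⁻¹).val ∈ Set.range (φ i))
    (b : Module.Basis (∀ i, Fin (d i)) F (ι → F))
    (hb : ∀ g x y, b.repr (tup φ hcomm g (b y)) x = ∏ i, g i (x i) (y i)) :
    ∃ (c : F) (a : ∀ i, GL (Fin (d i)) F), c ≠ 0 ∧
      (coordGL b g : Matrix _ _ F) = c • tmat fun i => (a i : Matrix (Fin (d i)) (Fin (d i)) F) := by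
  classical
  obtain ⟨c, a, ha⟩ := exists_factor φ hcomm hd hirr (gu g) hg
  refine ⟨c, a, fun h0 => (gu g).ne_zero (by rw [ha, h0, zero_smul]), ?_⟩
  ext x y
  rw [coordGL_apply, ha, LinearMap.smul_apply, map_smul, Finsupp.smul_apply, hb]
  rfl

end Tensor

end Cfsg.Agent.GeomClasses.AschRel
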