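import Cfsg.Agent.GeomClasses.Aschbacher.Rel.UForms
import Cfsg.Agent.GeomClasses.Aschbacher.Rel.FieldAdjoint
import Cfsg.Agent.GeomClasses.Aschbacher.Rel.NormalCases
import Cfsg.Agent.GeomClasses.Aschbacher.Rel.Tools
import Cfsg.Agent.GeomClasses.Aschbacher.Forms

/-! # The structure theorem for unitary groups: basic cases -/

set_option autoImplicit false
set_option maxHeartbeats 400000

namespace Cfsg.Agent.GeomClasses.AschRel

open Matrix Cfsg.Geo
open Cfsg.Agent.GeomClasses.Asch (Irr Normalises conjHom conjHom_apply)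

variable {F : Type*} [Field F] [Fintype F] {n q : ℕ}

/-- The conjugation of the field with `q ^ 2` elements. -/
noncomputable def sig (hF : Fintype.card F = q ^ 2) : F ≃+* F :=
  RingEquiv.ofRingHom (Forms.frobQ hF) (Forms.frobQ hF) (RingHom.ext (Forms.frobQ_frobQ hF))
    (RingHom.ext (Forms.frobQ_frobQ hF))

/-- Containment in a geometric class of the unitary group. -/
def GoodU (q : ℕ) (H : Subgroup (GL (Fin n) F)) : Prop :=
  ∃ M : Subgroup (GL (Fin n) F), InUnitaryClass n F q M ∧ H ≤ M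

theorem sig_apply (hF : Fintype.card F = q ^ 2) (a : F) : sig hF a = a ^ q := rfl

theorem sig_invol (hF : Fintype.card F = q ^ 2) (a : F) : sig hF (sig hF a) = a := Forms.frobQ_frobQ hF a

theorem sig_ne (hF : Fintype.card F = q ^ 2) : sig hF ≠ RingEquiv.refl F := fun h =>
  Forms.frobQ_ne_id hF (RingHom.ext fun a => congrArg (fun f : F ≃+* F => f a) h)

theorem herm_eq (hF : Fintype.card F = q ^ 2) :
    Cfsg.hermForm n F q = matForm (sig hF) (1 : Matrix (Fin n) (Fin n) F) := by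
  funext u v
  simp [Cfsg.hermForm, matForm, dotProduct, sig_apply]

variable (hF : Fintype.card F = q ^ 2)
include hF

theorem uData : FormData (sig hF) (1 : Matrix (Fin n) (Fin n) F) 1 := by
  refine ⟨sig_invol hF, by simp, one_ne_zero, fun u v => ?_⟩
  simp [matForm, dotProduct, map_sum, sig_invol hF, mul_comm]

theorem u_iso {g : GL (Fin n) F} (hg : g ∈ Cfsg.GU n F q) (u v : Fin n → F) :
    matForm (sig hF) 1 ((g : Matrix (Fin n) (Fin n) F) *ᵥ u) ((g : Matrix (Fin n) (Fin n) F) *ᵥ v) =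
      matForm (sig hF) 1 u v := by
  rw [← herm_eq hF]; exact hg u v

theorem u_matrix {g : GL (Fin n) F} (hg : g ∈ Cfsg.GU n F q) :
    (g : Matrix (Fin n) (Fin n) F)ᵀ * 1 * (g : Matrix (Fin n) (Fin n) F).map (sig hF) = 1 :=
  matrix_eq_of_iso (u_iso hF hg)

theorem u_sim_sup {H : Subgroup (GL (Fin n) F)} (hI : H ≤ Cfsg.GU n F q) :
    ∀ g ∈ H ⊔ scalars (Fin n) F, IsSim (sig hF) (1 : Matrix (Fin n) (Fin n) F) g := by
  intro g hg
  rw [← SetLike.mem_coe, Subgroup.mul_normal] at hg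
  obtain ⟨a, ha, z, hz, rfl⟩ := hg
  obtain ⟨c, hc⟩ := (mem_scalars_iff z).mp hz
  refine ⟨(c : F) * sig hF c, mul_ne_zero c.ne_zero ((map_ne_zero (sig hF)).mpr c.ne_zero), fun u v => ?_⟩
  rw [Units.val_mul, ← Matrix.mulVec_mulVec, ← Matrix.mulVec_mulVec, u_iso hF (hI ha), hc, Matrix.smul_mulVec,
    Matrix.smul_mulVec, Matrix.one_mulVec, Matrix.one_mulVec, mf_smul_left, mf_smul_right]
  ring

omit hF in
theorem u_partial_of {M : Subgroup (GL (Fin n) F)} (h : InUnitaryPartialClass n F q M) : InUnitaryClass n F q M := Or.inl h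

theorem u_reducible {H : Subgroup (GL (Fin n) F)} (hI : H ≤ Cfsg.GU n F q) (hn : 0 < n)
    (hirr : ¬ Irr ((fun g : (Module.End F (Fin n → F))ˣ => (g : Module.End F (Fin n → F))) ''
      (gu '' ((H ⊔ scalars (Fin n) F : Subgroup _) : Set _)))) : GoodU q H := by
  set f := matForm (sig hF) (1 : Matrix (Fin n) (Fin n) F)
  haveI : Nonempty (Fin n) := ⟨⟨0, hn⟩⟩
  rcases reducible_cases (uData hF) (u_sim_sup hF hI) hirr with ⟨W, hW0, hW, hKW⟩ |
    ⟨W, W', hW0, hW1, hW'0, hW'1, hW, hW', horth, hinf, hsup, hKW, hKW'⟩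
  · exact ⟨_, u_partial_of (Or.inl ⟨W, hW0, by rw [herm_eq hF]; exact hW, rfl⟩), le_inf (le_sup_left.trans hKW) hI⟩
  have hdim : Module.finrank F W + Module.finrank F W' = n := by
    rw [← Submodule.finrank_sup_add_finrank_inf_eq, hsup, hinf, finrank_bot, add_zero, finrank_top, Module.finrank_fin_fun]
  by_cases h1 : 2 * Module.finrank F W < n
  · exact ⟨_, u_partial_of (Or.inr (Or.inl ⟨W, hW0, by rw [herm_eq hF]; exact hW, h1, rfl⟩)), le_inf (le_sup_left.trans hKW) hI⟩
  by_cases h2 : 2 * Module.finrank F W' < n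
  · exact ⟨_, u_partial_of (Or.inr (Or.inl ⟨W', hW'0, by rw [herm_eq hF]; exact hW', h2, rfl⟩)), le_inf (le_sup_left.trans hKW') hI⟩
  let D : Fin 2 → Submodule F (Fin n → F) := ![W, W']
  have hD : IsMDecomposition (Module.finrank F W) D := by
    refine ⟨le_rfl, by omega, fun i => ?_, ?_, ?_⟩
    · fin_cases i
      · rfl
      · show Module.finrank F W' = _; omega
    · rw [iSupIndep_def]
      intro i
      fin_cases i
      · refine disjoint_iff.mpr (le_bot_iff.mp ?_)
        rw [← hinf]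
        exact inf_le_inf_left _ (iSup₂_le fun j hj => by fin_cases j <;> [exact absurd rfl hj; exact le_rfl])
      · refine disjoint_iff.mpr (le_bot_iff.mp ?_)
        rw [← hinf, inf_comm W]
        exact inf_le_inf_left _ (iSup₂_le fun j hj => by fin_cases j <;> [exact le_rfl; exact absurd rfl hj])
    · refine eq_top_iff.mpr (hsup ▸ sup_le ?_ ?_)
      · exact le_iSup D 0
      · exact le_iSup D 1
  have hswap : ∀ u v, f u v = 0 → f v u = 0 := fun u v e => by
    simp only [f] at e ⊢; rw [(uData hF).swap, e, map_zero, mul_zero]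
  have hst : H ≤ decompositionStabilizer D := fun g hg => by
    refine ⟨1, fun i => ?_⟩
    have key : ∀ U : Submodule F (Fin n → F), H ≤ subspaceStabilizer U →
        U.map (Matrix.toLin' (g : Matrix (Fin n) (Fin n) F)) = U := by
      intro U hU
      refine Submodule.eq_of_le_of_finrank_eq ?_ (Submodule.equivMapOfInjective _ (fun a b hab => by
        have := congrArg ((g⁻¹ : GL (Fin n) F).val *ᵥ ·)
          (by simpa using hab : (g : Matrix (Fin n) (Fin n) F) *ᵥ a = (g : Matrix (Fin n) (Fin n) F) *ᵥ b)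
        simpa [Matrix.mulVec_mulVec] using this) U).finrank_eq.symm
      rintro _ ⟨w, hw, rfl⟩
      rw [Matrix.toLin'_apply]
      exact (hU hg w).1 hw
    fin_cases i
    · exact key W (le_sup_left.trans hKW)
    · exact key W' (le_sup_left.trans hKW')
  refine ⟨decompositionStabilizer D ⊓ Cfsg.GU n F q,
    u_partial_of (Or.inr (Or.inr (Or.inl ⟨2, Module.finrank F W, D, ?_, rfl⟩))), le_inf hst hI⟩
  rw [herm_eq hF]
  refine ⟨hD, fun i => ?_, fun i j hij => ?_⟩
  · fin_cases i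
    · exact hW
    · exact hW'
  · fin_cases i <;> fin_cases j
    · exact absurd rfl hij
    · exact fun u hu v hv => hswap v u (horth v hv u hu)
    · exact horth
    · exact absurd rfl hij

/-- A commutative algebra closed under adjoints gives a geometric class. -/
theorem u_comm {H : Subgroup (GL (Fin n) F)} (hI : H ≤ Cfsg.GU n F q) (hn : 0 < n)
    (hirr : Irr ((fun u : (Module.End F (Fin n → F))ˣ => (u : Module.End F (Fin n → F))) '' opUnits (H ⊔ scalars (Fin n) F)))
    {E : Subalgebra F (Module.End F (Fin n → F))} (hcomm : ∀ x ∈ E, ∀ y ∈ E, x * y = y * x)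
    (hnorm : ∀ g ∈ H ⊔ scalars (Fin n) F, Normalises E (gu g)) (hcl : ∀ x ∈ E, st (sig hF) 1 x ∈ E)
    (hbig : ∃ x ∈ E, ∀ c : F, x ≠ algebraMap F _ c) : GoodU q H := by
  classical
  haveI : Nonempty (Fin n) := ⟨⟨0, hn⟩⟩
  have hB := uData (n := n) hF
  rcases blocks_or_field hB (u_sim_sup hF hI) hirr hcomm hnorm hcl with ⟨t, k, D, hD, hKD, -⟩ | ⟨k, D, hk, hD, hts, hKD⟩ | hinv
  · exact ⟨_, u_partial_of (Or.inr (Or.inr (Or.inl ⟨t, k, D, by rw [herm_eq hF]; exact hD, rfl⟩))),
      le_inf (le_sup_left.trans hKD) hI⟩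
  · exact ⟨_, u_partial_of (Or.inr (Or.inr (Or.inr (Or.inl ⟨k, D, by simpa using hk, hD,
      fun i => by rw [herm_eq hF]; exact hts i, rfl⟩)))), le_inf (le_sup_left.trans hKD) hI⟩
  obtain ⟨r, L, hr, hLE, hfin, hLinv, hLN⟩ := Asch.exists_prime_subfield hcomm hinv hbig
  have hLcomm : ∀ x ∈ L, ∀ y ∈ L, x * y = y * x := fun x hx y hy => hcomm x (hLE hx) y (hLE hy)
  have hLcl := subfield_closed hB hcomm hinv hcl hLE hLinv
  let Φ : Module.End F (Fin n → F) ≃ₐ[F] Matrix (Fin n) (Fin n) F := LinearMap.toMatrixAlgEquiv'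
  let L' : Subalgebra F (Matrix (Fin n) (Fin n) F) := L.map Φ.toAlgHom
  have hmem : ∀ x, x ∈ L' ↔ Φ.symm x ∈ L := fun x =>
    ⟨by rintro ⟨y, hy, rfl⟩; simpa using hy, fun h => ⟨_, h, Φ.apply_symm_apply x⟩⟩
  refine ⟨subalgebraNormalizer L' ⊓ Cfsg.GU n F q, Or.inr (Or.inl ⟨r, L', hr,
    adjoint_odd_degree hB (sig_ne hF) hr hfin hLcomm hLinv hLcl, ?_, ?_, rfl⟩), le_inf (fun g hg k => ?_) hI⟩
  · refine ⟨fun x hx y hy => ?_, fun x hx hx0 => ?_, ?_⟩
    · apply Φ.symm.injective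
      rw [map_mul, map_mul]
      exact hLcomm _ ((hmem x).mp hx) _ ((hmem y).mp hy)
    · obtain ⟨y, hy, hxy⟩ := hLinv _ ((hmem x).mp hx) (by simpa using hx0)
      refine ⟨Φ y, (hmem _).mpr (by simpa using hy), Φ.symm.injective ?_⟩
      simpa using hxy
    · rw [← hfin]
      exact (L.equivMapOfInjective Φ.toAlgHom Φ.injective).toLinearEquiv.finrank_eq.symm
  · intro k hk
    refine ⟨Φ (st (sig hF) 1 (Φ.symm k)), (hmem _).mpr (by simpa using hLcl _ ((hmem k).mp hk)), fun u v => ?_⟩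
    have hPhi : ∀ (Y : Module.End F (Fin n → F)) x, Φ Y *ᵥ x = Y x := fun Y x => by
      show LinearMap.toMatrix' Y *ᵥ x = Y x
      exact LinearMap.toMatrix'_mulVec Y x
    rw [herm_eq hF, hPhi]
    exact adjoint hB (Φ.symm k) u v
  · rw [hmem, hmem, hLN (gu g) (hnorm g (Subgroup.mem_sup_left hg)), map_mul, map_mul, ← map_inv]
    rfl

/-- An invariant bilinear form up to multipliers gives a subfield class of index two. -/
theorem u_twist_form {H : Subgroup (GL (Fin n) F)} (hI : H ≤ Cfsg.GU n F q) (hn : 0 < n) (S : GL (Fin n) F)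
    (hsym : ((S : Matrix (Fin n) (Fin n) F)ᵀ = S ∧ Odd q) ∨
      ((S : Matrix (Fin n) (Fin n) F)ᵀ = -(S : Matrix (Fin n) (Fin n) F) ∧ ∀ i, (S : Matrix (Fin n) (Fin n) F) i i = 0))
    (hsim : ∀ g ∈ H, ∃ μ : F, μ ≠ 0 ∧ (g : Matrix (Fin n) (Fin n) F)ᵀ * (S : Matrix (Fin n) (Fin n) F) *
      (g : Matrix (Fin n) (Fin n) F) = μ • (S : Matrix (Fin n) (Fin n) F))
    (hCC : ∃ lam : F, (S⁻¹ : GL (Fin n) F).val * (S⁻¹ : GL (Fin n) F).val.map (sig hF) = lam • 1) : GoodU q H := by
  classical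
  haveI : Nonempty (Fin n) := ⟨⟨0, hn⟩⟩
  set σ := sig hF
  have hσ := sig_ne hF
  have hinv := sig_invol hF
  set Sm := (S : Matrix (Fin n) (Fin n) F)
  set C := (S⁻¹ : GL (Fin n) F).val
  have hSC : Sm * C = 1 := by simp [Sm, C]
  have hCS : C * Sm = 1 := by simp [Sm, C]
  obtain ⟨lam, hlam⟩ := hCC
  have hmm : ∀ X : Matrix (Fin n) (Fin n) F, (X.map σ).map σ = X := fun X => by
    ext i j; rw [Matrix.map_apply, Matrix.map_apply, hinv]
  have hsmap : ∀ (a : F) (X : Matrix (Fin n) (Fin n) F), (a • X).map σ = σ a • X.map σ := fun a X => by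
    ext i j; simp
  let T : Set (Matrix (Fin n) (Fin n) F) := {x | C * x.map σ = x * C}
  obtain ⟨P, hP, μ₀, hμ₀, hCP⟩ := realisable_of_twist hσ hinv S⁻¹ hlam (S := T) fun x hx => hx
  set Pm := (P : Matrix (Fin n) (Fin n) F)
  have hPσ : Pm.map σ = μ₀ • (Sm * Pm) := by
    rw [← Matrix.mul_smul, ← hCP, ← mul_assoc, hSC, one_mul]
  set M := Pmᵀ * Pm.map σ
  have hMh : Mᵀ.map σ = M := by
    simp only [M, Matrix.transpose_mul, Matrix.transpose_transpose, Matrix.map_mul, Matrix.transpose_map, hmm]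
  have hform : ∀ u v, (∀ i, σ (u i) = u i) → (∀ i, σ (v i) = v i) →
      matForm σ 1 (Pm *ᵥ u) (Pm *ᵥ v) = ∑ i, ∑ j, u i * M i j * v j := by
    intro u v _ hv
    rw [matForm_apply, mul_one]
    simp only [matForm, dotProduct, Matrix.mulVec, Finset.mul_sum, M]
    exact Finset.sum_congr rfl fun i _ => Finset.sum_congr rfl fun j _ => by rw [hv j]; ring
  have hsub : H ≤ subfieldSubgroup (fixedBy σ) P := by
    intro g hg
    set gm := (g : Matrix (Fin n) (Fin n) F)
    obtain ⟨μ, hμ0, hμ⟩ := hsim g hg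
    have hgu : gmᵀ * gm.map σ = 1 := by
      have := u_matrix hF (hI hg)
      rwa [mul_one] at this
    have htw : C * gm.map σ = μ⁻¹ • (gm * C) := by
      have e1 : gm.map σ = μ⁻¹ • (Sm * gm * C) := by
        have e2 : μ • gm.map σ = Sm * gm * C := by
          have e3 : gm.map σ * gmᵀ = 1 := mul_eq_one_comm.mp hgu
          calc μ • gm.map σ = gm.map σ * (μ • Sm) * C := by
                rw [Matrix.mul_smul, Matrix.smul_mul, mul_assoc, hSC, mul_one]
            _ = (gm.map σ * gmᵀ) * Sm * gm * C := by rw [← hμ]; simp only [gm, mul_assoc]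
            _ = _ := by rw [e3, one_mul]
        rw [← e2, smul_smul, inv_mul_cancel₀ hμ0, one_smul]
      rw [e1, Matrix.mul_smul, ← mul_assoc, ← mul_assoc, hCS, one_mul]
    have he : μ⁻¹ * σ μ⁻¹ = 1 := by
      have e := congrArg (fun X : Matrix (Fin n) (Fin n) F => C * X.map σ) htw
      simp only [Matrix.map_mul, hmm, hsmap] at e
      rw [← mul_assoc, hlam, Matrix.smul_mul, one_mul, Matrix.mul_smul, ← mul_assoc C, htw, Matrix.smul_mul, mul_assoc, hlam,
        Matrix.mul_smul, mul_one, smul_smul, smul_smul] at e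
      have hlam0 : lam ≠ 0 := by
        intro h0
        rw [h0, zero_smul] at hlam
        have : IsUnit (C * C.map σ).det := by
          rw [Matrix.det_mul]
          refine ((Matrix.isUnit_iff_isUnit_det _).mp (S⁻¹).isUnit).mul ?_
          rw [show (C.map σ).det = σ C.det from (RingEquiv.map_det σ _).symm]
          exact ((Matrix.isUnit_iff_isUnit_det _).mp (S⁻¹).isUnit).map σ.toRingHom
        rw [hlam, Matrix.det_zero] at this
        exact this.ne_zero rfl
      have hg0 : gm ≠ 0 := g.ne_zero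
      have h1 : (σ μ⁻¹ * μ⁻¹ * lam - lam) • gm = 0 := by rw [sub_smul, ← e, sub_self]
      have h2 := (smul_eq_zero.mp h1).resolve_right hg0
      have h3 : (μ⁻¹ * σ μ⁻¹ - 1) * lam = 0 := by linear_combination h2
      exact sub_eq_zero.mp ((mul_eq_zero.mp h3).resolve_right hlam0)
    obtain ⟨t, ht0, ht⟩ := exists_quot hσ hinv (c := μ) (by
      have h4 : μ * σ μ * (μ⁻¹ * σ μ⁻¹) = 1 := by
        rw [map_inv₀]
        have := (map_ne_zero σ).mpr hμ0
        field_simp
      rwa [he, mul_one] at h4)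
    have hmemT : t • gm ∈ T := by
      show C * (t • gm).map σ = t • gm * C
      rw [hsmap, Matrix.mul_smul, htw, smul_smul, Matrix.smul_mul, ht, mul_comm μ t, mul_assoc, mul_inv_cancel₀ hμ0, mul_one]
    let z : GL (Fin n) F := Units.map (Matrix.scalar (Fin n) : F →+* Matrix (Fin n) (Fin n) F).toMonoidHom (Units.mk0 t ht0)
    have hz : (z : Matrix (Fin n) (Fin n) F) = t • 1 := (Matrix.smul_one_eq_diagonal t).symm
    have hy := mem_range_of_entries (F₁ := fixedBy σ) (g := P⁻¹ * (z * g) * P) fun i j => by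
      rw [Units.val_mul, Units.val_mul, Units.val_mul, hz, Matrix.smul_mul, one_mul]
      exact hP _ hmemT i j
    refine ⟨P⁻¹ * (z * g) * P * z⁻¹, mul_mem (Subgroup.mem_sup_left hy) (Subgroup.mem_sup_right (inv_mem ⟨_, rfl⟩)), ?_⟩
    have hzc : ∀ y, z * y = y * z := fun y => scalars_comm ⟨_, rfl⟩ y
    show P * (P⁻¹ * (z * g) * P * z⁻¹) * P⁻¹ = g
    have hzc' : ∀ y, z⁻¹ * y = y * z⁻¹ := fun y => scalars_comm (inv_mem ⟨_, rfl⟩) y
    calc P * (P⁻¹ * (z * g) * P * z⁻¹) * P⁻¹ = z * g * P * (z⁻¹ * P⁻¹) := by group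
      _ = z * g * P * (P⁻¹ * z⁻¹) := by rw [hzc']
      _ = z * g * z⁻¹ := by group
      _ = g := by rw [hzc g, mul_inv_cancel_right]
  have hcard := card_fixedBy_sq hσ hinv
  rcases hsym with ⟨hs, hq⟩ | ⟨hs, hdiag⟩
  · refine ⟨subfieldSubgroup (fixedBy σ) P ⊓ Cfsg.GU n F q, u_partial_of ?_, le_inf hsub hI⟩
    iterate 5 right
    left
    refine ⟨fixedBy σ, P, hq, hcard, fun u v hu hv => ?_, rfl⟩
    rw [one_mul, herm_eq hF, hform u v (fun i => hu i) (fun i => hv i)]
    have hMs : Mᵀ = M := by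
      simp only [M, hPσ, Matrix.mul_smul, Matrix.transpose_smul, Matrix.transpose_mul, Matrix.transpose_transpose, hs, mul_assoc]
    have hM : ∀ i j, M i j ∈ fixedBy σ := fun i j => by
      have := congrFun (congrFun hMh i) j
      rwa [Matrix.map_apply, hMs] at this
    exact Subfield.sum_mem _ fun i _ => Subfield.sum_mem _ fun j _ => mul_mem (mul_mem (hu i) (hM i j)) (hv j)
  · obtain ⟨ζ, hζ0, hζ⟩ := exists_quot hσ hinv (c := -1) (by rw [map_neg, map_one]; ring)
    have hskew : Mᵀ = -M := by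
      simp only [M, hPσ, Matrix.mul_smul, Matrix.transpose_smul, Matrix.transpose_mul, Matrix.transpose_transpose, hs,
        mul_assoc, Matrix.neg_mul, Matrix.mul_neg, smul_neg]
    have hM : ∀ i j, ζ * M i j ∈ fixedBy σ := fun i j => by
      have := congrFun (congrFun hMh i) j
      rw [Matrix.map_apply, hskew, Matrix.neg_apply, map_neg] at this
      rw [mem_fixedBy, map_mul, hζ]
      linear_combination ζ * this
    have halt : ∀ w : Fin n → F, w ⬝ᵥ (Sm *ᵥ w) = 0 := fun w => Asch.alt_self hs hdiag w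
    refine ⟨subfieldSubgroup (fixedBy σ) P ⊓ Cfsg.GU n F q, u_partial_of ?_, le_inf hsub hI⟩
    iterate 6 right
    left
    refine ⟨fixedBy σ, P, ζ, ?_, hcard, hζ0, ?_, fun u v hu hv => ?_, fun u hu => ?_, rfl⟩
    · refine Asch.even_of_alternating (f := matForm (RingEquiv.refl F) Sm) ⟨⟨fun x y v => mf_add_left x y v,
        fun c x v => mf_smul_left c x v, fun v x y => mf_add_right v x y, fun c v x => by rw [mf_smul_right]; rfl⟩,
        fun v w => ?_, halt, nondeg_matForm ((Matrix.isUnit_iff_isUnit_det _).mp S.isUnit)⟩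
      show v ⬝ᵥ (Sm *ᵥ w) = -(w ⬝ᵥ (Sm *ᵥ v))
      rw [Matrix.dotProduct_mulVec v, dotProduct_comm, ← Matrix.mulVec_transpose, hs, Matrix.neg_mulVec, dotProduct_neg]
    · rw [← sig_apply hF]; show ζ + σ ζ = 0; rw [hζ]; ring
    · rw [herm_eq hF, hform u v (fun i => hu i) (fun i => hv i), Finset.mul_sum]
      refine Subfield.sum_mem _ fun i _ => ?_
      rw [Finset.mul_sum]
      refine Subfield.sum_mem _ fun j _ => ?_
      rw [show ζ * (u i * M i j * v j) = u i * (ζ * M i j) * v j by ring]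
      exact mul_mem (mul_mem (hu i) (hM i j)) (hv j)
    · rw [herm_eq hF]
      show (Pm *ᵥ u) ⬝ᵥ ((1 : Matrix (Fin n) (Fin n) F) *ᵥ fun i => σ ((Pm *ᵥ u) i)) = 0
      rw [Matrix.one_mulVec, mulVec_twist, show (fun i => σ (u i)) = u from funext fun i => hu i, hPσ, Matrix.smul_mulVec,
        dotProduct_smul, ← Matrix.mulVec_mulVec, halt, smul_zero]

end Cfsg.Agent.GeomClasses.AschRel
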