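import Cfsg.Agent.GeomClasses.Aschbacher.Rel.USubfield
import Cfsg.Agent.GeomClasses.Aschbacher.Rel.USymp
import Cfsg.Agent.GeomClasses.Aschbacher.Rel.FullCard
import Mathlib.GroupTheory.SpecificGroups.Cyclic

/-! # The abelian socle case in unitary groups -/

set_option autoImplicit false
set_option maxHeartbeats 400000

namespace Cfsg.Agent.GeomClasses.AschRel

open Matrix Cfsg.Geo
open scoped commutatorElement

variable {F : Type*} [Field F] [Fintype F] {n q : ℕ}
variable (hF : Fintype.card F = q ^ 2)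
include hF

/-- The abelian case: the normaliser of a group of symplectic type. -/
theorem u_abelian {H M : Subgroup (GL (Fin n) F)} (hI : H ≤ Cfsg.GU n F q) (hn : 3 ≤ n)
    (hZM : scalars (Fin n) F ≤ M) (hMK : M ≤ H ⊔ scalars (Fin n) F) (hMn : NormalisedBy (H ⊔ scalars (Fin n) F) M)
    (hmin : ∀ N, NormalisedBy (H ⊔ scalars (Fin n) F) N → scalars (Fin n) F ≤ N → N ≤ M → N = scalars (Fin n) F ∨ N = M)
    (hfull : ∀ N, N ≤ H ⊔ scalars (Fin n) F → NormalisedBy (H ⊔ scalars (Fin n) F) N → ¬ N ≤ scalars (Fin n) F → Full N)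
    (hMnZ : ¬ M ≤ scalars (Fin n) F) (hab : ⁅M, M⁆ ≤ scalars (Fin n) F) : GoodU q H := by
  classical
  haveI : Nonempty (Fin n) := ⟨⟨0, by omega⟩⟩
  haveI : Nontrivial (Fin n) := Fin.nontrivial_iff_two_le.mpr (by omega)
  set Z := scalars (Fin n) F
  set K := H ⊔ Z
  have hMZ : M ≠ Z := fun h => hMnZ h.le
  obtain ⟨r, R, hD, hRM⟩ := Asch.exists_stData_le hn (K := K) hMn hZM hMZ hmin
    (fun N hNM hN hNZ => hfull N (hNM.trans hMK) hN hNZ) hab
  set z := r * Nat.gcd 2 r with hzdef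
  have hRn : NormalisedBy K R := hD.norm
  have hRK : R ≤ K := hRM.trans hMK
  have htw : ∀ a ∈ R, ∀ b ∈ R, ⁅a, b⁆ ∈ Z := hD.twist
  have hR : Full R := hD.full
  have hsim : ∀ x ∈ R, IsSim (sig hF) 1 x := fun x hx => u_sim_sup hF hI x (hRK hx)
  set X := R ⊓ Cfsg.GU n F q
  have hXn : ∀ g ∈ H, ∀ x ∈ X, g * x * g⁻¹ ∈ X := fun g hg x hx =>
    ⟨hRn g (Subgroup.mem_sup_left hg) x hx.1,
      (Cfsg.GU n F q).mul_mem ((Cfsg.GU n F q).mul_mem (hI hg) hx.2) ((Cfsg.GU n F q).inv_mem (hI hg))⟩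
  have hXKn : NormalisedBy K X := by
    intro g hg x hx
    refine ⟨hRn g hg x hx.1, ?_⟩
    rw [← SetLike.mem_coe, Subgroup.mul_normal] at hg
    obtain ⟨a, ha, s, hs, rfl⟩ := hg
    rw [show a * s * x * (a * s)⁻¹ = a * (s * x * s⁻¹) * a⁻¹ by group, scalars_comm hs x, mul_inv_cancel_right]
    exact (Cfsg.GU n F q).mul_mem ((Cfsg.GU n F q).mul_mem (hI ha) hx.2) ((Cfsg.GU n F q).inv_mem (hI ha))
  obtain ⟨u₀, v₀, huv⟩ : ∃ u v, matForm (sig hF) (1 : Matrix (Fin n) (Fin n) F) u v ≠ 0 :=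
    ⟨Pi.single ⟨0, by omega⟩ 1, Pi.single ⟨0, by omega⟩ 1, by rw [matForm_single]; simp⟩
  have hXZ : ¬ X ≤ Z := by
    intro hle
    choose μ hμ0 hμ using fun x : R => hsim x x.2
    let f : R →* Fˣ := MonoidHom.mk' (fun x => Units.mk0 (μ x) (hμ0 x)) fun x y => Units.ext (by
      show μ (x * y) = μ x * μ y
      have e := hμ (x * y) u₀ v₀
      rw [Subgroup.coe_mul, Units.val_mul, ← Matrix.mulVec_mulVec, ← Matrix.mulVec_mulVec, hμ, hμ, ← mul_assoc] at e
      exact (mul_right_cancel₀ huv e).symm)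
    have hker : f.ker ≤ Subgroup.center R := by
      intro x hx
      rw [center_iff hR]
      refine hle ⟨x.2, fun u v => ?_⟩
      have h1 : μ x = 1 := congrArg Units.val (MonoidHom.mem_ker.mp hx)
      rw [herm_eq hF]
      exact (hμ x u v).trans (by rw [h1, one_mul])
    exact exists_two_commute_false hR fun a ha b hb =>
      congrArg Subtype.val (commutative_of_cyclic_center_quotient f hker ⟨a, ha⟩ ⟨b, hb⟩)
  have hX : Full X := hfull X (inf_le_left.trans hRK) hXKn hXZ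
  obtain ⟨w, -, hQ, hrep⟩ := full_basis hR htw
  obtain ⟨p, hpc⟩ := CharP.exists F
  haveI := hpc
  haveI : Fact p.Prime := ⟨CharP.char_is_prime F p⟩
  obtain ⟨e, hp, hcard⟩ := FiniteField.card F p
  have hrp : r ≠ p := by
    rintro rfl
    exact hD.ne_zero (CharP.cast_eq_zero F r)
  haveI : Fact r.Prime := ⟨hD.prime⟩
  have hzodd : r ≠ 2 → z = r := fun h2 => by
    rw [hzdef, show Nat.gcd 2 r = 1 from (Nat.coprime_primes Nat.prime_two hD.prime).mpr (Ne.symm h2), mul_one]
  have hq2 : r = 2 → Odd q := by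
    rintro rfl
    by_contra hq
    have hFe : ¬ Odd (Fintype.card F) := by
      rw [hF]; exact Nat.not_odd_iff_even.mpr ((Nat.not_odd_iff_even.mp hq).pow_of_ne_zero two_ne_zero)
    exact hD.ne_zero (by exact_mod_cast char_two_of_even hFe)
  have hz : z ∣ Fintype.card F - 1 := by
    by_cases h2 : r = 2
    · obtain ⟨s, hs⟩ := hq2 h2
      subst h2
      rw [hzdef, hF, hs]
      exact ⟨s * s + s, by rw [Nat.sub_eq_of_eq_add]; ring_nf⟩
    · rw [hzodd h2]; exact hD.dvd
  have hzr : z = r ^ (if r = 2 then 2 else 1) := by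
    by_cases h2 : r = 2
    · rw [if_pos h2, hzdef, h2]; rfl
    · rw [if_neg h2, pow_one, hzodd h2]
  have hcenter : ∀ x : R, x ∈ Subgroup.center R ↔ ∃ u : Fˣ, u ^ z = 1 ∧ Asch.sc u = (x : GL (Fin n) F) := by
    intro x
    rw [center_iff hR]
    constructor
    · intro hx
      obtain ⟨u, hu⟩ := Asch.exists_sc hx
      exact ⟨u, Asch.sc_injective (n := n) (by rw [map_pow, hu, hD.pow x x.2, map_one]), hu⟩
    · rintro ⟨u, -, hu⟩; rw [← hu]; exact Asch.sc_mem u
  have hcardZ : Nat.card (Subgroup.center R) = z := by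
    let T := (powMonoidHom z : Fˣ →* Fˣ).ker
    have hT : Nat.card T = z := by
      rw [IsCyclic.card_powMonoidHom_ker, Nat.card_eq_fintype_card, Fintype.card_units, Nat.gcd_eq_right hz]
    refine Eq.trans (Nat.card_congr (Equiv.ofBijective (fun u : T => (⟨⟨Asch.sc (u : Fˣ), hD.scal _ u.2⟩,
      (hcenter _).mpr ⟨u, u.2, rfl⟩⟩ : Subgroup.center R)) ⟨fun u v h => ?_, fun y => ?_⟩)).symm hT
    · exact Subtype.ext (Asch.sc_injective (n := n) (congrArg (fun y : Subgroup.center R => ((y : R) : GL (Fin n) F)) h))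
    · obtain ⟨u, hu, hu'⟩ := (hcenter y.1).mp y.2
      exact ⟨⟨u, hu⟩, Subtype.ext (Subtype.ext hu')⟩
  have hpg : IsPGroup r R := fun x => ⟨_, Subtype.ext (by
    rw [← hzr, SubmonoidClass.coe_pow, hD.pow x x.2]; rfl)⟩
  obtain ⟨j, hj⟩ := IsPGroup.iff_card.mp hpg
  have hcardR : Nat.card R = n * n * z := by
    rw [Subgroup.card_eq_card_quotient_mul_card_subgroup (Subgroup.center R), hQ, hcardZ, Fintype.card_fin]
  obtain ⟨k, -, hk⟩ := (Nat.dvd_prime_pow hD.prime).mp (show n ∣ r ^ j by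
    rw [← hj, hcardR]; exact Dvd.dvd.mul_right (dvd_mul_right _ _) z)
  by_cases hsmall : ∃ d, 0 < d ∧ d < (e : ℕ) ∧ z ∣ p ^ d - 1
  · obtain ⟨d, hd0, hde, hdz⟩ := hsmall
    let F₀ := fixedBy (iterateFrobeniusEquiv F p d)
    have hF₀ : F₀ ≠ ⊤ := by
      intro h
      obtain ⟨g, hg⟩ := IsCyclic.exists_generator (α := Fˣ)
      have hgd : g ^ (p ^ d - 1) = 1 := by
        have h1 : iterateFrobeniusEquiv F p d (g : F) = g := (show (g : F) ∈ F₀ by rw [h]; trivial)
        rw [iterateFrobeniusEquiv_def] at h1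
        refine Units.ext ?_
        rw [Units.val_pow_eq_pow_val, Units.val_one]
        refine mul_right_cancel₀ g.ne_zero ?_
        rw [one_mul, ← pow_succ, Nat.sub_add_cancel (Nat.one_le_pow _ _ (Fact.out : p.Prime).pos), h1]
      have h2 := orderOf_dvd_of_pow_eq_one hgd
      rw [orderOf_eq_card_of_forall_mem_zpowers hg, Nat.card_eq_fintype_card, Fintype.card_units, hcard] at h2
      have h3 := Nat.le_of_dvd (by
        have := Nat.one_lt_pow hd0.ne' (Fact.out : p.Prime).one_lt; omega) h2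
      have := Nat.pow_lt_pow_right (Fact.out : p.Prime).one_lt hde
      have := Nat.one_le_pow d p (Fact.out : p.Prime).pos
      omega
    haveI : Fintype (R ⧸ Subgroup.center R) := Fintype.ofFinite _
    refine u_subfield hF hI (by omega) hX inf_le_right hXn hF₀
      (realisable_of_small_span hX w (by rw [← Nat.card_eq_fintype_card, hQ]) ?_)
    rintro _ ⟨x, hx, rfl⟩
    obtain ⟨u, ⟨c, hc, hcu⟩, ex⟩ := hrep ⟨x, hx.1⟩
    show (x : Matrix (Fin n) (Fin n) F) ∈ Submodule.span _ _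
    rw [show (x : Matrix (Fin n) (Fin n) F) = _ from ex]
    have hu : (u : F) ∈ F₀ := by
      obtain ⟨u', hu', hu''⟩ := (hcenter c).mp hc
      have huu : u' = u := Units.ext (by
        have := congrArg (fun g : GL (Fin n) F => g.val ⟨0, by omega⟩ ⟨0, by omega⟩) hu''
        simp only [hcu, Asch.sc_val, Matrix.smul_apply, Matrix.one_apply_eq, smul_eq_mul, mul_one] at this
        exact this)
      subst huu
      show iterateFrobeniusEquiv F p d (u' : F) = u'
      rw [iterateFrobeniusEquiv_def]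
      obtain ⟨t, ht⟩ := hdz
      rw [← Nat.sub_add_cancel (Nat.one_le_pow d p (Fact.out : p.Prime).pos), ht, pow_succ, pow_mul,
        ← Units.val_pow_eq_pow_val, hu', Units.val_one, one_pow, one_mul]
    exact Submodule.smul_mem _ (⟨u, hu⟩ : F₀) (Submodule.subset_span ⟨_, rfl⟩)
  push_neg at hsmall
  have hminf : IsMinimalFieldFor (Nat.card (Subgroup.center R)) p e F := by
    rw [hcardZ]
    exact ⟨Fact.out, hpc, hcard, by rw [← hcard]; exact hz, fun d hd0 hde => hsmall d hd0 hde⟩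
  refine ⟨subgroupNormalizer R ⊓ Cfsg.GU n F q, u_partial_of ?_, le_inf (fun g hg => ?_) hI⟩
  · iterate 7 right
    refine ⟨r, R, p, e, k, Asch.STData.symplecticType hRn hD, hR.absIrred, fun x hx => ?_, hrp, hminf, ?_, rfl⟩
    · obtain ⟨c, hc0, hc⟩ := hsim x hx
      exact ⟨Units.mk0 c hc0, fun u v => by rw [herm_eq hF]; exact hc u v⟩
    by_cases h2 : r = 2
    · right
      have hz4 : z = 4 := by rw [hzr, if_pos h2, h2]; rfl
      refine ⟨h2, ?_, hcardZ.trans hz4, by rw [hcardR, hz4, hk, h2]; ring⟩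
      obtain ⟨f, -, hf⟩ := (Nat.dvd_prime_pow (Fact.out : p.Prime)).mp (show q ∣ p ^ (e : ℕ) by
        rw [← hcard, hF]; exact dvd_pow_self q two_ne_zero)
      have he : (e : ℕ) = f * 2 := Nat.pow_right_injective (Fact.out : p.Prime).two_le (by
        show p ^ (e : ℕ) = p ^ (f * 2)
        rw [← hcard, hF, hf, pow_mul])
      by_contra hne
      have hf2 : 2 ≤ f := by have := e.pos; omega
      obtain ⟨s, hs⟩ : Odd p := by
        rcases (Fact.out : p.Prime).eq_two_or_odd' with h | h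
        · exact absurd (h2.trans h.symm) hrp
        · exact h
      exact hsmall 2 two_pos (by omega) ⟨s * s + s, by rw [hz4, hs, Nat.sub_eq_of_eq_add]; ring⟩
    · left
      refine ⟨(hD.prime.eq_two_or_odd'.resolve_left h2), hcardZ.trans (hzodd h2), ?_, by rw [hcardR, hzodd h2, hk]; ring⟩
      rcases Nat.eq_zero_or_pos k with rfl | h
      · simp at hk; omega
      · exact h
  · have hnormH : ∀ g ∈ H, ∀ x ∈ R, g * x * g⁻¹ ∈ R := fun g hg => hRn g (Subgroup.mem_sup_left hg)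
    refine Subgroup.mem_normalizer_iff.mpr fun x => ⟨fun hx => hnormH g hg x hx, fun hx => ?_⟩
    have := hnormH g⁻¹ (inv_mem hg) _ hx
    simpa [mul_assoc] using this

end Cfsg.Agent.GeomClasses.AschRel
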