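import Cfsg.Agent.GeomClasses.Aschbacher.Rel.U
import Cfsg.Agent.GeomClasses.Aschbacher.Rel.Tools

/-! # The normal subgroup of order 27 in the unitary group of degree three over four elements -/

set_option autoImplicit false
set_option maxHeartbeats 400000

namespace Cfsg.Agent.GeomClasses.AschRel

open Matrix Cfsg.Geo
open scoped commutatorElement

variable {F : Type*} [Field F] [Fintype F]

theorem gu_iff_matrix {n q : ℕ} (hF : Fintype.card F = q ^ 2) (g : GL (Fin n) F) :
    g ∈ Cfsg.GU n F q ↔ (g : Matrix (Fin n) (Fin n) F)ᵀ * (g : Matrix (Fin n) (Fin n) F).map (sig hF) = 1 := by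
  constructor
  · intro hg
    have := u_matrix hF hg
    rwa [mul_one] at this
  · intro h u v
    have e := matForm_apply (sig hF) 1 (g : Matrix (Fin n) (Fin n) F) u v
    rw [mul_one, h] at e
    rw [herm_eq hF]
    exact e

variable (hF : Fintype.card F = 2 ^ 2)
include hF

theorem four_cube {x : F} (hx : x ≠ 0) : x ^ 3 = 1 := by
  have := FiniteField.pow_card_sub_one_eq_one x hx
  rwa [hF, show (2 ^ 2 - 1 : ℕ) = 3 from rfl] at this

theorem four_two : (2 : F) = 0 := by
  have h := FiniteField.cast_card_eq_zero F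
  rw [hF] at h
  push_cast at h
  exact (pow_eq_zero_iff two_ne_zero).mp (show (2 : F) ^ 2 = 0 by linear_combination h)

theorem four_omega : ∃ ω : F, ω ^ 2 + ω + 1 = 0 := by
  classical
  obtain ⟨x, hx⟩ : ∃ x : F, x ∉ ({0, 1} : Finset F) := by
    by_contra h
    push_neg at h
    have h1 := Finset.card_le_card (show (Finset.univ : Finset F) ⊆ {0, 1} from fun x _ => h x)
    rw [Finset.card_univ, hF] at h1
    have := (Finset.card_insert_le (0 : F) {1})
    simp at this h1

  simp at hx
  refine ⟨x, ?_⟩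
  have h3 := four_cube hF hx.1
  exact (mul_eq_zero.mp (show (x - 1) * (x ^ 2 + x + 1) = 0 by linear_combination h3)).resolve_left (sub_ne_zero.mpr hx.2)

variable {ω : F} (hω : ω ^ 2 + ω + 1 = 0)
include hω

omit hF [Fintype F] in
theorem om_cube : ω ^ 3 = 1 := by linear_combination (ω - 1) * hω

omit hF [Fintype F] in
theorem om_ne_zero : ω ≠ 0 := by rintro rfl; simp at hω

theorem om_ne_one : ω ≠ 1 := by
  rintro rfl
  have h := four_two hF
  exact one_ne_zero (α := F) (by linear_combination hω - h)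

theorem four_cases {x : F} (hx : x ≠ 0) : x = 1 ∨ x = ω ∨ x = ω ^ 2 := by
  have h3 := four_cube hF hx
  have : (x - 1) * ((x - ω) * (x - ω ^ 2)) = 0 := by
    linear_combination h3 + (x - x ^ 2) * hω + (x - 1) * om_cube hω
  rcases mul_eq_zero.mp this with h | h
  · exact Or.inl (sub_eq_zero.mp h)
  · rcases mul_eq_zero.mp h with h | h
    · exact Or.inr (Or.inl (sub_eq_zero.mp h))
    · exact Or.inr (Or.inr (sub_eq_zero.mp h))

omit hF [Fintype F] in
/-- The diagonal generator. -/
def cD : GL (Fin 3) F :=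
  ⟨Matrix.diagonal ![1, ω, ω ^ 2], Matrix.diagonal ![1, ω ^ 2, ω],
    by rw [Matrix.diagonal_mul_diagonal, ← Matrix.diagonal_one]; congr 1; funext i; fin_cases i <;> simp <;>
      linear_combination om_cube hω,
    by rw [Matrix.diagonal_mul_diagonal, ← Matrix.diagonal_one]; congr 1; funext i; fin_cases i <;> simp <;>
      linear_combination om_cube hω⟩

omit hF [Fintype F] in
/-- The cyclic generator. -/
def cP (_h : ω ^ 2 + ω + 1 = 0) : GL (Fin 3) F :=
  ⟨!![0, 1, 0; 0, 0, 1; 1, 0, 0], !![0, 0, 1; 1, 0, 0; 0, 1, 0],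
    by ext i j; fin_cases i <;> fin_cases j <;> simp [Matrix.mul_apply, Fin.sum_univ_three],
    by ext i j; fin_cases i <;> fin_cases j <;> simp [Matrix.mul_apply, Fin.sum_univ_three]⟩

/-- An element moving one generator to the other. -/
def cV : GL (Fin 3) F :=
  ⟨!![1, 1, 1; 1, ω, ω ^ 2; 1, ω ^ 2, ω], !![1, 1, 1; 1, ω ^ 2, ω; 1, ω, ω ^ 2],
    by
      have h2 := four_two hF
      have h3 := om_cube hω
      ext i j; fin_cases i <;> fin_cases j <;> simp [Matrix.mul_apply, Fin.sum_univ_three] <;>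
        first
        | linear_combination h2
        | linear_combination hω
        | linear_combination 2 * h3 + h2
        | linear_combination hω + ω * h3,
    by
      have h2 := four_two hF
      have h3 := om_cube hω
      ext i j; fin_cases i <;> fin_cases j <;> simp [Matrix.mul_apply, Fin.sum_univ_three] <;>
        first
        | linear_combination h2
        | linear_combination hω
        | linear_combination 2 * h3 + h2
        | linear_combination hω + ω * h3⟩

omit hF [Fintype F] in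
/-- A diagonal element separating. -/
def cE : GL (Fin 3) F :=
  ⟨Matrix.diagonal ![1, 1, ω], Matrix.diagonal ![1, 1, ω ^ 2],
    by rw [Matrix.diagonal_mul_diagonal, ← Matrix.diagonal_one]; congr 1; funext i; fin_cases i <;> simp <;>
      linear_combination om_cube hω,
    by rw [Matrix.diagonal_mul_diagonal, ← Matrix.diagonal_one]; congr 1; funext i; fin_cases i <;> simp <;>
      linear_combination om_cube hω⟩

omit hF [Fintype F] in
/-- The normal subgroup. -/
def R3 : Subgroup (GL (Fin 3) F) := Subgroup.closure {cD hω, cP hω}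

theorem cD_GU : cD hω ∈ Cfsg.GU 3 F 2 := by
  rw [gu_iff_matrix hF]
  show (Matrix.diagonal ![1, ω, ω ^ 2])ᵀ * _ = 1
  ext i j
  fin_cases i <;> fin_cases j <;> simp [cD, Matrix.mul_apply, sig_apply, Fin.sum_univ_three] <;>
    first
    | linear_combination om_cube hω
    | linear_combination (ω ^ 3 + 1) * om_cube hω

theorem cP_GU : cP hω ∈ Cfsg.GU 3 F 2 := by
  rw [gu_iff_matrix hF]
  ext i j
  fin_cases i <;> fin_cases j <;> simp [cP, Matrix.mul_apply, sig_apply, Fin.sum_univ_three]

theorem cE_GU : cE hω ∈ Cfsg.GU 3 F 2 := by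
  rw [gu_iff_matrix hF]
  ext i j
  fin_cases i <;> fin_cases j <;> simp [cE, Matrix.mul_apply, sig_apply, Fin.sum_univ_three] <;>
    linear_combination om_cube hω

theorem cV_GU : cV hF hω ∈ Cfsg.GU 3 F 2 := by
  have h2 := four_two hF
  have h3 := om_cube hω
  rw [gu_iff_matrix hF]
  ext i j
  fin_cases i <;> fin_cases j <;> simp [cV, Matrix.mul_apply, sig_apply, Fin.sum_univ_three] <;>
    first
    | linear_combination h2
    | linear_combination hω
    | linear_combination hω + ω * h3
    | linear_combination (ω ^ 3 + 2) * h3 + h2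
    | linear_combination hω + (ω ^ 2 + ω) * h3

theorem r3_le_GU : R3 hω ≤ Cfsg.GU 3 F 2 :=
  (Subgroup.closure_le _).mpr (by rintro x (rfl | rfl); exacts [cD_GU hF hω, cP_GU hF hω])

omit hF [Fintype F] in
theorem r3_det {x : GL (Fin 3) F} (hx : x ∈ R3 hω) : (x : Matrix (Fin 3) (Fin 3) F).det = 1 := by
  have h : R3 hω ≤ (Matrix.GeneralLinearGroup.det (n := Fin 3) (R := F)).ker := (Subgroup.closure_le _).mpr (by
    rintro x (rfl | rfl) <;> refine MonoidHom.mem_ker.mpr (Units.ext ?_)
    · show (Matrix.diagonal ![1, ω, ω ^ 2]).det = 1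
      rw [Matrix.det_diagonal, Fin.prod_univ_three]
      simp
      linear_combination om_cube hω
    · show (!![0, 1, 0; 0, 0, 1; 1, 0, 0] : Matrix (Fin 3) (Fin 3) F).det = 1
      simp [Matrix.det_fin_three])
  exact congrArg Units.val (MonoidHom.mem_ker.mp (h hx))

omit hF [Fintype F] in
theorem cD_mem : cD hω ∈ R3 hω := Subgroup.subset_closure (Or.inl rfl)

omit hF [Fintype F] in
theorem cP_mem : cP hω ∈ R3 hω := Subgroup.subset_closure (Or.inr rfl)

theorem r3_diag {a b c : F} (habc : a * b * c = 1) {g : GL (Fin 3) F}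
    (hg : (g : Matrix (Fin 3) (Fin 3) F) = Matrix.diagonal ![a, b, c]) : g ∈ R3 hω := by
  have ha : a ≠ 0 := fun h => by simp [h] at habc
  have hb : b ≠ 0 := fun h => by simp [h] at habc
  let z : GL (Fin 3) F := ⁅cD hω, cP hω⁆
  have hz : (z : Matrix (Fin 3) (Fin 3) F) = ω ^ 2 • 1 := by
    show Matrix.diagonal ![1, ω, ω ^ 2] * !![0, 1, 0; 0, 0, 1; 1, 0, 0] * Matrix.diagonal ![1, ω ^ 2, ω] *
      !![0, 0, 1; 1, 0, 0; 0, 1, 0] = _
    ext i j
    fin_cases i <;> fin_cases j <;> simp [Matrix.mul_apply, Fin.sum_univ_three] <;>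
      first | ring1 | linear_combination om_cube hω | linear_combination -(om_cube hω)
  have hzm : z ∈ R3 hω := mul_mem (mul_mem (mul_mem (cD_mem hω) (cP_mem hω)) (inv_mem (cD_mem hω))) (inv_mem (cP_mem hω))
  have hsc : ∀ u : F, u ≠ 0 → ∃ x ∈ R3 hω, (x : Matrix (Fin 3) (Fin 3) F) = u • 1 := fun u hu => by
    rcases four_cases hF hω hu with rfl | rfl | rfl
    · exact ⟨1, one_mem _, by simp⟩
    · refine ⟨z * z, mul_mem hzm hzm, ?_⟩
      rw [Units.val_mul, hz, Matrix.smul_mul, one_mul, smul_smul]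
      congr 1; linear_combination u * om_cube hω
    · exact ⟨z, hzm, hz⟩
  have hdg : ∀ t : F, t ≠ 0 → ∃ x ∈ R3 hω, (x : Matrix (Fin 3) (Fin 3) F) = Matrix.diagonal ![1, t, t ^ 2] := fun t ht => by
    rcases four_cases hF hω ht with rfl | rfl | rfl
    · refine ⟨1, one_mem _, ?_⟩
      rw [Units.val_one, ← Matrix.diagonal_one]; congr 1; funext i; fin_cases i <;> simp
    · exact ⟨cD hω, cD_mem hω, rfl⟩
    · refine ⟨cD hω * cD hω, mul_mem (cD_mem hω) (cD_mem hω), ?_⟩
      show Matrix.diagonal ![1, ω, ω ^ 2] * Matrix.diagonal ![1, ω, ω ^ 2] = _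
      rw [Matrix.diagonal_mul_diagonal]; congr 1; funext i; fin_cases i <;> simp <;> ring
  obtain ⟨x, hx, ex⟩ := hsc a ha
  obtain ⟨y, hy, ey⟩ := hdg (b * a⁻¹) (mul_ne_zero hb (inv_ne_zero ha))
  rw [show g = x * y from Units.ext (by
    rw [Units.val_mul, ex, ey, hg, Matrix.smul_mul, one_mul, ← Matrix.diagonal_smul]
    congr 1
    funext i
    fin_cases i <;> simp
    · field_simp
    · have hc : c = (a * b)⁻¹ := eq_inv_of_mul_eq_one_right habc
      rw [hc]
      field_simp
      linear_combination -(four_cube hF hb))]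
  exact mul_mem hx hy

theorem gu_three_inv {g : GL (Fin 3) F} (hg : g ∈ Cfsg.GU 3 F 2) :
    (g⁻¹ : GL (Fin 3) F).val = (g : Matrix (Fin 3) (Fin 3) F)ᵀ.map (sig hF) := by
  rw [Matrix.coe_units_inv]
  refine Matrix.inv_eq_right_inv ?_
  have h1 := mul_eq_one_comm.mp ((gu_iff_matrix hF g).mp hg)
  have h2 := congrArg (fun Y : Matrix (Fin 3) (Fin 3) F => Y.map (sig hF)) h1
  simp only [Matrix.map_mul, Matrix.map_one _ (map_zero (sig hF)) (map_one (sig hF))] at h2
  rwa [show ((g : Matrix (Fin 3) (Fin 3) F).map (sig hF)).map (sig hF) = (g : Matrix (Fin 3) (Fin 3) F) from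
    Matrix.ext fun i j => sig_invol hF _] at h2

theorem gu_three_rows {g : GL (Fin 3) F} (hg : g ∈ Cfsg.GU 3 F 2) (i j : Fin 3) :
    g.val i 0 * g.val j 0 ^ 2 + g.val i 1 * g.val j 1 ^ 2 + g.val i 2 * g.val j 2 ^ 2 = if i = j then 1 else 0 := by
  have h := congrFun (congrFun (show (g : Matrix (Fin 3) (Fin 3) F) * (g⁻¹ : GL (Fin 3) F).val = 1 by simp) i) j
  rw [gu_three_inv hF hω hg, Matrix.mul_apply, Fin.sum_univ_three, Matrix.one_apply] at h
  simpa [sig_apply] using h

theorem cP_eq : cV hF hω * cD hω * (cV hF hω)⁻¹ = cP hω := by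
  have h2 := four_two hF
  have h3 := om_cube hω
  rw [mul_inv_eq_iff_eq_mul]
  refine Units.ext ?_
  rw [Units.val_mul, Units.val_mul]
  ext i j
  fin_cases i <;> fin_cases j <;> simp [cV, cD, cP, Matrix.mul_apply, Fin.sum_univ_three] <;>
    first
    | ring1
    | linear_combination h3
    | linear_combination ω * h3

theorem r3_conj_cD {g : GL (Fin 3) F} (hg : g ∈ Cfsg.GU 3 F 2) : g * cD hω * g⁻¹ ∈ R3 hω := by
  classical
  set x := g * cD hω * g⁻¹
  have hx : x ∈ Cfsg.GU 3 F 2 := mul_mem (mul_mem hg (cD_GU hF hω)) (inv_mem hg)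
  set M := (x : Matrix (Fin 3) (Fin 3) F)
  have hM : ∀ i j, M i j = g.val i 0 * g.val j 0 ^ 2 + ω * (g.val i 1 * g.val j 1 ^ 2) +
      ω ^ 2 * (g.val i 2 * g.val j 2 ^ 2) := fun i j => by
    simp only [M, x, Units.val_mul, gu_three_inv hF hω hg, Matrix.mul_apply, Fin.sum_univ_three]
    simp [cD, sig_apply]
    ring
  have hdet : M.det = 1 := by
    have h1 : Matrix.GeneralLinearGroup.det x = Matrix.GeneralLinearGroup.det (cD hω) := by
      simp only [x, map_mul, map_inv]
      rw [mul_comm, inv_mul_cancel_left]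
    have := congrArg Units.val h1
    exact this.trans (r3_det hω (cD_mem hω))
  have h2 := four_two hF
  have hR := gu_three_rows hF hω hg
  by_cases hz : ∃ i k, g.val i k = 0
  · have hrow : ∀ i, (∃ k, g.val i k = 0) → ∃ k₀, g.val i k₀ ≠ 0 ∧ ∀ k, k ≠ k₀ → g.val i k = 0 := by
      rintro i ⟨k, hk⟩
      have e := hR i i
      rw [if_pos rfl] at e
      have e3 : ∀ y : F, y ≠ 0 → y * y ^ 2 = 1 := fun y hy => by rw [← four_cube hF hy]; ring
      fin_cases k <;> simp at hk
      · by_cases h1 : g.val i 1 = 0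
        · refine ⟨2, fun h => ?_, fun k hk' => by fin_cases k <;> simp_all⟩
          rw [hk, h1, h] at e; simp at e
        · refine ⟨1, h1, fun k hk' => ?_⟩
          by_cases h0 : g.val i 2 = 0
          · fin_cases k <;> simp_all
          · rw [hk, e3 _ h1, e3 _ h0] at e
            exact absurd (show (1 : F) = 0 by linear_combination h2 - e) one_ne_zero
      · by_cases h1 : g.val i 0 = 0
        · refine ⟨2, fun h => ?_, fun k hk' => by fin_cases k <;> simp_all⟩
          rw [hk, h1, h] at e; simp at e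
        · refine ⟨0, h1, fun k hk' => ?_⟩
          by_cases h0 : g.val i 2 = 0
          · fin_cases k <;> simp_all
          · rw [hk, e3 _ h1, e3 _ h0] at e
            exact absurd (show (1 : F) = 0 by linear_combination h2 - e) one_ne_zero
      · by_cases h1 : g.val i 1 = 0
        · refine ⟨0, fun h => ?_, fun k hk' => by fin_cases k <;> simp_all⟩
          rw [hk, h1, h] at e; simp at e
        · refine ⟨1, h1, fun k hk' => ?_⟩
          by_cases h0 : g.val i 0 = 0
          · fin_cases k <;> simp_all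
          · rw [hk, e3 _ h1, e3 _ h0] at e
            exact absurd (show (1 : F) = 0 by linear_combination h2 - e) one_ne_zero
    obtain ⟨i₀, k₀, hik⟩ := hz
    obtain ⟨l₀, hl₀, hl⟩ := hrow i₀ ⟨k₀, hik⟩
    have hall : ∀ i, ∃ k, g.val i k = 0 := by
      intro i
      by_cases hi : i = i₀
      · exact ⟨k₀, hi ▸ hik⟩
      refine ⟨l₀, ?_⟩
      have e := hR i₀ i
      rw [if_neg (Ne.symm hi)] at e
      fin_cases l₀ <;> simp_all
    have hoff : ∀ i j, i ≠ j → M i j = 0 := by
      intro i j hij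
      obtain ⟨k, hk, hk'⟩ := hrow i (hall i)
      have e := hR i j
      rw [if_neg hij] at e
      rw [hM]
      fin_cases k <;> simp_all
    refine r3_diag hF hω (a := M 0 0) (b := M 1 1) (c := M 2 2) ?_ (Matrix.ext fun i j => ?_)
    · rw [Matrix.det_fin_three, hoff 0 1 (by decide), hoff 0 2 (by decide), hoff 1 0 (by decide), hoff 1 2 (by decide),
        hoff 2 0 (by decide), hoff 2 1 (by decide)] at hdet
      linear_combination hdet
    · fin_cases i <;> fin_cases j <;> simp <;> first | rfl | (apply hoff; decide)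
  push_neg at hz
  have hd0 : ∀ i, M i i = 0 := fun i => by
    rw [hM]
    have e3 : ∀ k, g.val i k * g.val i k ^ 2 = 1 := fun k => by rw [← four_cube hF (hz i k)]; ring
    rw [e3, e3, e3]
    linear_combination hω
  have hRM := gu_three_rows hF hω hx
  have e00 := hRM 0 0
  have e01 := hRM 0 1
  have e02 := hRM 0 2
  have e12 := hRM 1 2
  have e11 := hRM 1 1
  have e22 := hRM 2 2
  simp only [show x.val = M from rfl, hd0, mul_zero, zero_mul, add_zero, zero_add, zero_pow two_ne_zero] at e00 e01 e02 e12 e11 e22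
  simp at e00 e01 e02 e12 e11 e22
  by_cases h01 : M 0 1 = 0
  · have h02 : M 0 2 ≠ 0 := fun h => by simp [h01, h] at e00
    have h12 : M 1 2 = 0 := by simpa [h02] using e01
    have h10 : M 1 0 ≠ 0 := fun h => by simp [h12, h] at e11
    have h20 : M 2 0 = 0 := by simpa [h10] using e12
    rw [Matrix.det_fin_three, hd0, hd0, hd0, h01, h12, h20] at hdet
    let y : GL (Fin 3) F := x * (cP hω * cP hω)⁻¹
    have hy : y ∈ R3 hω := r3_diag hF hω (a := M 0 2) (b := M 1 0) (c := M 2 1) (by linear_combination hdet) (by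
      show M * ((cP hω * cP hω)⁻¹ : GL (Fin 3) F).val = _
      rw [_root_.mul_inv_rev, Units.val_mul]
      ext i j
      fin_cases i <;> fin_cases j <;> simp [cP, Matrix.mul_apply, Fin.sum_univ_three, hd0, h01, h12, h20])
    have := mul_mem hy (mul_mem (cP_mem hω) (cP_mem hω))
    simp only [y, inv_mul_cancel_right] at this
    exact this
  · have h21 : M 2 1 = 0 := by simpa [h01] using e02
    have h20 : M 2 0 ≠ 0 := fun h => by simp [h21, h] at e22
    have h10 : M 1 0 = 0 := by simpa [h20] using e12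
    have h12 : M 1 2 ≠ 0 := fun h => by simp [h10, h] at e11
    have h02 : M 0 2 = 0 := by simpa [h12] using e01
    rw [Matrix.det_fin_three, hd0, hd0, hd0, h02, h10, h21] at hdet
    let y : GL (Fin 3) F := x * (cP hω)⁻¹
    have hy : y ∈ R3 hω := r3_diag hF hω (a := M 0 1) (b := M 1 2) (c := M 2 0) (by linear_combination hdet) (by
      show M * ((cP hω)⁻¹ : GL (Fin 3) F).val = _
      ext i j
      fin_cases i <;> fin_cases j <;> simp [cP, Matrix.mul_apply, Fin.sum_univ_three, hd0, h02, h10, h21])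
    have := mul_mem hy (cP_mem hω)
    simpa [y] using this

theorem r3_normal {g : GL (Fin 3) F} (hg : g ∈ Cfsg.GU 3 F 2) {x : GL (Fin 3) F} (hx : x ∈ R3 hω) :
    g * x * g⁻¹ ∈ R3 hω := by
  induction hx using Subgroup.closure_induction with
  | mem y hy =>
    rcases hy with rfl | rfl
    · exact r3_conj_cD hF hω hg
    · have := r3_conj_cD hF hω (mul_mem hg (cV_GU hF hω))
      rwa [← cP_eq hF hω, show g * (cV hF hω * cD hω * (cV hF hω)⁻¹) * g⁻¹ =
        g * cV hF hω * cD hω * (g * cV hF hω)⁻¹ by group]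
  | one => simp
  | mul a b _ _ ha hb => rw [show g * (a * b) * g⁻¹ = g * a * g⁻¹ * (g * b * g⁻¹) by group]; exact mul_mem ha hb
  | inv a _ ha => rw [show g * a⁻¹ * g⁻¹ = (g * a * g⁻¹)⁻¹ by group]; exact inv_mem ha

theorem r3_comm {x y : GL (Fin 3) F} (hx : x ∈ R3 hω) (hy : y ∈ R3 hω) : ⁅x, y⁆ ∈ scalars (Fin 3) F := by
  have hg : ∀ a b, a ∈ ({cD hω, cP hω} : Set (GL (Fin 3) F)) → b ∈ ({cD hω, cP hω} : Set (GL (Fin 3) F)) →
      Commute (QuotientGroup.mk' (scalars (Fin 3) F) a) (QuotientGroup.mk' (scalars (Fin 3) F) b) := by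
    have key : Commute (QuotientGroup.mk' (scalars (Fin 3) F) (cD hω)) (QuotientGroup.mk' (scalars (Fin 3) F) (cP hω)) := by
      refine commutatorElement_eq_one_iff_commute.mp ?_
      rw [← map_commutatorElement]
      refine (QuotientGroup.eq_one_iff _).mpr ((mem_scalars_iff _).mpr ⟨Units.mk0 (ω ^ 2) (pow_ne_zero _ (om_ne_zero hω)), ?_⟩)
      show Matrix.diagonal ![1, ω, ω ^ 2] * !![0, 1, 0; 0, 0, 1; 1, 0, 0] * Matrix.diagonal ![1, ω ^ 2, ω] *
        !![0, 0, 1; 1, 0, 0; 0, 1, 0] = _
      ext i j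
      fin_cases i <;> fin_cases j <;> simp [Matrix.mul_apply, Fin.sum_univ_three] <;>
        first | ring1 | linear_combination om_cube hω | linear_combination -(om_cube hω)
    rintro a b (rfl | rfl) (rfl | rfl)
    exacts [Commute.refl _, key, key.symm, Commute.refl _]
  have h1 : ∀ a ∈ ({cD hω, cP hω} : Set (GL (Fin 3) F)),
      Commute (QuotientGroup.mk' (scalars (Fin 3) F) a) (QuotientGroup.mk' (scalars (Fin 3) F) y) := by
    intro a ha
    induction hy using Subgroup.closure_induction with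
    | mem b hb => exact hg a b ha hb
    | one => rw [map_one]; exact Commute.one_right _
    | mul b c _ _ hb hc => rw [map_mul]; exact hb.mul_right hc
    | inv b _ hb => rw [map_inv]; exact hb.inv_right
  have h2 : Commute (QuotientGroup.mk' (scalars (Fin 3) F) x) (QuotientGroup.mk' (scalars (Fin 3) F) y) := by
    induction hx using Subgroup.closure_induction with
    | mem a ha => exact h1 a ha
    | one => rw [map_one]; exact Commute.one_left _
    | mul b c _ _ hb hc => rw [map_mul]; exact hb.mul_left hc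
    | inv b _ hb => rw [map_inv]; exact hb.inv_left
  refine (QuotientGroup.eq_one_iff _).mp ?_
  rw [← QuotientGroup.mk'_apply, map_commutatorElement]
  exact commutatorElement_eq_one_iff_commute.mpr h2

theorem scalar_cube {z : GL (Fin 3) F} (hz : z ∈ scalars (Fin 3) F) : z ^ 3 = 1 := by
  obtain ⟨c, hc⟩ := (mem_scalars_iff z).mp hz
  refine Units.ext ?_
  rw [Units.val_pow_eq_pow_val, hc, smul_pow, one_pow, four_cube hF c.ne_zero, one_smul, Units.val_one]

theorem r3_cube {x : GL (Fin 3) F} (hx : x ∈ R3 hω) : x ^ 3 = 1 := by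
  induction hx using Subgroup.closure_induction with
  | mem y hy =>
    refine Units.ext ?_
    rw [Units.val_pow_eq_pow_val, Units.val_one, pow_succ, pow_two]
    rcases hy with rfl | rfl
    · show Matrix.diagonal ![1, ω, ω ^ 2] * Matrix.diagonal ![1, ω, ω ^ 2] * Matrix.diagonal ![1, ω, ω ^ 2] = 1
      rw [Matrix.diagonal_mul_diagonal, Matrix.diagonal_mul_diagonal, ← Matrix.diagonal_one]
      congr 1
      funext i
      fin_cases i <;> simp <;> first | linear_combination om_cube hω | linear_combination (ω ^ 3 + 1) * om_cube hω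
    · ext i j; fin_cases i <;> fin_cases j <;> simp [cP, Matrix.mul_apply, Fin.sum_univ_three]
  | one => simp
  | mul a b ha hb iha ihb =>
    have hc := r3_comm hF hω hb ha
    set z := ⁅b, a⁆ with hz
    have hcen : ∀ t, z * t = t * z := fun t => scalars_comm hc t
    have hba : ∀ t, b * (a * t) = z * (a * (b * t)) := fun t => by
      rw [hz, commutatorElement_def]; group
    have hza : ∀ u t, u * (z * t) = z * (u * t) := fun u t => by rw [← mul_assoc, ← hcen, mul_assoc]
    calc (a * b) ^ 3 = a * (b * (a * (b * (a * (b * 1))))) := by simp only [pow_succ, pow_zero, one_mul, mul_one, mul_assoc]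
      _ = z ^ 3 * (a ^ 3 * b ^ 3) := by
          simp only [hba, hza, pow_succ, pow_zero, one_mul, mul_one, mul_assoc]
      _ = 1 := by rw [iha, ihb, scalar_cube hF hω hc, one_mul, one_mul]
  | inv a _ ha => rw [inv_pow, ha, inv_one]

theorem r3_full : Full (R3 hω) := by
  set S := Submodule.span F (matrixSet (R3 hω))
  have hm : ∀ x ∈ R3 hω, (x : Matrix (Fin 3) (Fin 3) F) ∈ S := fun x hx => Submodule.subset_span ⟨x, hx, rfl⟩
  have h2 := four_two hF
  have h3 := om_cube hω
  have hD : ∀ (v : Fin 3 → F) (y : GL (Fin 3) F), y ∈ R3 hω → Matrix.diagonal v * (y : Matrix (Fin 3) (Fin 3) F) ∈ S := by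
    intro v y hy
    have e : Matrix.diagonal v = (v 0 + v 1 + v 2) • (1 : Matrix (Fin 3) (Fin 3) F) +
        (v 0 + ω ^ 2 * v 1 + ω * v 2) • Matrix.diagonal ![1, ω, ω ^ 2] +
        (v 0 + ω * v 1 + ω ^ 2 * v 2) • (Matrix.diagonal ![1, ω, ω ^ 2] * Matrix.diagonal ![1, ω, ω ^ 2]) := by
      rw [Matrix.diagonal_mul_diagonal]
      ext i j
      fin_cases i <;> fin_cases j <;> simp
      · linear_combination -(v 1) * hω - (v 2) * hω - v 0 * h2
      · linear_combination -(v 0) * hω - v 1 * (2 * h3 + h2) - v 2 * (hω + ω * h3)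
      · linear_combination -(v 0) * (hω + ω * h3) - v 1 * (hω + (ω ^ 2 + ω) * h3) - v 2 * ((ω ^ 3 + 2) * h3 + h2)
    rw [e, Matrix.add_mul, Matrix.add_mul, Matrix.smul_mul, Matrix.smul_mul, Matrix.smul_mul, one_mul]
    refine add_mem (add_mem (S.smul_mem _ (hm y hy)) (S.smul_mem _ ?_)) (S.smul_mem _ ?_)
    · exact hm _ (mul_mem (cD_mem hω) hy)
    · exact hm _ (mul_mem (mul_mem (cD_mem hω) (cD_mem hω)) hy)
  refine eq_top_iff.mpr fun X _ => ?_
  have e : X = Matrix.diagonal ![X 0 0, X 1 1, X 2 2] * ((1 : GL (Fin 3) F) : Matrix (Fin 3) (Fin 3) F) +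
      Matrix.diagonal ![X 0 1, X 1 2, X 2 0] * (cP hω : Matrix (Fin 3) (Fin 3) F) +
      Matrix.diagonal ![X 0 2, X 1 0, X 2 1] * ((cP hω * cP hω : GL (Fin 3) F) : Matrix (Fin 3) (Fin 3) F) := by
    rw [Units.val_mul, Units.val_one]
    ext i j
    fin_cases i <;> fin_cases j <;> simp [cP, Matrix.mul_apply, Fin.sum_univ_three]
  rw [e]
  exact add_mem (add_mem (hD _ _ (one_mem _)) (hD _ _ (cP_mem hω))) (hD _ _ (mul_mem (cP_mem hω) (cP_mem hω)))

omit hF [Fintype F] in
theorem commute_cD_diag {u : GL (Fin 3) F} (h : u * cD hω = cD hω * u) (h1 : ω ≠ 1) (i j : Fin 3) (hij : i ≠ j) :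
    u.val i j = 0 := by
  have e := congrFun (congrFun (congrArg (fun z : GL (Fin 3) F => (z : Matrix (Fin 3) (Fin 3) F)) h) i) j
  simp only [Units.val_mul] at e
  rw [show (cD hω : GL (Fin 3) F).val = Matrix.diagonal ![1, ω, ω ^ 2] from rfl, Matrix.mul_diagonal, Matrix.diagonal_mul] at e
  have hd : (![1, ω, ω ^ 2] : Fin 3 → F) j - ![1, ω, ω ^ 2] i ≠ 0 := by
    have h0 := om_ne_zero hω
    have h2 : ω * ω ≠ 1 := fun e2 => h1 (by linear_combination om_cube hω - ω * e2)
    fin_cases i <;> fin_cases j <;> simp [sub_ne_zero, h1, h1.symm, h2, h2.symm, pow_two, h0] at hij ⊢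
  exact (mul_eq_zero.mp (show u.val i j * ((![1, ω, ω ^ 2] : Fin 3 → F) j - ![1, ω, ω ^ 2] i) = 0 by
    linear_combination e)).resolve_right hd

/-- No abelian subgroup normalised by the unitary group contains enough commutators. -/
theorem r3_no_abelian (U : Subgroup (GL (Fin 3) F)) (hU : U ≤ R3 hω)
    (hn : ∀ g ∈ Cfsg.GU 3 F 2, ∀ u ∈ U, g * u * g⁻¹ ∈ U) (hab : ∀ u ∈ U, ∀ v ∈ U, u * v = v * u)
    {a : GL (Fin 3) F} (ha : a ∈ R3 hω) (hans : a ∉ scalars (Fin 3) F)
    (hcom : ∀ g ∈ Cfsg.GU 3 F 2, g * a * g⁻¹ * a⁻¹ ∈ U) : False := by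
  classical
  have hω1 := om_ne_one hF hω
  set D := cD hω
  set E := cE hω
  set V := cV hF hω
  have hV0 : ∀ i j, V.val i j ≠ 0 := fun i j => by
    fin_cases i <;> fin_cases j <;> simp [V, cV, om_ne_zero hω]
  have hVdiag : ∀ w : GL (Fin 3) F, (∀ i j, i ≠ j → w.val i j = 0) → (∀ i j, i ≠ j → (V * w * V⁻¹).val i j = 0) →
      w ∈ scalars (Fin 3) F := by
    intro w hw hy
    set y := V * w * V⁻¹
    have e : V * w = y * V := by simp [y]
    have hent : ∀ i j, w.val j j = y.val i i := fun i j => by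
      have e' := congrFun (congrFun (congrArg (fun z : GL (Fin 3) F => (z : Matrix (Fin 3) (Fin 3) F)) e) i) j
      simp only [Units.val_mul, Matrix.mul_apply] at e'
      rw [Finset.sum_eq_single j (fun b _ hb => by rw [hw b j hb, mul_zero]) (by simp),
        Finset.sum_eq_single i (fun b _ hb => by rw [hy i b (Ne.symm hb), zero_mul]) (by simp)] at e'
      exact mul_left_cancel₀ (hV0 i j) (by rw [e', mul_comm])
    have hne : w.val 0 0 ≠ 0 := by
      intro h0
      refine (Matrix.isUnit_iff_isUnit_det _).mp w.isUnit |>.ne_zero (Matrix.det_eq_zero_of_row_eq_zero 0 fun j => ?_)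
      by_cases hj : (0 : Fin 3) = j
      · subst hj; exact h0
      · exact hw 0 j hj
    refine (mem_scalars_iff w).mpr ⟨Units.mk0 _ hne, ?_⟩
    ext i j
    by_cases hij : i = j
    · subst hij; simp [hent 0 i, hent 0 0]
    · simp [hw i j hij, Matrix.one_apply_ne hij]
  -- a diagonal nonscalar member
  have hmk : ∀ u ∈ R3 hω, ¬ u * D = D * u → E * u * E⁻¹ * u⁻¹ ∈ U →
      ∃ w ∈ U, (∀ i j, i ≠ j → w.val i j = 0) ∧ w ∉ scalars (Fin 3) F := by
    intro u hu hud hw
    refine ⟨_, hw, commute_cD_diag hω ?_ hω1, fun hws => ?_⟩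
    · have hz := r3_comm hF hω hu (cD_mem hω)
      have hED : E * D = D * E := by
        refine Units.ext ?_
        rw [Units.val_mul, Units.val_mul]
        show Matrix.diagonal ![1, 1, ω] * Matrix.diagonal ![1, ω, ω ^ 2] = _ * _
        rw [show E.val = Matrix.diagonal ![1, 1, ω] from rfl, show D.val = Matrix.diagonal ![1, ω, ω ^ 2] from rfl,
          Matrix.diagonal_mul_diagonal, Matrix.diagonal_mul_diagonal]
        congr 1; funext i; ring
      set z := ⁅u, D⁆ with hzdef
      have hzc := fun t => scalars_comm hz t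
      have huD : u * D = z * D * u := by rw [hzdef, commutatorElement_def]; group
      have huD' : u⁻¹ * D = z⁻¹ * D * u⁻¹ := by
        have h1 : D * u = z⁻¹ * (u * D) := by rw [huD, mul_assoc z, inv_mul_cancel_left]
        calc u⁻¹ * D = u⁻¹ * (D * u) * u⁻¹ := by group
          _ = u⁻¹ * (z⁻¹ * u) * D * u⁻¹ := by rw [h1]; group
          _ = _ := by rw [scalars_comm (inv_mem hz) u]; group
      have hE1 : E⁻¹ * D = D * E⁻¹ := by
        calc E⁻¹ * D = E⁻¹ * (D * E) * E⁻¹ := by group
          _ = _ := by rw [← hED]; group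
      calc E * u * E⁻¹ * u⁻¹ * D = E * u * E⁻¹ * (z⁻¹ * D * u⁻¹) := by rw [← huD']; group
        _ = E * u * (E⁻¹ * z⁻¹) * D * u⁻¹ := by group
        _ = E * (u * z⁻¹) * (E⁻¹ * D) * u⁻¹ := by rw [← scalars_comm (inv_mem hz) E⁻¹]; group
        _ = E * (z⁻¹ * (u * D)) * E⁻¹ * u⁻¹ := by rw [hE1, ← scalars_comm (inv_mem hz) u]; group
        _ = (E * D) * u * E⁻¹ * u⁻¹ := by rw [huD, mul_assoc z, inv_mul_cancel_left]; group
        _ = _ := by rw [hED]; simp only [D]; group
    obtain ⟨k, hk⟩ := (mem_scalars_iff _).mp hws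
    have e : (E * u).val = (k : F) • (u * E).val := by
      rw [show E * u = (E * u * E⁻¹ * u⁻¹) * (u * E) by group, Units.val_mul, hk, Matrix.smul_mul, one_mul]
    have hij : ∀ i j, (![1, 1, ω] : Fin 3 → F) i * u.val i j = (k : F) * (u.val i j * ![1, 1, ω] j) := fun i j => by
      have := congrFun (congrFun e i) j
      rwa [Units.val_mul, Units.val_mul, Matrix.smul_apply, show E.val = Matrix.diagonal ![1, 1, ω] from rfl,
        Matrix.diagonal_mul, Matrix.mul_diagonal] at this
    obtain ⟨c, hc⟩ := (mem_scalars_iff _).mp (r3_comm hF hω hu (cD_mem hω))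
    have hc1 : (c : F) ≠ 1 := fun h => hud (by
      rw [h, one_smul] at hc
      exact commutatorElement_eq_one_iff_mul_comm.mp (Units.ext hc))
    have hcu : (u * D).val = (c : F) • (D * u).val := by
      rw [show u * D = ⁅u, D⁆ * (D * u) by rw [commutatorElement_def]; group, Units.val_mul, hc, Matrix.smul_mul, one_mul]
    have hdiag : ∀ i, u.val i i = 0 := fun i => by
      have := congrFun (congrFun hcu i) i
      rw [Units.val_mul, Units.val_mul, Matrix.smul_apply, show D.val = Matrix.diagonal ![1, ω, ω ^ 2] from rfl,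
        Matrix.diagonal_mul, Matrix.mul_diagonal, smul_eq_mul] at this
      have hd : (![1, ω, ω ^ 2] : Fin 3 → F) i ≠ 0 := by fin_cases i <;> simp [om_ne_zero hω]
      exact (mul_eq_zero.mp (show u.val i i * ((![1, ω, ω ^ 2] : Fin 3 → F) i * (1 - c)) = 0 by
        linear_combination this)).resolve_right (mul_ne_zero hd (sub_ne_zero.mpr (Ne.symm hc1)))
    have hrow : ∀ i, ∃ j, j ≠ i ∧ u.val i j ≠ 0 := fun i => by
      by_contra h
      push_neg at h
      refine ((Matrix.isUnit_iff_isUnit_det _).mp u.isUnit).ne_zero (Matrix.det_eq_zero_of_row_eq_zero i fun j => ?_)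
      by_cases hj : j = i
      · subst hj; exact hdiag j
      · exact h j hj
    obtain ⟨j₂, hj₂, hu₂⟩ := hrow 2
    have hk1 : (k : F) = ω := by
      have := hij 2 j₂
      fin_cases j₂ <;> simp at this hj₂ hu₂ <;>
        exact (this.resolve_right hu₂).symm
    obtain ⟨j₀, hj₀, hu₀⟩ := hrow 0
    have := hij 0 j₀
    rw [hk1] at this
    fin_cases j₀ <;> simp at this hj₀ hu₀
    · exact hω1 (mul_right_cancel₀ hu₀ (by linear_combination -this))
    · have h := mul_right_cancel₀ hu₀ (show (ω * ω) * _ = 1 * _ by linear_combination -this)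
      exact hω1 (by linear_combination om_cube hω - ω * h)
  obtain ⟨w, hwU, hwd, hwns⟩ : ∃ w ∈ U, (∀ i j, i ≠ j → w.val i j = 0) ∧ w ∉ scalars (Fin 3) F := by
    by_cases had : a * D = D * a
    · have hdiag := commute_cD_diag hω had hω1
      set y := V * a * V⁻¹ * a⁻¹
      have hyU : y ∈ U := hcom V (cV_GU hF hω)
      refine hmk y (hU hyU) (fun hyd => hans (hVdiag a hdiag fun i j hij => ?_))
        (mul_mem (hn E (cE_GU hF hω) y hyU) (inv_mem hyU))
      rw [show V * a * V⁻¹ = y * a by simp [y], Units.val_mul, Matrix.mul_apply,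
        Finset.sum_eq_single j (fun b _ hb => by rw [hdiag b j hb, mul_zero]) (by simp),
        commute_cD_diag hω hyd hω1 i j hij, zero_mul]
    · exact hmk a ha had (hcom E (cE_GU hF hω))
  refine hwns (hVdiag w hwd fun i j hij => ?_)
  have hc := hab w hwU _ (hn V (cV_GU hF hω) w hwU)
  have e := congrFun (congrFun (congrArg (fun z : GL (Fin 3) F => (z : Matrix (Fin 3) (Fin 3) F)) hc) i) j
  simp only [Units.val_mul w, Units.val_mul _ w] at e
  rw [Matrix.mul_apply, Matrix.mul_apply,
    Finset.sum_eq_single i (fun b _ hb => by rw [hwd i b (Ne.symm hb), zero_mul]) (by simp),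
    Finset.sum_eq_single j (fun b _ hb => by rw [hwd b j hb, mul_zero]) (by simp)] at e
  have hdet := r3_det hω (hU hwU)
  rw [Matrix.det_fin_three, hwd 0 1 (by decide), hwd 0 2 (by decide), hwd 1 0 (by decide), hwd 1 2 (by decide),
    hwd 2 0 (by decide), hwd 2 1 (by decide)] at hdet
  have habc : w.val 0 0 * w.val 1 1 * w.val 2 2 = 1 := by linear_combination hdet
  have hne : ∀ k : Fin 3, w.val k k ≠ 0 := fun k h => by fin_cases k <;> simp at h <;> simp [h] at habc
  have hdist : ∀ k l : Fin 3, k ≠ l → w.val k k ≠ w.val l l := by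
    intro k l hkl h
    refine hwns ((mem_scalars_iff w).mpr ⟨Units.mk0 _ (hne 0), ?_⟩)
    have h3 := fun k => four_cube hF (hne k)
    have : w.val 1 1 = w.val 0 0 ∧ w.val 2 2 = w.val 0 0 := by
      fin_cases k <;> fin_cases l <;> simp at hkl h
      · exact ⟨h.symm, by linear_combination (w.val 0 0) * habc - (w.val 2 2) * h3 0 + (w.val 0 0 ^ 2 * w.val 2 2) * h⟩
      · exact ⟨by linear_combination (w.val 0 0) * habc - (w.val 1 1) * h3 0 + (w.val 0 0 ^ 2 * w.val 1 1) * h, h.symm⟩
      · exact ⟨h, by linear_combination (w.val 0 0) * habc - (w.val 2 2) * h3 0 - (w.val 0 0 ^ 2 * w.val 2 2) * h⟩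
      · have h0 : w.val 0 0 = w.val 1 1 := by
          linear_combination (w.val 1 1) * habc - (w.val 0 0) * h3 1 + (w.val 0 0 * w.val 1 1 ^ 2) * h
        exact ⟨h0.symm, by rw [← h, h0]⟩
      · exact ⟨by linear_combination (w.val 0 0) * habc - (w.val 1 1) * h3 0 - (w.val 0 0 ^ 2 * w.val 1 1) * h, h⟩
      · have h0 : w.val 0 0 = w.val 1 1 := by
          linear_combination (w.val 1 1) * habc - (w.val 0 0) * h3 1 - (w.val 0 0 * w.val 1 1 ^ 2) * h
        exact ⟨h0.symm, by rw [h, h0]⟩
    ext a b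
    by_cases hab' : a = b
    · subst hab'; fin_cases a <;> simp [this.1, this.2]
    · simp [hwd a b hab', Matrix.one_apply_ne hab']
  exact (mul_eq_zero.mp (show (w.val i i - w.val j j) * (V * w * V⁻¹).val i j = 0 by linear_combination e)).resolve_left
    (sub_ne_zero.mpr (hdist i j hij))

end Cfsg.Agent.GeomClasses.AschRel
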