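import Cfsg.Agent.GeomClasses.Aschbacher.Rel.U
import Cfsg.Agent.GeomClasses.Aschbacher.Rel.Pair
import Cfsg.Agent.GeomClasses.Aschbacher.Rel.Wreath
import Cfsg.Agent.GeomClasses.Aschbacher.Rel.Sp

/-! # Tensor decompositions in unitary groups -/

set_option autoImplicit false
set_option maxHeartbeats 400000

namespace Cfsg.Agent.GeomClasses.AschRel

open Matrix Cfsg.Geo
open scoped Kronecker
open Cfsg.Agent.GeomClasses.Asch (Irr tup)

variable {F : Type*} [Field F] [Fintype F] {n q : ℕ}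
variable (hF : Fintype.card F = q ^ 2)
include hF

theorem herm_unitaryPow {d : ℕ} : IsUnitaryFormPow q (Cfsg.hermForm d F q) := by
  rw [herm_eq hF]
  refine ⟨fun x y v => mf_add_left x y v, fun c x v => mf_smul_left c x v, fun v w => ?_,
    nondeg_matForm (uData (n := d) hF).unit⟩
  rw [(uData hF).swap, one_mul, sig_apply]

theorem herm_gram {d : ℕ} : gramMatrix (Cfsg.hermForm d F q) = (1 : Matrix (Fin d) (Fin d) F) := by
  rw [herm_eq hF]
  funext a b
  exact matForm_single _ _ a b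

omit hF [Fintype F] in
theorem sum_prod_perm {t : ℕ} {α : Type*} [Fintype α] (π : Equiv.Perm (Fin t)) (f : Fin t → α → F) :
    ∑ x : Fin t → α, ∏ i, f i (x (π i)) = ∏ i, ∑ u, f i u := by
  classical
  rw [Fintype.prod_sum, ← (Equiv.arrowCongr π (Equiv.refl α)).sum_comp]
  refine Finset.sum_congr rfl fun x _ => Finset.prod_congr rfl fun i _ => ?_
  simp

omit hF [Fintype F] in
theorem det_two_conj (a : Matrix (Fin 2) (Fin 2) F) : aᵀ * !![0, 1; -1, 0] * a = a.det • !![0, 1; -1, 0] := by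
  ext i j
  fin_cases i <;> fin_cases j <;> simp [Matrix.mul_apply, Matrix.det_fin_two, Fin.sum_univ_two] <;> ring

omit [Fintype F] hF in
/-- A transported form with a scalar square. -/
theorem frame_col {κ : Type} [Fintype κ] [DecidableEq κ] (b : Module.Basis κ F (Fin n → F)) (e : Fin n ≃ κ) (i : Fin n) :
    (frameGL b e : Matrix (Fin n) (Fin n) F) *ᵥ Pi.single i 1 = b (e i) := by
  funext l
  rw [Matrix.mulVec_single_one]
  show (Pi.basisFun F (Fin n)).toMatrix (b.reindex e.symm) l i = _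
  simp [Module.Basis.toMatrix_apply]

/-- Permuted factors of equal size. -/
theorem u_power {H : Subgroup (GL (Fin n) F)} (hI : H ≤ Cfsg.GU n F q) (hn : 0 < n) {k t : ℕ} (hk : 2 ≤ k) (ht : 2 ≤ t)
    (hex : ¬ (q = 2 ∧ k = 3))
    (φ : Fin t → (Matrix (Fin k) (Fin k) F →ₐ[F] Module.End F (Fin n → F)))
    (hc : Pairwise fun i j => ∀ X Y, Commute (φ i X) (φ j Y)) (hi : Irr (⋃ i, Set.range (φ i)))
    (hperm : ∀ g ∈ H, ∃ τ : Equiv.Perm (Fin t), ∀ i X,
      (gu g : Module.End F (Fin n → F)) * φ i X * ((gu g)⁻¹).val ∈ Set.range (φ (τ i)))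
    (hG : ∀ i X, st (sig hF) 1 (φ i X) = φ i (stG (sig hF) ((1 : GL (Fin k) F) : Matrix (Fin k) (Fin k) F) X)) :
    GoodU q H := by
  classical
  haveI : Nonempty (Fin n) := ⟨⟨0, hn⟩⟩
  set σ := sig hF
  have hB := uData (n := n) hF
  obtain ⟨b, c, hc0, hb, hBf⟩ := gram_tensor φ hc hB (fun _ => by omega) hi (fun _ => 1) hG
  obtain ⟨e⟩ := finEquiv b
  set Pm := (frameGL b e : Matrix (Fin n) (Fin n) F)
  have hgram : Pmᵀ * Pm.map σ = c • 1 := by
    ext i j
    have h1 := matForm_apply σ (1 : Matrix (Fin n) (Fin n) F) Pm (Pi.single i 1) (Pi.single j 1)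
    rw [frame_col, frame_col, hBf, mul_one, matForm_single] at h1
    rw [← h1]
    by_cases hij : i = j
    · subst hij; simp
    · obtain ⟨l, hl⟩ := Function.ne_iff.mp (fun h => hij (e.injective h))
      rw [Matrix.smul_apply, Matrix.one_apply_ne hij, smul_zero]
      rw [Finset.prod_eq_zero (Finset.mem_univ l) (show ((1 : GL (Fin k) F) : Matrix (Fin k) (Fin k) F) (e i l) (e j l) = 0 by
        rw [Units.val_one, Matrix.one_apply_ne hl]), mul_zero]
  by_cases hk3 : 3 ≤ k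
  · refine ⟨tensorWreathSubgroup k t e (frameGL b e) ⊓ Cfsg.GU n F q, ?_,
      le_inf (le_conj_reindex b e fun g hg => coord_mem_wreath φ hc (by omega) (by omega) hi (hperm g hg) b hb) hI⟩
    right; right; right
    refine ⟨k, t, e, frameGL b e, Cfsg.hermForm k F q, hk3, ht, hex, herm_unitaryPow hF, ⟨c, hc0, fun x y => ?_⟩, rfl⟩
    rw [herm_eq hF, frame_form, herm_gram hF, Finset.mul_sum]
    refine Finset.sum_congr rfl fun u _ => ?_
    rw [Finset.mul_sum]
    refine Finset.sum_congr rfl fun v _ => ?_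
    rw [hBf, sig_apply]
    simp only [Units.val_one]
    ring
  obtain rfl : k = 2 := by omega
  -- two dimensional factors carry an alternating form
  let j2 : Matrix (Fin 2) (Fin 2) F := !![0, 1; -1, 0]
  let J : Matrix (Fin n) (Fin n) F := Matrix.of fun x y => ∏ i, j2 (e x i) (e y i)
  have hjj : j2 * j2 = (-1 : F) • 1 := by ext i j; fin_cases i <;> fin_cases j <;> simp [j2, Matrix.mul_apply]
  have hJJ : J * J = (-1 : F) ^ t • 1 := by
    ext x y
    rw [Matrix.mul_apply, ← e.symm.sum_comp]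
    simp only [J, Matrix.of_apply, Equiv.apply_symm_apply, ← Finset.prod_mul_distrib]
    rw [← Fintype.prod_sum (fun i u => j2 (e x i) u * j2 u (e y i))]
    simp only [← Matrix.mul_apply, hjj]
    by_cases hxy : x = y
    · subst hxy; simp
    · obtain ⟨l, hl⟩ := Function.ne_iff.mp (fun h => hxy (e.injective h))
      rw [Matrix.smul_apply, Matrix.one_apply_ne hxy, smul_zero]
      exact Finset.prod_eq_zero (Finset.mem_univ l) (by rw [Matrix.smul_apply, Matrix.one_apply_ne hl, smul_zero])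
  have hJt : Jᵀ = (-1 : F) ^ t • J := by
    ext x y
    simp only [J, Matrix.transpose_apply, Matrix.of_apply, Matrix.smul_apply, smul_eq_mul]
    rw [show ((-1 : F) ^ t) = ∏ _i : Fin t, (-1 : F) by simp, ← Finset.prod_mul_distrib]
    refine Finset.prod_congr rfl fun i _ => ?_
    generalize e y i = a
    generalize e x i = a'
    fin_cases a <;> fin_cases a' <;> simp [j2]
  have hJd : ∀ x, J x x = 0 := fun x =>
    Finset.prod_eq_zero (Finset.mem_univ (⟨0, by omega⟩ : Fin t)) (by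
      show j2 (e x _) (e x _) = 0
      generalize e x _ = a
      fin_cases a <;> simp [j2])
  have hJσ : J.map σ = J := by
    ext x y
    simp only [J, Matrix.map_apply, Matrix.of_apply, map_prod]
    refine Finset.prod_congr rfl fun i _ => ?_
    generalize e x i = a
    generalize e y i = a'
    fin_cases a <;> fin_cases a' <;> simp [j2]
  have h1t : (-1 : F) ^ t * (-1) ^ t = 1 := by rw [← mul_pow]; simp
  let Jn : GL (Fin n) F := ⟨J, (-1 : F) ^ t • J,
    by rw [Matrix.mul_smul, hJJ, smul_smul, h1t, one_smul],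
    by rw [Matrix.smul_mul, hJJ, smul_smul, h1t, one_smul]⟩
  set Pi' := ((frameGL b e)⁻¹ : GL (Fin n) F).val
  have hPP : Pi' * Pm = 1 := by simp [Pi', Pm]
  have hPP' : Pm * Pi' = 1 := by simp [Pi', Pm]
  let Pt : GL (Fin n) F := ⟨Pi'ᵀ, Pmᵀ, by rw [← Matrix.transpose_mul, hPP', Matrix.transpose_one],
    by rw [← Matrix.transpose_mul, hPP, Matrix.transpose_one]⟩
  let S : GL (Fin n) F := Pt * Jn * (frameGL b e)⁻¹
  have hSm : (S : Matrix (Fin n) (Fin n) F) = Pi'ᵀ * J * Pi' := rfl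
  have hC : (S⁻¹ : GL (Fin n) F).val = Pm * (((-1 : F) ^ t • J) * Pmᵀ) := rfl
  have hSt : (S : Matrix (Fin n) (Fin n) F)ᵀ = (-1 : F) ^ t • (S : Matrix (Fin n) (Fin n) F) := by
    rw [hSm]
    simp only [Matrix.transpose_mul, Matrix.transpose_transpose, hJt, Matrix.mul_smul, Matrix.smul_mul, mul_assoc]
  refine u_twist_form hF hI hn S ?_ (fun g hg => ?_) ?_
  · by_cases hs : Odd q ∧ Even t
    · exact Or.inl ⟨by rw [hSt, hs.2.neg_one_pow, one_smul], hs.1⟩
    have hm1 : (-1 : F) ^ t = -1 := by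
      rcases Nat.even_or_odd t with h | h
      · have hq : ¬ Odd q := fun h' => hs ⟨h', h⟩
        have hFe : ¬ Odd (Fintype.card F) := by
          rw [hF]; exact Nat.not_odd_iff_even.mpr ((Nat.not_odd_iff_even.mp hq).pow_of_ne_zero two_ne_zero)
        rw [h.neg_one_pow]; linear_combination char_two_of_even hFe
      · exact h.neg_one_pow
    refine Or.inr ⟨by rw [hSt, hm1, neg_one_smul], fun i => ?_⟩
    have hJs : Jᵀ = -J := by rw [hJt, hm1, neg_one_smul]
    have h1 := matForm_apply (RingEquiv.refl F) J Pi' (Pi.single i 1) (Pi.single i 1)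
    rw [show Pi'.map (RingEquiv.refl F) = Pi' from Matrix.ext fun _ _ => rfl, matForm_single] at h1
    rw [hSm, ← h1]
    exact Asch.alt_self hJs hJd (Pi' *ᵥ Pi.single i 1)
  · obtain ⟨π, c', a, hc', ha⟩ := coord_wreath φ hc (by omega) hi (hperm g hg) b hb
    refine ⟨c' * c' * ∏ i, (a i : Matrix (Fin 2) (Fin 2) F).det,
      mul_ne_zero (mul_ne_zero hc' hc') (Finset.prod_ne_zero_iff.mpr fun i _ =>
        ((Matrix.isUnit_iff_isUnit_det _).mp (a i).isUnit).ne_zero), ?_⟩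
    set N := (glReindex e.symm (coordGL b g) : GL (Fin n) F)
    have hgN : g = frameGL b e * N * (frameGL b e)⁻¹ := (conj_coord b e g).symm
    have hN : ∀ x y, (N : Matrix (Fin n) (Fin n) F) x y = c' * ∏ i, (a i : Matrix (Fin 2) (Fin 2) F) (e x (π i)) (e y i) :=
      fun x y => by
        show (coordGL b g : Matrix (Fin t → Fin 2) (Fin t → Fin 2) F) (e.symm.symm x) (e.symm.symm y) = _
        rw [Equiv.symm_symm, ha]
    have hNJN : (N : Matrix (Fin n) (Fin n) F)ᵀ * J * (N : Matrix (Fin n) (Fin n) F) =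
        (c' * c' * ∏ i, (a i : Matrix (Fin 2) (Fin 2) F).det) • J := by
      have h1 : ∀ y w, ((N : Matrix (Fin n) (Fin n) F)ᵀ * J) y w =
          c' * ∏ i, ((a i : Matrix (Fin 2) (Fin 2) F)ᵀ * j2) (e y i) (e w (π i)) := by
        intro y w
        rw [Matrix.mul_apply, ← e.symm.sum_comp]
        simp only [Matrix.transpose_apply, hN, J, Matrix.of_apply, Equiv.apply_symm_apply]
        rw [Finset.sum_congr rfl fun x _ => (by
          rw [mul_assoc, ← Equiv.prod_comp π (fun i => j2 (x i) (e w i)), ← Finset.prod_mul_distrib] :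
          c' * (∏ i, (a i : Matrix (Fin 2) (Fin 2) F) (x (π i)) (e y i)) * ∏ i, j2 (x i) (e w i) =
            c' * ∏ i, ((a i : Matrix (Fin 2) (Fin 2) F) (x (π i)) (e y i) * j2 (x (π i)) (e w (π i)))), ← Finset.mul_sum,
          sum_prod_perm π (fun i u => (a i : Matrix (Fin 2) (Fin 2) F) u (e y i) * j2 u (e w (π i)))]
        simp only [Matrix.mul_apply, Matrix.transpose_apply]
      ext y z
      rw [Matrix.mul_apply, ← e.symm.sum_comp]
      simp only [h1, hN, Equiv.apply_symm_apply]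
      rw [Finset.sum_congr rfl fun w _ => (by rw [mul_mul_mul_comm, ← Finset.prod_mul_distrib] :
        c' * (∏ i, ((a i : Matrix (Fin 2) (Fin 2) F)ᵀ * j2) (e y i) (w (π i))) *
          (c' * ∏ i, (a i : Matrix (Fin 2) (Fin 2) F) (w (π i)) (e z i)) =
        c' * c' * ∏ i, (((a i : Matrix (Fin 2) (Fin 2) F)ᵀ * j2) (e y i) (w (π i)) *
          (a i : Matrix (Fin 2) (Fin 2) F) (w (π i)) (e z i))), ← Finset.mul_sum,
        sum_prod_perm π (fun i u => ((a i : Matrix (Fin 2) (Fin 2) F)ᵀ * j2) (e y i) u *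
          (a i : Matrix (Fin 2) (Fin 2) F) u (e z i))]
      simp only [← Matrix.mul_apply, j2, det_two_conj, Matrix.smul_apply, smul_eq_mul, Finset.prod_mul_distrib, J,
        Matrix.of_apply]
      ring
    rw [hgN, hSm]
    simp only [Units.val_mul, Matrix.transpose_mul]
    rw [show (((frameGL b e)⁻¹ : GL (Fin n) F).val) = Pi' from rfl]
    calc Pi'ᵀ * ((N : Matrix (Fin n) (Fin n) F)ᵀ * Pmᵀ) * (Pi'ᵀ * J * Pi') * (Pm * (N : Matrix (Fin n) (Fin n) F) * Pi')
        = Pi'ᵀ * ((N : Matrix (Fin n) (Fin n) F)ᵀ * ((Pi' * Pm)ᵀ * J * (Pi' * Pm)) * (N : Matrix (Fin n) (Fin n) F)) * Pi' := by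
          simp only [Matrix.transpose_mul, mul_assoc]
      _ = _ := by
          rw [hPP, Matrix.transpose_one, one_mul, mul_one, hNJN]
          simp only [Matrix.mul_smul, Matrix.smul_mul]
  · refine ⟨c * σ c * (-1) ^ t, ?_⟩
    have hσt : σ ((-1 : F) ^ t) = (-1) ^ t := by simp
    have hsm : ∀ (a : F) (Y : Matrix (Fin n) (Fin n) F), (a • Y).map σ = σ a • Y.map σ := fun a Y => by ext i j; simp
    have h2 : Pm * (Pmᵀ.map σ) = σ c • 1 := by
      have h3 : (Pmᵀ * Pm.map σ).map σ = (c • (1 : Matrix (Fin n) (Fin n) F)).map σ := by rw [hgram]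
      rw [Matrix.map_mul, hsm, Matrix.map_one _ (map_zero σ) (map_one σ),
        show (Pm.map σ).map σ = Pm from Matrix.ext fun i j => sig_invol hF _] at h3
      have hσc : σ c ≠ 0 := (map_ne_zero σ).mpr hc0
      have h4 : ((σ c)⁻¹ • (Pmᵀ.map σ)) * Pm = 1 := by
        rw [Matrix.smul_mul, h3, smul_smul, inv_mul_cancel₀ hσc, one_smul]
      have h5 := mul_eq_one_comm.mp h4
      rw [Matrix.mul_smul] at h5
      rw [← one_smul F (Pm * Pmᵀ.map σ), ← mul_inv_cancel₀ hσc, mul_smul, h5]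
    rw [hC, Matrix.map_mul, Matrix.map_mul, hsm, hσt, hJσ]
    calc Pm * (((-1 : F) ^ t • J) * Pmᵀ) * (Pm.map σ * (((-1 : F) ^ t • J) * Pmᵀ.map σ))
        = Pm * (((-1 : F) ^ t • J) * (Pmᵀ * Pm.map σ) * (((-1 : F) ^ t • J))) * Pmᵀ.map σ := by simp only [mul_assoc]
      _ = _ := by
          rw [hgram]
          simp only [Matrix.smul_mul, Matrix.mul_smul, mul_one, smul_smul, hJJ, h2]
          congr 1
          linear_combination (c * σ c * (-1 : F) ^ t) * h1t

/-- A pair of tensor factors, apart from one small case. -/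
theorem u_tensor {H : Subgroup (GL (Fin n) F)} (hI : H ≤ Cfsg.GU n F q) (hn : 0 < n)
    {d e : ℕ} (hd : 2 ≤ d) (he : 2 ≤ e) (hex : ¬ (q = 2 ∧ d = 3 ∧ e = 3))
    (φA : Matrix (Fin d) (Fin d) F →ₐ[F] Module.End F (Fin n → F))
    (φC : Matrix (Fin e) (Fin e) F →ₐ[F] Module.End F (Fin n → F)) (hAC : ∀ X Y, Commute (φA X) (φC Y))
    (hirr2 : Irr (Set.range φA ∪ Set.range φC))
    (hA : ∀ g ∈ H ⊔ scalars (Fin n) F, ∀ X, (gu g : Module.End F (Fin n → F)) * φA X * ((gu g)⁻¹).val ∈ Set.range φA)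
    (hC : ∀ g ∈ H ⊔ scalars (Fin n) F, ∀ X, (gu g : Module.End F (Fin n → F)) * φC X * ((gu g)⁻¹).val ∈ Set.range φC)
    (hGA : ∀ X, st (sig hF) 1 (φA X) = φA (stG (sig hF) ((1 : GL (Fin d) F) : Matrix (Fin d) (Fin d) F) X))
    (hGC : ∀ X, st (sig hF) 1 (φC X) = φC (stG (sig hF) ((1 : GL (Fin e) F) : Matrix (Fin e) (Fin e) F) X)) :
    GoodU q H := by
  classical
  haveI : Nonempty (Fin n) := ⟨⟨0, hn⟩⟩
  rcases lt_trichotomy d e with hlt | heq | hlt
  rotate_left
  · subst heq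
    let φ : Fin 2 → (Matrix (Fin d) (Fin d) F →ₐ[F] Module.End F (Fin n → F)) := ![φA, φC]
    refine u_power hF hI hn hd le_rfl (fun h => hex ⟨h.1, h.2, h.2⟩) φ ?_ (fun W hW => hirr2 W fun s hs => hW s <|
      Set.mem_iUnion.mpr <| by
        rcases hs with hs | hs
        · exact ⟨0, hs⟩
        · exact ⟨1, hs⟩) (fun g hg => ⟨1, ?_⟩) ?_
    · intro i j h
      revert h
      revert i j
      simp only [Fin.forall_fin_two]
      exact ⟨⟨fun h => absurd rfl h, fun _ X Y => hAC X Y⟩, ⟨fun _ X Y => (hAC Y X).symm, fun h => absurd rfl h⟩⟩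
    · rw [Fin.forall_fin_two]; exact ⟨hA g (Subgroup.mem_sup_left hg), hC g (Subgroup.mem_sup_left hg)⟩
    · rw [Fin.forall_fin_two]; exact ⟨hGA, hGC⟩
  all_goals
    first
    | exact aux hd hlt φA φC hAC hirr2 hA hC hGA hGC
    | exact aux he hlt φC φA (fun X Y => (hAC Y X).symm) (by rwa [Set.union_comm]) hC hA hGC hGA
where
  aux {n₁ n₂ : ℕ} (h1 : 2 ≤ n₁) (hlt : n₁ < n₂) (ψ : Matrix (Fin n₁) (Fin n₁) F →ₐ[F] Module.End F (Fin n → F))
      (ψ' : Matrix (Fin n₂) (Fin n₂) F →ₐ[F] Module.End F (Fin n → F)) (hAC : ∀ X Y, Commute (ψ X) (ψ' Y))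
      (hirr2 : Irr (Set.range ψ ∪ Set.range ψ'))
      (hA : ∀ g ∈ H ⊔ scalars (Fin n) F, ∀ X, (gu g : Module.End F (Fin n → F)) * ψ X * ((gu g)⁻¹).val ∈ Set.range ψ)
      (hC : ∀ g ∈ H ⊔ scalars (Fin n) F, ∀ X, (gu g : Module.End F (Fin n → F)) * ψ' X * ((gu g)⁻¹).val ∈ Set.range ψ')
      (hGA : ∀ X, st (sig hF) 1 (ψ X) = ψ (stG (sig hF) ((1 : GL (Fin n₁) F) : Matrix (Fin n₁) (Fin n₁) F) X))
      (hGC : ∀ X, st (sig hF) 1 (ψ' X) = ψ' (stG (sig hF) ((1 : GL (Fin n₂) F) : Matrix (Fin n₂) (Fin n₂) F) X)) :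
      GoodU q H := by
    classical
    haveI : Nonempty (Fin n) := ⟨⟨0, hn⟩⟩
    obtain ⟨b, c, hc, hf, hcoord⟩ := pair_frame (uData hF) (K := H ⊔ scalars (Fin n) F) (by omega) (by omega) ψ ψ' hAC
      hirr2 hA hC 1 1 hGA hGC
    obtain ⟨ee⟩ := finEquiv b
    refine ⟨tensorProductSubgroup n₁ n₂ ee (frameGL b ee) ⊓ Cfsg.GU n F q, ?_,
      le_inf (le_conj_reindex b ee fun g hg => ?_) hI⟩
    · right; right; left
      refine ⟨n₁, n₂, ee, frameGL b ee, Cfsg.hermForm n₁ F q, Cfsg.hermForm n₂ F q, h1, hlt, herm_unitaryPow hF,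
        herm_unitaryPow hF, ⟨c, hc, fun x y => ?_⟩, rfl⟩
      rw [herm_eq hF, frame_form, formOfGram, herm_gram hF, herm_gram hF, Finset.mul_sum]
      refine Finset.sum_congr rfl fun u _ => ?_
      rw [Finset.mul_sum]
      refine Finset.sum_congr rfl fun v _ => ?_
      rw [hf, Matrix.kroneckerMap_apply, sig_apply, Units.val_one, Units.val_one]
      ring
    · obtain ⟨c', a, a', hc', ha⟩ := hcoord g (Subgroup.mem_sup_left hg)
      refine ⟨Units.map (algebraMap F (Matrix (Fin n₁) (Fin n₁) F)).toMonoidHom (Units.mk0 c' hc') * a, a', ?_⟩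
      rw [ha, Units.val_mul]
      show _ = (algebraMap F (Matrix (Fin n₁) (Fin n₁) F) c' * (a : Matrix (Fin n₁) (Fin n₁) F)) ⊗ₖ _
      rw [← Algebra.smul_def, Matrix.smul_kronecker]

end Cfsg.Agent.GeomClasses.AschRel
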