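import Cfsg.Agent.GeomClasses.Aschbacher.Rel.UExc3
import Cfsg.Agent.GeomClasses.Aschbacher.Rel.UTensor
import Cfsg.Agent.GeomClasses.Aschbacher.Rel.FullCard

/-! # Two factors of size three over the field with four elements -/

set_option autoImplicit false
set_option maxHeartbeats 400000

namespace Cfsg.Agent.GeomClasses.AschRel

open Matrix Cfsg.Geo
open scoped Kronecker commutatorElement
open Cfsg.Agent.GeomClasses.Asch (Irr)

variable {F : Type*} [Field F] [Fintype F] {n : ℕ}

omit [Fintype F] in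
/-- The Kronecker product of two units. -/
def kronHom : GL (Fin 3) F × GL (Fin 3) F →* GL (Fin 3 × Fin 3) F where
  toFun p := ⟨(p.1 : Matrix (Fin 3) (Fin 3) F) ⊗ₖ (p.2 : Matrix (Fin 3) (Fin 3) F), (p.1⁻¹ : GL (Fin 3) F).val ⊗ₖ (p.2⁻¹ : GL (Fin 3) F).val,
    by rw [← Matrix.mul_kronecker_mul, Units.mul_inv, Units.mul_inv, Matrix.one_kronecker_one],
    by rw [← Matrix.mul_kronecker_mul, Units.inv_mul, Units.inv_mul, Matrix.one_kronecker_one]⟩
  map_one' := Units.ext (by simp)
  map_mul' p p' := Units.ext (by simp [Matrix.mul_kronecker_mul])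

theorem u_pair_23 (hF : Fintype.card F = 2 ^ 2) {H : Subgroup (GL (Fin n) F)} (hI : H ≤ Cfsg.GU n F 2) (hn : 0 < n)
    (φA : Matrix (Fin 3) (Fin 3) F →ₐ[F] Module.End F (Fin n → F))
    (φC : Matrix (Fin 3) (Fin 3) F →ₐ[F] Module.End F (Fin n → F)) (hAC : ∀ X Y, Commute (φA X) (φC Y))
    (hirr2 : Irr (Set.range φA ∪ Set.range φC))
    (hA : ∀ g ∈ H ⊔ scalars (Fin n) F, ∀ X, (gu g : Module.End F (Fin n → F)) * φA X * ((gu g)⁻¹).val ∈ Set.range φA)
    (hC : ∀ g ∈ H ⊔ scalars (Fin n) F, ∀ X, (gu g : Module.End F (Fin n → F)) * φC X * ((gu g)⁻¹).val ∈ Set.range φC)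
    (hGA : ∀ X, st (sig hF) 1 (φA X) = φA (stG (sig hF) ((1 : GL (Fin 3) F) : Matrix (Fin 3) (Fin 3) F) X))
    (hGC : ∀ X, st (sig hF) 1 (φC X) = φC (stG (sig hF) ((1 : GL (Fin 3) F) : Matrix (Fin 3) (Fin 3) F) X)) :
    GoodU 2 H := by
  classical
  haveI : Nonempty (Fin n) := ⟨⟨0, hn⟩⟩
  obtain ⟨ω, hω⟩ := four_omega hF
  obtain ⟨b, c, hc0, hf, hcoord⟩ := pair_frame (uData hF) (K := H ⊔ scalars (Fin n) F) (by norm_num) (by norm_num) φA φC
    hAC hirr2 hA hC 1 1 hGA hGC
  obtain ⟨ee⟩ := finEquiv b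
  set P := frameGL b ee
  set Pm := (P : Matrix (Fin n) (Fin n) F)
  set σ := sig hF
  have hgram : Pmᵀ * Pm.map σ = c • 1 := by
    ext i j
    have h1 := matForm_apply σ (1 : Matrix (Fin n) (Fin n) F) Pm (Pi.single i 1) (Pi.single j 1)
    rw [frame_col, frame_col, hf, mul_one, matForm_single, Units.val_one] at h1
    rw [← h1, Matrix.smul_apply, smul_eq_mul]
    congr 1
    by_cases hij : i = j
    · subst hij; simp
    · rw [Matrix.one_apply_ne hij]
      by_cases h : (ee i).1 = (ee j).1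
      · rw [Matrix.one_apply_ne (fun h' : (ee i).2 = (ee j).2 => hij (ee.injective (Prod.ext h h'))), mul_zero]
      · rw [Matrix.one_apply_ne h, zero_mul]
  let ρ : GL (Fin 3) F × GL (Fin 3) F →* GL (Fin n) F :=
    (MulAut.conj P).toMonoidHom.comp ((glReindex ee.symm).toMonoidHom.comp kronHom)
  let N : GL (Fin 3) F × GL (Fin 3) F → Matrix (Fin n) (Fin n) F := fun p =>
    ((p.1 : Matrix (Fin 3) (Fin 3) F) ⊗ₖ (p.2 : Matrix (Fin 3) (Fin 3) F)).submatrix ee ee
  have hρv : ∀ p, (ρ p).val = Pm * N p * (P⁻¹ : GL (Fin n) F).val := fun p => by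
    show Pm * _ * (P⁻¹ : GL (Fin n) F).val = _
    congr 2
  have hNu : ∀ p, ρ p ∈ Cfsg.GU n F 2 ↔ (N p)ᵀ * (N p).map σ = 1 := by
    intro p
    rw [gu_iff_matrix hF, hρv]
    have hPi : (P⁻¹ : GL (Fin n) F).val * Pm = 1 := by simp [Pm]
    have hPi' : Pm * (P⁻¹ : GL (Fin n) F).val = 1 := by simp [Pm]
    set Q := (P⁻¹ : GL (Fin n) F).val
    have e : (Pm * N p * Q)ᵀ * (Pm * N p * Q).map σ = Qᵀ * ((N p)ᵀ * (Pmᵀ * Pm.map σ) * (N p).map σ) * Q.map σ := by
      simp only [Matrix.transpose_mul, Matrix.map_mul, mul_assoc]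
    rw [show sig hF = σ from rfl, e, hgram, Matrix.mul_smul, Matrix.smul_mul, mul_one]
    have hQ : c • (Qᵀ * Q.map σ) = 1 := by
      have : Qᵀ * (Pmᵀ * Pm.map σ) * Q.map σ = 1 := by
        rw [show Qᵀ * (Pmᵀ * Pm.map σ) * Q.map σ = (Pm * Q)ᵀ * (Pm * Q).map σ by
          simp only [Matrix.transpose_mul, Matrix.map_mul, mul_assoc], hPi', Matrix.transpose_one,
          Matrix.map_one _ (map_zero σ) (map_one σ), mul_one]
      rwa [hgram, Matrix.mul_smul, Matrix.smul_mul, mul_one] at this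
    constructor
    · intro h
      have h2 := congrArg (fun X => Pmᵀ * X * Pm.map σ) h
      simp only [Matrix.mul_smul, Matrix.smul_mul, mul_one, hgram] at h2
      rw [show Pmᵀ * (Qᵀ * ((N p)ᵀ * (N p).map σ) * Q.map σ) * Pm.map σ =
        (Q * Pm)ᵀ * ((N p)ᵀ * (N p).map σ) * (Q * Pm).map σ by simp only [Matrix.transpose_mul, Matrix.map_mul, mul_assoc],
        hPi, Matrix.transpose_one, Matrix.map_one _ (map_zero σ) (map_one σ), one_mul, mul_one] at h2
      exact smul_right_injective _ hc0 h2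
    · intro h
      rw [h, Matrix.mul_smul, Matrix.smul_mul, mul_one, hQ]
  have hNN : ∀ p : GL (Fin 3) F × GL (Fin 3) F, (N p)ᵀ * (N p).map σ =
      (((p.1 : Matrix (Fin 3) (Fin 3) F)ᵀ * (p.1 : Matrix (Fin 3) (Fin 3) F).map σ) ⊗ₖ
        ((p.2 : Matrix (Fin 3) (Fin 3) F)ᵀ * (p.2 : Matrix (Fin 3) (Fin 3) F).map σ)).submatrix ee ee := fun p => by
    simp only [N, Matrix.transpose_submatrix, ← Matrix.submatrix_map, Matrix.submatrix_mul_equiv]
    congr 1
    rw [Matrix.mul_kronecker_mul]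
    congr 1
    ext x y; simp [Matrix.kroneckerMap_apply]
  set U := Cfsg.GU 3 F 2
  have hρU : ∀ g ∈ U, ∀ g' ∈ U, ρ (g, g') ∈ Cfsg.GU n F 2 := fun g hg g' hg' => by
    rw [hNu, hNN, (gu_iff_matrix hF g).mp hg, (gu_iff_matrix hF g').mp hg', Matrix.one_kronecker_one,
      Matrix.submatrix_one_equiv]
  set R := ((R3 hω).prod (R3 hω)).map ρ with hRdef
  have hRI : R ≤ Cfsg.GU n F 2 := by
    rintro _ ⟨⟨u, u'⟩, ⟨hu, hu'⟩, rfl⟩
    exact hρU u (r3_le_GU hF hω hu) u' (r3_le_GU hF hω hu')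
  have hdec : ∀ g ∈ H, ∃ z ∈ scalars (Fin n) F, ∃ a ∈ U, ∃ a' ∈ U, g = z * ρ (a, a') := by
    intro g hg
    obtain ⟨c', a, a', hc', ha⟩ := hcoord g (Subgroup.mem_sup_left hg)
    let z : GL (Fin n) F := Units.map (Matrix.scalar (Fin n) : F →+* Matrix (Fin n) (Fin n) F).toMonoidHom (Units.mk0 c' hc')
    have hz : z ∈ scalars (Fin n) F := ⟨_, rfl⟩
    have hzm : (z : Matrix (Fin n) (Fin n) F) = c' • 1 := (Matrix.smul_one_eq_diagonal c').symm
    have hgz : g = z * ρ (a, a') := by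
      refine Units.ext ?_
      rw [Units.val_mul, hzm, hρv, Matrix.smul_mul, one_mul]
      conv_lhs => rw [← conj_coord b ee g, Units.val_mul, Units.val_mul]
      rw [← Matrix.smul_mul, ← Matrix.mul_smul]
      congr 2
      ext i j
      show (coordGL b g : Matrix (Fin 3 × Fin 3) (Fin 3 × Fin 3) F) (ee.symm.symm i) (ee.symm.symm j) = _
      rw [Equiv.symm_symm, ha]
      rfl
    have hzU : z ∈ Cfsg.GU n F 2 := by
      rw [gu_iff_matrix hF, hzm, Matrix.transpose_smul, Matrix.transpose_one]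
      have : (c' • (1 : Matrix (Fin n) (Fin n) F)).map σ = σ c' • 1 := by
        ext i j
        by_cases h : i = j
        · subst h; simp
        · simp [Matrix.one_apply_ne h]
      rw [this, Matrix.smul_mul, one_mul, smul_smul, sig_apply, ← pow_succ', four_cube hF hc', one_smul]
    have hρg : ρ (a, a') ∈ Cfsg.GU n F 2 := by
      have := mul_mem (inv_mem hzU) (hI hg)
      rwa [hgz, inv_mul_cancel_left] at this
    rw [hNu, hNN] at hρg
    dsimp only at hρg
    set A := (a : Matrix (Fin 3) (Fin 3) F)ᵀ * (a : Matrix (Fin 3) (Fin 3) F).map σ with hAd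
    set A' := (a' : Matrix (Fin 3) (Fin 3) F)ᵀ * (a' : Matrix (Fin 3) (Fin 3) F).map σ with hA'd
    have hK : ∀ x y : Fin 3 × Fin 3, A x.1 y.1 * A' x.2 y.2 = if x = y then 1 else 0 := fun x y => by
      have := congrFun (congrFun hρg (ee.symm x)) (ee.symm y)
      simp only [Matrix.submatrix_apply, Equiv.apply_symm_apply, Matrix.kroneckerMap_apply, Matrix.one_apply,
        EmbeddingLike.apply_eq_iff_eq] at this
      exact this
    have hone : ∀ (T T' : Matrix (Fin 3) (Fin 3) F), Tᵀ.map σ = T → (∀ x y : Fin 3 × Fin 3, T x.1 y.1 * T' x.2 y.2 = if x = y then 1 else 0) → T = 1 := by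
      intro T T' hherm h
      have h00 := h (0, 0) (0, 0)
      simp at h00
      have hT' : T' 0 0 ≠ 0 := fun e => by simp [e] at h00
      have hd : ∀ i j, T i j * T' 0 0 = if i = j then 1 else 0 := fun i j => by
        have := h (i, 0) (j, 0)
        by_cases e : i = j
        · subst e; simpa using this
        · simpa [e] using this
      have hfix : σ (T 0 0) = T 0 0 := congrFun (congrFun hherm 0) 0
      rw [sig_apply] at hfix
      have hT0 : T 0 0 = 1 := by
        have hne : T 0 0 ≠ 0 := fun e => by simp [e] at h00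
        exact mul_right_cancel₀ hne (by rw [one_mul, ← pow_two]; exact hfix)
      rw [hT0, one_mul] at h00
      ext i j
      have := hd i j
      rw [h00, mul_one] at this
      rw [this, Matrix.one_apply]
    have hherm : ∀ Y : Matrix (Fin 3) (Fin 3) F, (Yᵀ * Y.map σ)ᵀ.map σ = Yᵀ * Y.map σ := fun Y => by
      rw [Matrix.transpose_mul, Matrix.transpose_transpose, Matrix.map_mul, Matrix.transpose_map,
        show (Y.map σ).map σ = Y from Matrix.ext fun i j => sig_invol hF _]
    refine ⟨z, hz, a, (gu_iff_matrix hF a).mpr (hone A A' (hherm _) hK), a', (gu_iff_matrix hF a').mpr ?_, hgz⟩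
    refine hone A' A (hherm _) fun x y => ?_
    have := hK (x.2, x.1) (y.2, y.1)
    rw [mul_comm, this]
    simp [Prod.ext_iff, and_comm]
  have hRn : ∀ g ∈ U, ∀ g' ∈ U, ∀ x ∈ R, ρ (g, g') * x * (ρ (g, g'))⁻¹ ∈ R := by
    rintro g hg g' hg' _ ⟨⟨u, u'⟩, ⟨hu, hu'⟩, rfl⟩
    exact ⟨(g * u * g⁻¹, g' * u' * g'⁻¹), ⟨r3_normal hF hω hg hu, r3_normal hF hω hg' hu'⟩, by
      rw [← map_mul, ← map_inv, ← map_mul]; rfl⟩
  have hnormH : ∀ g ∈ H, ∀ x ∈ R, g * x * g⁻¹ ∈ R := by
    intro g hg x hx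
    obtain ⟨z, hz, a, ha, a', ha', rfl⟩ := hdec g hg
    rw [show z * ρ (a, a') * x * (z * ρ (a, a'))⁻¹ = z * (ρ (a, a') * x * (ρ (a, a'))⁻¹) * z⁻¹ by group,
      scalars_comm hz, mul_inv_cancel_right]
    exact hRn a ha a' ha' x hx
  have hR : Full R := by
    set S := Submodule.span F (matrixSet R)
    let T : Matrix (Fin 3 × Fin 3) (Fin 3 × Fin 3) F → Matrix (Fin n) (Fin n) F := fun X =>
      Pm * X.submatrix ee ee * (P⁻¹ : GL (Fin n) F).val
    have hTadd : ∀ X Y, T (X + Y) = T X + T Y := fun X Y => by simp [T, Matrix.submatrix_add, mul_add, add_mul]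
    have hTsmul : ∀ (a : F) X, T (a • X) = a • T X := fun a X => by simp [T, Matrix.submatrix_smul]
    have hT0 : T 0 = 0 := by simp [T, Matrix.submatrix_zero]
    have hkey : ∀ Y Z : Matrix (Fin 3) (Fin 3) F, T (Y ⊗ₖ Z) ∈ S := by
      intro Y Z
      have hY : Y ∈ Submodule.span F (matrixSet (R3 hω)) := (r3_full hF hω).symm ▸ trivial
      induction hY using Submodule.span_induction with
      | mem y hy =>
        obtain ⟨u, hu, rfl⟩ := hy
        have hZ : Z ∈ Submodule.span F (matrixSet (R3 hω)) := (r3_full hF hω).symm ▸ trivial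
        induction hZ using Submodule.span_induction with
        | mem z hz =>
          obtain ⟨u', hu', rfl⟩ := hz
          exact Submodule.subset_span ⟨ρ (u, u'), ⟨(u, u'), ⟨hu, hu'⟩, rfl⟩, hρv (u, u')⟩
        | zero => rw [Matrix.kronecker_zero, hT0]; exact zero_mem _
        | add a b _ _ ha hb => rw [Matrix.kronecker_add, hTadd]; exact add_mem ha hb
        | smul k a _ ha => rw [Matrix.kronecker_smul, hTsmul]; exact S.smul_mem k ha
      | zero => rw [Matrix.zero_kronecker, hT0]; exact zero_mem _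
      | add a b _ _ ha hb => rw [Matrix.add_kronecker, hTadd]; exact add_mem ha hb
      | smul k a _ ha => rw [Matrix.smul_kronecker, hTsmul]; exact S.smul_mem k ha
    refine eq_top_iff.mpr fun W _ => ?_
    set X := ((P⁻¹ : GL (Fin n) F).val * W * Pm).submatrix ee.symm ee.symm
    have hW : W = T X := by
      show W = Pm * _ * _
      rw [show X.submatrix ee ee = (P⁻¹ : GL (Fin n) F).val * W * Pm by ext i j; simp [X]]
      simp [Pm, mul_assoc]
    rw [hW, Matrix.matrix_eq_sum_single X]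
    have hsum : ∀ (s : Finset (Fin 3 × Fin 3)) (f : Fin 3 × Fin 3 → Matrix (Fin 3 × Fin 3) (Fin 3 × Fin 3) F), (∀ i, T (f i) ∈ S) → T (∑ i ∈ s, f i) ∈ S := by
      intro s f hf'
      induction s using Finset.induction_on with
      | empty => rw [Finset.sum_empty, hT0]; exact zero_mem _
      | insert i s his ih => rw [Finset.sum_insert his, hTadd]; exact add_mem (hf' i) ih
    refine hsum _ _ fun i => hsum _ _ fun j => ?_
    rw [show Matrix.single i j (X i j) = Matrix.single i.1 j.1 (X i j) ⊗ₖ Matrix.single i.2 j.2 (1 : F) by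
      rw [Matrix.single_kronecker_single, mul_one]]
    exact hkey _ _
  haveI : Nontrivial (Fin n) := Fin.nontrivial_iff_two_le.mpr (by
    have := Fintype.card_congr ee
    rw [Fintype.card_fin, Fintype.card_prod, Fintype.card_fin] at this
    omega)
  have h3 : ∀ x ∈ R, x ^ 3 = 1 := by
    rintro _ ⟨⟨u, u'⟩, ⟨hu, hu'⟩, rfl⟩
    rw [← map_pow, Prod.pow_mk, r3_cube hF hω hu, r3_cube hF hω hu', ← Prod.one_eq_mk, map_one]
  have htw : ∀ x ∈ R, ∀ y ∈ R, ⁅x, y⁆ ∈ scalars (Fin n) F := by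
    rintro _ ⟨⟨u, u'⟩, ⟨hu, hu'⟩, rfl⟩ _ ⟨⟨v, v'⟩, ⟨hv, hv'⟩, rfl⟩
    rw [← map_commutatorElement]
    obtain ⟨k, hk⟩ := (mem_scalars_iff _).mp (r3_comm hF hω hu hv)
    obtain ⟨k', hk'⟩ := (mem_scalars_iff _).mp (r3_comm hF hω hu' hv')
    refine (mem_scalars_iff _).mpr ⟨k * k', ?_⟩
    rw [hρv]
    simp only [N]
    rw [show (⁅(u, u'), (v, v')⁆ : GL (Fin 3) F × GL (Fin 3) F).1 = ⁅u, v⁆ from rfl,
      show (⁅(u, u'), (v, v')⁆ : GL (Fin 3) F × GL (Fin 3) F).2 = ⁅u', v'⁆ from rfl, hk, hk', Matrix.smul_kronecker,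
      Matrix.kronecker_smul, Matrix.one_kronecker_one, Matrix.submatrix_smul, Matrix.submatrix_smul]
    simp only [Pi.smul_apply, Matrix.submatrix_one_equiv, Matrix.mul_smul, Matrix.smul_mul, smul_smul, mul_one, Units.val_mul]
    simp [Pm]
  obtain ⟨w, -, hQ, -⟩ := full_basis hR htw
  have hscal : ∀ u : Fˣ, ∃ x ∈ R, (x : Matrix (Fin n) (Fin n) F) = (u : F) • 1 := by
    intro u
    let s : GL (Fin 3) F := Units.map (algebraMap F (Matrix (Fin 3) (Fin 3) F)).toMonoidHom u
    have hs : (s : Matrix (Fin 3) (Fin 3) F) = (u : F) • 1 := Algebra.algebraMap_eq_smul_one _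
    have hsm : s ∈ R3 hω := r3_diag hF hω (a := (u : F)) (b := u) (c := u)
      (by rw [← pow_two, ← pow_succ, four_cube hF u.ne_zero]) (by
        rw [hs, Matrix.smul_one_eq_diagonal]; congr 1; funext i; fin_cases i <;> rfl)
    refine ⟨ρ (s, 1), ⟨(s, 1), ⟨hsm, one_mem _⟩, rfl⟩, ?_⟩
    rw [hρv]
    simp only [N, hs, Units.val_one, Matrix.smul_kronecker, Matrix.one_kronecker_one, Matrix.submatrix_smul, Pi.smul_apply,
      Matrix.submatrix_one_equiv, Matrix.mul_smul, Matrix.smul_mul, mul_one]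
    simp [Pm]
  have hc3 : Nat.card (Subgroup.center R) = 3 := by
    choose x hxR hx using hscal
    have hcard : Nat.card Fˣ = 3 := by rw [Nat.card_eq_fintype_card, Fintype.card_units, hF]; rfl
    rw [← hcard]
    refine (Nat.card_congr (Equiv.ofBijective (fun u : Fˣ => (⟨⟨x u, hxR u⟩, (center_iff hR _).mpr
      ((mem_scalars_iff _).mpr ⟨u, hx u⟩)⟩ : Subgroup.center R)) ⟨fun u v e => ?_, fun y => ?_⟩)).symm
    · have e' := congrArg (fun z : Subgroup.center R => ((z : R) : GL (Fin n) F).val ⟨0, hn⟩ ⟨0, hn⟩) e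
      simp only [hx, Matrix.smul_apply, Matrix.one_apply_eq, smul_eq_mul, mul_one] at e'
      exact Units.ext e'
    · obtain ⟨u, hu⟩ := (mem_scalars_iff _).mp ((center_iff hR y.1).mp y.2)
      exact ⟨u, Subtype.ext (Subtype.ext (Units.ext (by show (x u).val = _; rw [hx, hu])))⟩
  haveI : Fact (Nat.Prime 3) := ⟨Nat.prime_three⟩
  have hpg : IsPGroup 3 R := fun x => ⟨1, Subtype.ext (by simpa using h3 x x.2)⟩
  have hcardR : Nat.card R = 3 ^ (1 + 2 * 2) := by
    rw [Subgroup.card_eq_card_quotient_mul_card_subgroup (Subgroup.center R), hQ, hc3, Fintype.card_congr ee]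
    simp
  have hst : IsSymplecticTypeGroup 3 R := by
    refine ⟨Nat.prime_three, hpg, fun A hA hAc => ?_, ?_⟩
    · let A' : Subgroup (GL (Fin n) F) := A.map R.subtype
      have hA'n : ∀ g ∈ U, ∀ g' ∈ U, ∀ y ∈ A', ρ (g, g') * y * (ρ (g, g'))⁻¹ ∈ A' := by
        intro g hg g' hg' y hy
        obtain ⟨a, ha, rfl⟩ := Subgroup.mem_map.mp hy
        set G := ρ (g, g')
        have hG' : ∀ b ∈ R, G⁻¹ * b * G ∈ R := fun b hb => by
          have := hRn g⁻¹ (inv_mem hg) g'⁻¹ (inv_mem hg') b hb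
          rwa [show (g⁻¹, g'⁻¹) = (g, g')⁻¹ from rfl, map_inv, inv_inv] at this
        let φ : R ≃* R :=
          { toFun := fun b => ⟨G * b * G⁻¹, hRn g hg g' hg' b b.2⟩
            invFun := fun b => ⟨G⁻¹ * b * G, hG' b b.2⟩
            left_inv := fun b => Subtype.ext (by show G⁻¹ * (G * _ * G⁻¹) * G = _; group)
            right_inv := fun b => Subtype.ext (by show G * (G⁻¹ * _ * G) * G⁻¹ = _; group)
            map_mul' := fun b b' => Subtype.ext (by
              show G * (b * b' : GL (Fin n) F) * G⁻¹ = G * (b : GL (Fin n) F) * G⁻¹ * (G * b' * G⁻¹); group) }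
        refine Subgroup.mem_map.mpr ⟨φ a, ?_, rfl⟩
        have := hA.fixed φ
        rw [← this] at ha
        exact ha
      have hA'c : ∀ y ∈ A', ∀ y' ∈ A', y * y' = y' * y := by
        intro y hy y' hy'
        obtain ⟨a, ha, rfl⟩ := Subgroup.mem_map.mp hy
        obtain ⟨a', ha', rfl⟩ := Subgroup.mem_map.mp hy'
        exact congrArg (fun w : A => ((w : R) : GL (Fin n) F)) (hAc.is_comm.comm ⟨a, ha⟩ ⟨a', ha'⟩)
      have hAC : A ≤ Subgroup.center R := by
        intro x hxA
        rw [center_iff hR]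
        by_contra hns
        obtain ⟨⟨u, u'⟩, ⟨hu, hu'⟩, hux⟩ := Subgroup.mem_map.mp x.2
        have hxA' : (x : GL (Fin n) F) ∈ A' := ⟨x, hxA, rfl⟩
        have main : ∀ (f : GL (Fin 3) F →* GL (Fin n) F) (v : GL (Fin 3) F), Function.Injective f → v ∈ R3 hω →
            v ∉ scalars (Fin 3) F → (∀ g ∈ U, ∀ y ∈ A', f g * y * (f g)⁻¹ ∈ A') →
            (∀ g : GL (Fin 3) F, f g * (x : GL (Fin n) F) * (f g)⁻¹ * (x : GL (Fin n) F)⁻¹ = f (g * v * g⁻¹ * v⁻¹)) →
            False := by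
          intro f v hinj hv hvns hfn hfc
          refine r3_no_abelian hF hω (A'.comap f ⊓ R3 hω) inf_le_right (fun g hg y hy => ⟨?_, r3_normal hF hω hg hy.2⟩)
            (fun y hy y' hy' => hinj ?_) hv hvns (fun g hg => ⟨?_, (R3 hω).mul_mem (r3_normal hF hω hg hv) ((R3 hω).inv_mem hv)⟩)
          · show f (g * y * g⁻¹) ∈ A'
            rw [map_mul, map_mul, map_inv]
            exact hfn g hg _ hy.1
          · rw [map_mul, map_mul]; exact hA'c _ hy.1 _ hy'.1
          · show f (g * v * g⁻¹ * v⁻¹) ∈ A'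
            rw [← hfc]
            exact mul_mem (hfn g hg _ hxA') (inv_mem hxA')
        have hinj : ∀ p p', ρ p = ρ p' → ∀ i j k l,
            p.1.val i j * p.2.val k l = p'.1.val i j * p'.2.val k l := fun p p' e i j k l =>
          congrFun (congrFun (congrArg (fun z : GL (Fin 3 × Fin 3) F => (z : Matrix _ _ F))
            ((glReindex ee.symm).injective ((MulAut.conj P).injective e) : kronHom p = kronHom p')) (i, k)) (j, l)
        by_cases hvu : u ∈ scalars (Fin 3) F
        · by_cases hvu' : u' ∈ scalars (Fin 3) F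
          · refine hns ?_
            obtain ⟨k, hk⟩ := (mem_scalars_iff _).mp hvu
            obtain ⟨k', hk'⟩ := (mem_scalars_iff _).mp hvu'
            refine (mem_scalars_iff _).mpr ⟨k * k', ?_⟩
            rw [← hux, hρv]
            simp only [N, hk, hk', Matrix.smul_kronecker, Matrix.kronecker_smul, Matrix.one_kronecker_one,
              Matrix.submatrix_smul, Pi.smul_apply, Matrix.submatrix_one_equiv, Matrix.mul_smul, Matrix.smul_mul,
              smul_smul, mul_one, Units.val_mul]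
            simp [Pm, mul_comm]
          · refine main (ρ.comp (MonoidHom.inr _ _)) u' ?_ hu' hvu' (fun g hg => hA'n 1 (one_mem _) g hg) fun g => ?_
            · intro z z' e
              exact Units.ext (Matrix.ext fun k l => by simpa using hinj (1, z) (1, z') e 0 0 k l)
            · rw [← hux]
              simp only [MonoidHom.comp_apply, MonoidHom.inr_apply, ← map_inv, ← map_mul]
              congr 1
              simp [Prod.mul_def]
        · refine main (ρ.comp (MonoidHom.inl _ _)) u ?_ hu hvu (fun g hg => hA'n g hg 1 (one_mem _)) fun g => ?_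
          · intro z z' e
            exact Units.ext (Matrix.ext fun i j => by simpa using hinj (z, 1) (z', 1) e i j 0 0)
          · rw [← hux]
            simp only [MonoidHom.comp_apply, MonoidHom.inl_apply, ← map_inv, ← map_mul]
            congr 1
            simp [Prod.mul_def]
      haveI : IsCyclic (Subgroup.center R) := isCyclic_of_prime_card hc3
      exact isCyclic_of_injective (Subgroup.inclusion hAC) (Subgroup.inclusion_injective hAC)
    · have hd := Monoid.exponent_dvd_of_forall_pow_eq_one (G := R) (n := 3) fun x => Subtype.ext (by simpa using h3 x x.2)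
      rw [show 3 * Nat.gcd 2 3 = 3 from rfl]
      refine (Nat.prime_three.eq_one_or_self_of_dvd _ hd).resolve_left fun h1 => ?_
      refine exists_two_commute_false hR fun a ha b hb => ?_
      haveI := Monoid.exp_eq_one_iff.mp h1
      exact congrArg Subtype.val (Subsingleton.elim ((⟨a, ha⟩ : R) * ⟨b, hb⟩) ((⟨b, hb⟩ : R) * ⟨a, ha⟩))
  haveI : CharP F 2 := (CharP.charP_iff_prime_eq_zero Nat.prime_two).mpr (by exact_mod_cast four_two hF)
  refine ⟨subgroupNormalizer R ⊓ Cfsg.GU n F 2, u_partial_of ?_, le_inf (fun g hg => ?_) hI⟩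
  · iterate 7 right
    refine ⟨3, R, 2, 2, 2, hst, hR.absIrred, fun x hx => ⟨1, fun u v => ?_⟩, by norm_num, ?_,
      Or.inl ⟨by decide, hc3, by norm_num, hcardR⟩, rfl⟩
    · rw [Units.val_one, one_mul]; exact hRI hx u v
    · rw [hc3]
      refine ⟨Nat.prime_two, inferInstance, hF, by norm_num, fun d hd0 hd2 => ?_⟩
      obtain rfl : d = 1 := by omega
      norm_num
  · refine Subgroup.mem_normalizer_iff.mpr fun x => ⟨fun hx => hnormH g hg x hx, fun hx => ?_⟩
    have := hnormH g⁻¹ (inv_mem hg) _ hx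
    simpa [mul_assoc] using this

end Cfsg.Agent.GeomClasses.AschRel
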