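import Cfsg.Agent.GeomClasses.Aschbacher.Rel.TensorForm
import Cfsg.Agent.GeomClasses.Aschbacher.Rel.Descent
import Cfsg.Agent.Forms.HermOrder

/-! # Hermitian forms on factors -/

set_option autoImplicit false
set_option maxHeartbeats 400000

namespace Cfsg.Agent.GeomClasses.AschRel

open Matrix Cfsg.Geo

variable {F : Type*} [Field F] [Fintype F]

/-- The fixed field of an involution has square root many elements. -/
theorem card_fixedBy_sq {σ : F ≃+* F} (h : σ ≠ RingEquiv.refl F) (hinv : ∀ a, σ (σ a) = a) :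
    Fintype.card F = Nat.card (fixedBy σ) ^ 2 := by
  classical
  haveI := Fintype.ofFinite (fixedBy σ)
  obtain ⟨c₀, hc₀⟩ : ∃ c, σ c ≠ c := by by_contra hh; push_neg at hh; exact h (RingEquiv.ext hh)
  let φ : F →+ F := AddMonoidHom.id F - σ.toRingHom.toAddMonoidHom
  have hφ : ∀ x, φ x = x - σ x := fun x => rfl
  set y₀ := φ c₀ with hy₀
  have hy₀ne : y₀ ≠ 0 := by rw [hy₀, hφ, sub_ne_zero]; exact fun e => hc₀ e.symm
  have hanti : ∀ y ∈ φ.range, σ y = -y := by
    rintro _ ⟨x, rfl⟩; rw [hφ, map_sub, hinv, neg_sub]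
  let f : fixedBy σ → φ.range := fun x => ⟨(x : F) * y₀, ⟨(x : F) * c₀, by
    rw [hy₀, hφ, hφ, map_mul, show σ (x : F) = x from x.2, mul_sub]⟩⟩
  have hf : Function.Bijective f := by
    refine ⟨fun a b e => Subtype.ext (mul_right_cancel₀ hy₀ne (congrArg Subtype.val e)), fun y => ?_⟩
    refine ⟨⟨(y : F) / y₀, ?_⟩, Subtype.ext (div_mul_cancel₀ _ hy₀ne)⟩
    rw [mem_fixedBy, map_div₀, hanti y y.2, hanti y₀ ⟨_, rfl⟩, neg_div_neg_eq]
  have hker : Nat.card φ.ker = Nat.card (fixedBy σ) := by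
    refine Nat.card_congr (Equiv.subtypeEquivRight fun x => ?_)
    show φ x = 0 ↔ σ x = x
    rw [hφ, sub_eq_zero, eq_comm]
  have h1 := AddSubgroup.card_eq_card_quotient_mul_card_addSubgroup φ.ker
  rw [Nat.card_congr (QuotientAddGroup.quotientKerEquivRange φ).toEquiv, ← Nat.card_congr (Equiv.ofBijective f hf), hker,
    Nat.card_eq_fintype_card (α := F)] at h1
  rw [h1, pow_two]

variable {ι : Type} [Fintype ι] [DecidableEq ι] {σ : F ≃+* F} {B : Matrix ι ι F} {ε : F}

/-- A factor closed under the adjoint can be given the standard hermitian form. -/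
theorem normalise_factor (h : FormData σ B ε) (hσ : σ ≠ RingEquiv.refl F) {d : ℕ} (hd : 0 < d)
    (φ : Matrix (Fin d) (Fin d) F →ₐ[F] Module.End F (ι → F)) (hclosed : ∀ X, st σ B (φ X) ∈ Set.range φ) :
    ∃ φ' : Matrix (Fin d) (Fin d) F →ₐ[F] Module.End F (ι → F), Set.range φ' = Set.range φ ∧
      (Nonempty ι → ∀ X, st σ B (φ' X) = φ' (stG σ ((1 : GL (Fin d) F) : Matrix (Fin d) (Fin d) F) X)) := by
  classical
  rcases isEmpty_or_nonempty ι with hι | hι
  · exact ⟨φ, rfl, fun h => (not_nonempty_iff.mpr hι h).elim⟩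
  haveI : Nonempty (Fin d) := ⟨⟨0, hd⟩⟩
  have hinv := h.invol
  have hinj : Function.Injective φ := RingHom.injective φ.toRingHom
  obtain ⟨G₀, ν, hν0, hG₀, hν⟩ := exists_factor_gram h hd φ hinj hclosed
  set g₀ := (G₀ : Matrix (Fin d) (Fin d) F)
  have hu₀ : IsUnit g₀.det := (Matrix.isUnit_iff_isUnit_det _).mp G₀.isUnit
  have hνν : ν * σ ν = 1 := by
    have e := congrArg (fun M : Matrix (Fin d) (Fin d) F => (Mᵀ).map σ) hν
    have e1 : ((g₀ᵀ.map σ)ᵀ).map σ = g₀ := by ext i j; simp [hinv]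
    have e2 : ((ν • g₀)ᵀ).map σ = σ ν • g₀ᵀ.map σ := by ext i j; simp
    replace e : ((g₀ᵀ.map σ)ᵀ).map σ = ((ν • g₀)ᵀ).map σ := e
    rw [e1, e2, hν, smul_smul] at e
    obtain ⟨i, j, hij⟩ : ∃ i j, g₀ i j ≠ 0 := by
      by_contra hh; push_neg at hh
      exact hu₀.ne_zero (by rw [show g₀ = 0 from Matrix.ext hh, Matrix.det_zero])
    have e3 := congrFun (congrFun e i) j
    rw [Matrix.smul_apply, smul_eq_mul] at e3
    exact mul_right_cancel₀ hij (by rw [one_mul, mul_comm ν]; exact e3.symm)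
  obtain ⟨μ, hμ0, hμ⟩ := exists_quot hσ hinv (c := σ ν) (by rw [hinv, mul_comm]; exact hνν)
  set G := μ • g₀
  have hGu : IsUnit G.det := by rw [Matrix.det_smul]; exact (hμ0.isUnit.pow _).mul hu₀
  have hGh : Gᵀ.map σ = G := by
    have e : (μ • g₀)ᵀ.map σ = σ μ • g₀ᵀ.map σ := by ext i j; simp
    rw [e, hν, hμ, smul_smul]
    congr 1
    linear_combination μ * hνν
  have hG : ∀ X, st σ B (φ X) = φ (stG σ G X) := by
    intro X
    rw [hG₀]
    congr 1
    simp only [stG, G]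
    have hi : (μ • g₀)⁻¹ = μ⁻¹ • g₀⁻¹ := Matrix.inv_eq_right_inv (by
      rw [Matrix.smul_mul, Matrix.mul_smul, Matrix.mul_nonsing_inv _ hu₀, smul_smul, mul_inv_cancel₀ hμ0, one_smul])
    rw [hi, Matrix.smul_mul, Matrix.smul_mul, Matrix.mul_smul, smul_smul, inv_mul_cancel₀ hμ0, one_smul]
  -- an orthonormal basis
  let s : F →+* F := σ.toRingHom
  let Bl : (Fin d → F) →ₛₗ[s] (Fin d → F) →ₗ[F] F := LinearMap.mk₂'ₛₗ s (RingHom.id F)
    (fun v w => matForm σ G w v) (fun v v' w => mf_add_right w v v') (fun a v w => by rw [mf_smul_right]; rfl)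
    (fun v w w' => mf_add_left w w' v) (fun a v w => mf_smul_left a w v)
  have hswap : ∀ v w, σ (matForm σ G w v) = matForm σ G v w := by
    intro v w
    simp only [matForm, dotProduct, Matrix.mulVec, Finset.mul_sum, map_sum, map_mul, hinv]
    rw [Finset.sum_comm]
    refine Finset.sum_congr rfl fun i _ => Finset.sum_congr rfl fun j _ => ?_
    rw [show σ (G j i) = G i j from congrFun (congrFun hGh i) j]
    ring
  have hsne : s ≠ RingHom.id F := fun e => hσ (RingEquiv.ext fun a => congrArg (fun f : F →+* F => f a) e)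
  obtain ⟨q, hF, hherm⟩ := Forms.isHerm_of_involution (V := Fin d → F) (B := Bl) hsne hinv ⟨fun v w => hswap v w⟩ (by
    refine ⟨fun v hv => ?_, fun w hw => ?_⟩
    · by_contra hv0
      obtain ⟨⟨x, hx⟩, -⟩ := nondeg_matForm (σ := σ) hGu v hv0
      exact hx (hv x)
    · by_contra hw0
      obtain ⟨-, x, hx⟩ := nondeg_matForm (σ := σ) hGu w hw0
      exact hx (hw x))
  obtain ⟨b, hb⟩ := hherm.exists_orthonormal hF
  let b' : Module.Basis (Fin d) F (Fin d → F) := b.reindex (finCongr (Module.finrank_fin_fun F))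
  let S : GL (Fin d) F := frameGL b' (Equiv.refl _)
  set Sm := (S : Matrix (Fin d) (Fin d) F)
  have hcol : ∀ k j, Sm k j = b' j k := fun k j => by
    show (Pi.basisFun F (Fin d)).toMatrix (b'.reindex (Equiv.refl (Fin d)).symm) k j = _
    simp [Module.Basis.toMatrix_apply]
  have hS : Smᵀ * G * Sm.map σ = 1 := by
    ext i j
    have hm : ∀ k, Sm *ᵥ Pi.single k 1 = b' k := fun k => by funext l; simp [hcol]
    rw [← matForm_single σ (Smᵀ * G * Sm.map σ) i j, ← matForm_apply, hm, hm]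
    have e := hb ((finCongr (Module.finrank_fin_fun F)).symm j) ((finCongr (Module.finrank_fin_fun F)).symm i)
    rw [show matForm σ G (b' i) (b' j) = Bl (b ((finCongr (Module.finrank_fin_fun F)).symm j))
      (b ((finCongr (Module.finrank_fin_fun F)).symm i)) by simp [b', Bl], e, Matrix.one_apply]
    simp [eq_comm]
  let cS : Matrix (Fin d) (Fin d) F →ₐ[F] Matrix (Fin d) (Fin d) F :=
    { toFun := fun X => Sm * X * (S⁻¹ : GL (Fin d) F).val
      map_one' := by simp [Sm]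
      map_mul' := fun X Y => by simp [Sm, mul_assoc]
      map_zero' := by simp
      map_add' := fun X Y => by simp [mul_add, add_mul]
      commutes' := fun c => by rw [← Algebra.commutes, mul_assoc, Units.mul_inv, mul_one] }
  refine ⟨φ.comp cS, ?_, fun _ X => ?_⟩
  · refine Set.Subset.antisymm (Set.range_subset_iff.mpr fun X => ⟨cS X, rfl⟩) (Set.range_subset_iff.mpr fun X => ?_)
    refine ⟨(S⁻¹ : GL (Fin d) F).val * X * Sm, ?_⟩
    show φ (Sm * _ * _) = _
    congr 1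
    simp [Sm, mul_assoc]
  show st σ B (φ (cS X)) = φ (cS _)
  rw [hG]
  congr 1
  show stG σ G (Sm * X * (S⁻¹ : GL (Fin d) F).val) = Sm * stG σ _ X * (S⁻¹ : GL (Fin d) F).val
  have hSu : IsUnit Sm.det := (Matrix.isUnit_iff_isUnit_det _).mp S.isUnit
  have hSi : (S⁻¹ : GL (Fin d) F).val = Sm⁻¹ := Matrix.coe_units_inv S
  have hmm : ∀ Z : Matrix (Fin d) (Fin d) F, (Z.map σ).map σ = Z := fun Z => by ext i j; simp [hinv]
  have hSt : IsUnit Smᵀ.det := by rwa [Matrix.det_transpose]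
  have e1 : G * Sm.map σ = (Smᵀ)⁻¹ := (Matrix.inv_eq_right_inv (by rw [← mul_assoc]; exact hS)).symm
  have e2 : G⁻¹ * (Smᵀ)⁻¹ = Sm.map σ := by rw [← e1, ← mul_assoc, Matrix.nonsing_inv_mul _ hGu, one_mul]
  have e3 : (Smᵀ * G).map σ = Sm⁻¹ := by
    refine (Matrix.inv_eq_left_inv ?_).symm
    have := congrArg (fun Z : Matrix (Fin d) (Fin d) F => Z.map σ) hS
    simpa [Matrix.map_mul, hmm, Matrix.map_one _ (map_zero σ) (map_one σ)] using this
  simp only [stG, hSi, Units.val_one, inv_one, one_mul, mul_one, Matrix.transpose_mul, Matrix.transpose_nonsing_inv]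
  rw [show G⁻¹ * ((Smᵀ)⁻¹ * (Xᵀ * Smᵀ)) * G = (G⁻¹ * (Smᵀ)⁻¹) * Xᵀ * (Smᵀ * G) by simp only [mul_assoc], e2,
    Matrix.map_mul, Matrix.map_mul, hmm, e3]

end Cfsg.Agent.GeomClasses.AschRel
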