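import Cfsg.Agent.GeomClasses.Aschbacher.Rel.UExc9
import Cfsg.Agent.GeomClasses.Aschbacher.Rel.UAbelian
import Cfsg.Agent.GeomClasses.Aschbacher.Rel.NonabSplit
import Cfsg.Agent.GeomClasses.Aschbacher.Rel.SmallFactor
import Cfsg.Agent.GeomClasses.Aschbacher.Rel.UForms
import Cfsg.Agent.Core.BurnsidePQ

/-! # Main argument for unitary groups -/

set_option autoImplicit false
set_option maxHeartbeats 400000

namespace Cfsg.Agent.GeomClasses.AschRel

open Matrix Cfsg.Geo
open scoped commutatorElement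
open Cfsg.Agent.GeomClasses.Asch (Irr Normalises conjHom conjHom_apply)

variable {F : Type*} [Field F] [Fintype F] {n q : ℕ}

theorem u_factor_solvable (hF : Fintype.card F = 2 ^ 2) : Group.IsSolvable (Cfsg.GU 3 F 2) := by
  refine Cfsg.Agent.Core.isSolvable_of_card_dvd_two_primes (p := 2) (q := 3) (a := 3) (b := 4) Nat.prime_two Nat.prime_three ?_
  rw [Forms.card_GU hF]
  norm_num [Finset.prod_range_succ, Nat.even_iff]

/-- The structure theorem for unitary groups. -/
theorem u_structure (hF : Fintype.card F = q ^ 2) (hn : 3 ≤ n) (H : Subgroup (GL (Fin n) F))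
    (hI : H ≤ Cfsg.GU n F q) : GoodU q H ∨ InUnitaryResidualClass H := by
  classical
  by_cases hgood : GoodU q H
  · exact Or.inl hgood
  right
  haveI : Nonempty (Fin n) := ⟨⟨0, by omega⟩⟩
  haveI : Nontrivial (Fin n) := Fin.nontrivial_iff_two_le.mpr (by omega)
  have hB := uData (n := n) hF
  set σ := sig hF
  set Z := scalars (Fin n) F
  set K := H ⊔ Z
  have hsim := u_sim_sup hF hI
  by_cases hirr : Irr ((fun g : (Module.End F (Fin n → F))ˣ => (g : Module.End F (Fin n → F))) '' (gu '' (K : Set _)))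
  swap
  · exact absurd (u_reducible hF hI (by omega) hirr) hgood
  have hKnZ : ¬ K ≤ Z := by
    intro hle
    let W : Submodule F (Fin n → F) := Submodule.span F {Pi.single ⟨0, by omega⟩ 1}
    have hfr : Module.finrank F W = 1 := finrank_span_singleton (by simp)
    rcases hirr W (by
      rintro _ ⟨_, ⟨g, hg, rfl⟩, rfl⟩ w hw
      obtain ⟨c, hc⟩ := (mem_scalars_iff g).mp (hle hg)
      show (gu g : Module.End F (Fin n → F)) w ∈ W
      rw [gu_apply, hc, Matrix.smul_mulVec, Matrix.one_mulVec]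
      exact W.smul_mem _ hw) with h | h
    · rw [h, finrank_bot] at hfr; omega
    · rw [h, finrank_top, Module.finrank_fin_fun] at hfr; omega
  have hfull : ∀ N, N ≤ K → NormalisedBy K N → ¬ N ≤ Z → Full N := by
    intro N hNK hN hNZ
    rcases normal_cases hB hsim hNK hirr hN hNZ with ⟨E, hcomm, hnorm, hcl, hbig⟩ | hf |
      ⟨d, e, φA, φC, hd, he, hde, hAC, hirr2, hfA, hfC, hclA, hclC⟩
    · exact absurd (u_comm hF hI (by omega) hirr hcomm hnorm hcl hbig) hgood
    · exact hf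
    exfalso
    refine hgood ?_
    obtain ⟨φA', hrA, hGA⟩ := normalise_factor hB (sig_ne hF) (by omega) φA hclA
    obtain ⟨φC', hrC, hGC⟩ := normalise_factor hB (sig_ne hF) (by omega) φC hclC
    have hconv : ∀ {l : ℕ} (ψ ψ' : Matrix (Fin l) (Fin l) F →ₐ[F] Module.End F (Fin n → F)), Set.range ψ' = Set.range ψ →
        (∀ g ∈ K, ∀ X, (gu g : Module.End F (Fin n → F)) * ψ X * ((gu g)⁻¹).val ∈ Set.range ψ) →
        ∀ g ∈ K, ∀ X, (gu g : Module.End F (Fin n → F)) * ψ' X * ((gu g)⁻¹).val ∈ Set.range ψ' := by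
      intro l ψ ψ' hr h g hg X
      obtain ⟨Y, hY⟩ := hr.subset ⟨X, rfl⟩
      rw [← hY, hr]; exact h g hg Y
    have hAC' : ∀ X Y, Commute (φA' X) (φC' Y) := fun X Y => by
      obtain ⟨X', hX⟩ := hrA.subset ⟨X, rfl⟩
      obtain ⟨Y', hY⟩ := hrC.subset ⟨Y, rfl⟩
      rw [← hX, ← hY]; exact hAC X' Y'
    by_cases hex : q = 2 ∧ d = 3 ∧ e = 3
    · obtain ⟨rfl, rfl, rfl⟩ := hex
      exact u_pair_23 hF hI (by omega) φA' φC' hAC' (by rw [hrA, hrC]; exact hirr2) (hconv φA φA' hrA hfA)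
        (hconv φC φC' hrC hfC) (hGA inferInstance) (hGC inferInstance)
    exact u_tensor hF hI (by omega) hd he hex φA' φC' hAC' (by rw [hrA, hrC]; exact hirr2) (hconv φA φA' hrA hfA)
      (hconv φC φC' hrC hfC) (hGA inferInstance) (hGC inferInstance)
  obtain ⟨M, ⟨hMn, hZM, hMK, hMne⟩, hmin⟩ := exists_minimal_of_wellFoundedLT
    (fun M : Subgroup (GL (Fin n) F) => NormalisedBy K M ∧ Z ≤ M ∧ M ≤ K ∧ M ≠ Z)
    ⟨K, fun g hg x hx => mul_mem (mul_mem hg hx) (inv_mem hg), le_sup_right, le_rfl, fun h => hKnZ h.le⟩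
  have hmin' : ∀ N, NormalisedBy K N → Z ≤ N → N ≤ M → N = Z ∨ N = M := fun N h1 h2 h3 => by
    by_cases h : N = Z
    · exact Or.inl h
    · exact Or.inr (le_antisymm h3 (hmin ⟨h1, h2, h3.trans hMK, h⟩ h3))
  have hMnZ : ¬ M ≤ Z := fun h => hMne (le_antisymm h hZM)
  have hKH : ⁅K, K⁆ ≤ H := (commutator_sup_scalars H H).trans (Subgroup.commutator_le_self H)
  by_cases hab : ⁅M, M⁆ ≤ Z
  · exact absurd (u_abelian hF hI hn hZM hMK hMn hmin' hfull hMnZ hab) hgood
  rcases nonab_split inferInstance le_sup_left hKH hMK hMn hmin' hfull hab hZM with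
    ⟨P, hPM, hPH, hPfull, hnormH, hcore⟩ | ⟨t, d, N, φA, g, ht, hd, hNM, hNp, hrange, hgK, hcom, hirr2, hperm⟩
  swap
  · exfalso
    refine hgood ?_
    haveI : Nonempty (Fin d) := ⟨⟨0, by omega⟩⟩
    have hclA : ∀ X, st σ 1 (φA X) ∈ Set.range φA := fun X => by
      have h1 := env_closed hB (fun x hx => hsim x (hMK (hNM hx))) (φA X) (hrange ▸ ⟨X, rfl⟩)
      exact hrange.ge h1
    obtain ⟨φ', hr', hG⟩ := normalise_factor hB (sig_ne hF) (by omega) φA hclA
    replace hG := hG inferInstance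
    have hrange' : φ'.range = env N := by
      rw [← hrange]
      exact SetLike.coe_injective hr'
    by_cases hex : q = 2 ∧ d = 3
    · exfalso
      obtain ⟨rfl, rfl⟩ := hex
      refine perfect_factor_false (by omega) hNp φ' (RingHom.injective φ'.toRingHom) hrange' _ (u_factor_solvable hF)
        fun x hx a ha => ?_
      have hxH : x ∈ H := hKH ((Subgroup.commutator_mono (hNM.trans hMK) (hNM.trans hMK)) (hNp hx))
      have h1 : st σ 1 (gu x : Module.End F (Fin n → F)) = ((gu x)⁻¹).val := by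
        rw [sim_mult hB (c := 1) (fun u v => by rw [u_iso hF (hI hxH), one_mul]), map_one, one_smul]
      rw [← ha, hG] at h1
      have h2 : φ' (stG σ ((1 : GL (Fin 3) F) : Matrix (Fin 3) (Fin 3) F) (a : Matrix (Fin 3) (Fin 3) F) *
          (a : Matrix (Fin 3) (Fin 3) F)) = φ' 1 := by
        rw [map_mul, h1, ha, map_one, Units.inv_mul]
      have h3 := RingHom.injective φ'.toRingHom h2
      simp only [stG, Units.val_one, inv_one, one_mul, mul_one] at h3
      rw [gu_iff_matrix hF]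
      have h4 := congrArg (fun Y : Matrix (Fin 3) (Fin 3) F => Y.map σ) h3
      simp only [Matrix.map_mul, Matrix.map_one _ (map_zero σ) (map_one σ)] at h4
      rwa [show ((a : Matrix (Fin 3) (Fin 3) F)ᵀ.map σ).map σ = (a : Matrix (Fin 3) (Fin 3) F)ᵀ from
        Matrix.ext fun i j => sig_invol hF _] at h4
    have hrr : ∀ i, Set.range ((conjHom (gu (g i))).comp φ') = Set.range ((conjHom (gu (g i))).comp φA) := fun i => by
      rw [AlgHom.coe_comp, AlgHom.coe_comp, Set.range_comp, Set.range_comp, hr']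
    refine u_power hF hI (by omega) hd ht hex (fun i => (conjHom (gu (g i))).comp φ') (fun i j hij X Y => ?_) ?_
      (fun k hk => ?_) fun i X => ?_
    · obtain ⟨X', hX⟩ := (hrr i).subset ⟨X, rfl⟩
      obtain ⟨Y', hY⟩ := (hrr j).subset ⟨Y, rfl⟩
      show Commute ((conjHom (gu (g i))).comp φ' X) ((conjHom (gu (g j))).comp φ' Y)
      rw [← hX, ← hY]; exact hcom hij X' Y'
    · rw [Set.iUnion_congr hrr]; exact hirr2
    · obtain ⟨τ, hτ⟩ := hperm k (Subgroup.mem_sup_left hk)
      refine ⟨τ, fun i X => ?_⟩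
      obtain ⟨X', hX⟩ := (hrr i).subset ⟨X, rfl⟩
      rw [hrr, ← hX]
      exact hτ i X'
    · show st _ _ (conjHom (gu (g i)) (φ' X)) = conjHom (gu (g i)) (φ' _)
      rw [st_conj hB (hsim _ (hgK i)), hG]
  have hnsub : ∀ F₀ : Subfield F, F₀ ≠ ⊤ → ¬ RealisableOver F₀ (matrixSet P) := fun F₀ h1 h3 =>
    hgood (u_subfield hF hI (by omega) hPfull (hPH.trans hI) hnormH h1 h3)
  have hfix : ∀ x ∈ P, (x : Matrix (Fin n) (Fin n) F)ᵀ * 1 * (x : Matrix (Fin n) (Fin n) F).map σ = 1 :=
    fun x hx => u_matrix hF (hI (hPH hx))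
  have key : ∀ f : (Fin n → F) → (Fin n → F) → F, IsBilinearForm f → IsNondegenerateForm f →
      (∀ x ∈ P, ∀ u v, f ((x : Matrix (Fin n) (Fin n) F) *ᵥ u) ((x : Matrix (Fin n) (Fin n) F) *ᵥ v) = f u v) → False := by
    intro f hf hnd hfx
    have he := eq_matForm (σ := RingEquiv.refl F) hf.add_left hf.smul_left hf.add_right hf.smul_right
    have hu : IsUnit (gram f).det := isUnit_of_nondeg (σ := RingEquiv.refl F) (by
      rw [show matForm (RingEquiv.refl F) (gram f) = f from funext fun u => funext fun v => (he u v).symm]; exact hnd)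
    refine hnsub _ (fixedBy_ne_top (sig_ne hF)) (realisable_of_two_forms hPfull (sig_ne hF) (sig_invol hF) hu hB.unit
      (fun x hx => ?_) hfix)
    have e := fix_gram (σ := RingEquiv.refl F) (B := gram f) (g := (x : Matrix (Fin n) (Fin n) F))
      fun u v => by rw [← he, ← he]; exact hfx x hx u v
    rwa [show (x : Matrix (Fin n) (Fin n) F).map (RingEquiv.refl F) = (x : Matrix (Fin n) (Fin n) F) by
      ext u v; rfl] at e
  refine ⟨P, hcore hnsub, ?_, ?_⟩
  · rintro ⟨Q, hQ, hQfix⟩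
    refine key _ hQ.polar_bilinear hQ.nondegenerate fun x hx u v => ?_
    simp only [QuadraticMap.polar, ← Matrix.mulVec_add, hQfix _ ⟨x, hx, rfl⟩]
  · rintro ⟨f, hf, hffix⟩
    exact key f hf.bilinear hf.nondegenerate fun x hx u v => hffix _ ⟨x, hx, rfl⟩ u v

end Cfsg.Agent.GeomClasses.AschRel
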