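import Cfsg.Agent.GeomClasses.Aschbacher.Rel.U
import Cfsg.Agent.GeomClasses.Aschbacher.Rel.Subfield
import Cfsg.Agent.GeomClasses.Aschbacher.Rel.Sp

/-! # Subfield groups in unitary groups -/

set_option autoImplicit false
set_option maxHeartbeats 400000

namespace Cfsg.Agent.GeomClasses.AschRel

open Matrix Cfsg.Geo

variable {F : Type*} [Field F] [Fintype F] {n q : ℕ}

theorem subfieldSubgroup_mul_scalar {ι : Type} [Fintype ι] [DecidableEq ι] (F₁ : Subfield F) (P z : GL ι F)
    (hz : z ∈ scalars ι F) : subfieldSubgroup F₁ (P * z) = subfieldSubgroup F₁ P := by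
  have e : (MulAut.conj (P * z)).toMonoidHom = (MulAut.conj P).toMonoidHom := by
    refine MonoidHom.ext fun y => ?_
    show P * z * y * (P * z)⁻¹ = P * y * P⁻¹
    rw [_root_.mul_inv_rev, mul_assoc P z y, scalars_comm hz y]
    group
  rw [subfieldSubgroup, subfieldSubgroup, e]

theorem card_eq_pow_of_le {F₁ F₂ : Subfield F} (h : F₁ ≤ F₂) : ∃ s : ℕ, Nat.card F₂ = Nat.card F₁ ^ s := by
  classical
  letI : Algebra F₁ F₂ := (Subfield.inclusion h).toAlgebra
  haveI : Fintype F₁ := Fintype.ofFinite _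
  haveI : Fintype F₂ := Fintype.ofFinite _
  exact ⟨Module.finrank F₁ F₂, by rw [Nat.card_eq_fintype_card, Nat.card_eq_fintype_card, Module.card_eq_pow_finrank (K := F₁) (V := F₂)]⟩

variable (hF : Fintype.card F = q ^ 2)
include hF

/-- A realisation over a proper subfield gives a subfield class. -/
theorem u_subfield {H X : Subgroup (GL (Fin n) F)} (hI : H ≤ Cfsg.GU n F q) (hn : 2 ≤ n) (hX : Full X)
    (hXI : X ≤ Cfsg.GU n F q) (hnorm : ∀ g ∈ H, ∀ x ∈ X, g * x * g⁻¹ ∈ X) {F₀ : Subfield F} (hF₀ : F₀ ≠ ⊤)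
    (hreal : RealisableOver F₀ (matrixSet X)) : GoodU q H := by
  classical
  haveI : Nonempty (Fin n) := ⟨⟨0, by omega⟩⟩
  obtain ⟨F₁, r, P, hr, hcard, hHle, hent⟩ := subfield_of_realisable hX hnorm hF₀ hreal
  set σ := sig hF with hσdef
  have hσ := sig_ne hF
  have hinv := sig_invol hF
  have hσF : ∀ a ∈ F₁, σ a ∈ F₁ := fun a ha => by rw [hσdef, sig_apply]; exact pow_mem ha q
  have hB := uData (n := n) hF
  obtain ⟨c, B', hc, hB', hB'u, he⟩ := form_rational hX hB.unit (fun x hx => u_matrix hF (hXI hx)) hσF P hent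
  rw [mul_one] at he
  set Pm := (P : Matrix (Fin n) (Fin n) F)
  change Pmᵀ * Pm.map σ = c • B' at he
  have hmm : ∀ Y : Matrix (Fin n) (Fin n) F, (Y.map σ).map σ = Y := fun Y => by
    ext i j; rw [Matrix.map_apply, Matrix.map_apply, hinv]
  have hsmap : ∀ (a : F) (Y : Matrix (Fin n) (Fin n) F), (a • Y).map σ = σ a • Y.map σ := fun a Y => by
    ext i j; simp
  have hherm : B'ᵀ.map σ = (c * (σ c)⁻¹) • B' := by
    have e := congrArg (fun Y : Matrix (Fin n) (Fin n) F => Yᵀ.map σ) he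
    simp only [Matrix.transpose_mul, Matrix.transpose_transpose, Matrix.transpose_smul, Matrix.map_mul, Matrix.transpose_map,
      hsmap, hmm] at e
    rw [he] at e
    have hsc : σ c ≠ 0 := (map_ne_zero σ).mpr hc
    rw [mul_comm c, mul_smul, e, smul_smul, inv_mul_cancel₀ hsc, one_smul, Matrix.transpose_map]
  set ν := c * (σ c)⁻¹ with hν
  have hνν : ν * σ ν = 1 := by
    rw [hν, map_mul, map_inv₀, hinv]
    have := (map_ne_zero σ).mpr hc
    field_simp
  obtain ⟨i₀, j₀, hij⟩ := Full.ne_zero_entry hB'u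
  have hνF : ν ∈ F₁ := by
    have e := congrFun (congrFun hherm i₀) j₀
    rw [Matrix.smul_apply, smul_eq_mul] at e
    have : ν = σ (B' j₀ i₀) / B' i₀ j₀ := by rw [eq_div_iff hij]; exact e.symm
    rw [this]; exact div_mem (hσF _ (hB' _ _)) (hB' _ _)
  rcases hr.eq_two_or_odd' with rfl | hro
  swap
  · -- the conjugation moves the subfield
    haveI := Fintype.ofFinite F₁
    obtain ⟨a, ha, haσ⟩ : ∃ a ∈ F₁, σ a ≠ a := by
      by_contra hh
      push_neg at hh
      obtain ⟨s, hs⟩ := card_eq_pow_of_le (F₁ := F₁) (F₂ := fixedBy σ) hh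
      have h1 := card_fixedBy_sq hσ hinv
      rw [hs, hcard, ← pow_mul] at h1
      have h2 : r = s * 2 := Nat.pow_right_injective (by
        have := Fintype.one_lt_card (α := F₁); rw [Nat.card_eq_fintype_card]; omega) h1
      exact absurd ⟨s, by omega⟩ (Nat.not_even_iff_odd.mpr hro)
    let σ₁ : F₁ ≃+* F₁ :=
      { toFun := fun x => ⟨σ x, hσF _ x.2⟩
        invFun := fun x => ⟨σ x, hσF _ x.2⟩
        left_inv := fun x => Subtype.ext (hinv x)
        right_inv := fun x => Subtype.ext (hinv x)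
        map_mul' := fun x y => Subtype.ext (map_mul σ _ _)
        map_add' := fun x y => Subtype.ext (map_add σ _ _) }
    have hσ₁ : σ₁ ≠ RingEquiv.refl F₁ := fun h => haσ (congrArg Subtype.val (congrArg (fun f : F₁ ≃+* F₁ => f ⟨a, ha⟩) h))
    obtain ⟨t, ht0, ht⟩ := exists_quot hσ₁ (fun x => Subtype.ext (hinv x)) (c := (⟨σ ν, hσF _ hνF⟩ : F₁))
      (Subtype.ext (by show σ ν * σ (σ ν) = 1; rw [hinv, mul_comm, hνν]))
    have ht' : σ (t : F) = σ ν * t := congrArg Subtype.val ht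
    have ht0' : (t : F) ≠ 0 := fun h => ht0 (Subtype.ext h)
    have hc' : σ (c / t) = c / t := by
      rw [map_div₀, ht', hν, map_mul, map_inv₀, hinv]
      have := (map_ne_zero σ).mpr hc
      field_simp
    obtain ⟨x, hx⟩ := exists_norm hσ hinv hc'
    have hx0 : x ≠ 0 := fun h => div_ne_zero hc ht0' (by rw [← hx, h, zero_mul])
    let z : GL (Fin n) F := Units.map (Matrix.scalar (Fin n) : F →+* Matrix (Fin n) (Fin n) F).toMonoidHom
      (Units.mk0 x⁻¹ (inv_ne_zero hx0))
    have hz : (z : Matrix (Fin n) (Fin n) F) = x⁻¹ • 1 := (Matrix.smul_one_eq_diagonal _).symm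
    have hzs : z ∈ scalars (Fin n) F := ⟨_, rfl⟩
    refine ⟨subfieldSubgroup F₁ (P * z) ⊓ Cfsg.GU n F q, u_partial_of ?_,
      le_inf (by rw [subfieldSubgroup_mul_scalar F₁ P z hzs]; exact hHle) hI⟩
    iterate 4 right
    left
    refine ⟨F₁, r, P * z, hr, hro, hcard, fun u v hu hv => ?_, rfl⟩
    rw [one_mul, herm_eq hF, Units.val_mul, hz, Matrix.mul_smul, mul_one, matForm_apply, mul_one, hsmap,
      Matrix.transpose_smul, Matrix.smul_mul, Matrix.mul_smul, smul_smul, he, smul_smul]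
    rw [show x⁻¹ * σ x⁻¹ * c = (t : F) by
      rw [map_inv₀, ← _root_.mul_inv_rev, mul_comm (σ x), hx]; field_simp]
    show u ⬝ᵥ ((t : F) • B') *ᵥ (fun i => σ (v i)) ∈ F₁
    simp only [dotProduct, Matrix.mulVec, Finset.mul_sum, Matrix.smul_apply, smul_eq_mul]
    exact Subfield.sum_mem _ fun i _ => Subfield.sum_mem _ fun j _ =>
      mul_mem (hu i) (mul_mem (mul_mem t.2 (hB' i j)) (hσF _ (hv j)))
  -- the index two case
  haveI := Fintype.ofFinite F₁
  have hqc : Fintype.card F₁ = q := by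
    rw [← Nat.card_eq_fintype_card]
    exact Nat.pow_left_injective two_ne_zero (hcard.symm.trans hF)
  have hfix : ∀ a ∈ F₁, σ a = a := fun a ha => by
    rw [hσdef, sig_apply, ← hqc]
    exact congrArg Subtype.val (FiniteField.pow_card (⟨a, ha⟩ : F₁))
  have hB'σ : B'.map σ = B' := Matrix.ext fun i j => hfix _ (hB' i j)
  have hB't : B'ᵀ = ν • B' := by
    rw [← hherm]; exact Matrix.ext fun i j => (hfix _ (hB' j i)).symm
  set Pi' := (P⁻¹ : GL (Fin n) F).val
  let Bu : GL (Fin n) F := ((Matrix.isUnit_iff_isUnit_det _).mpr hB'u).unit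
  let Pt : GL (Fin n) F := ⟨Pi'ᵀ, Pmᵀ, by rw [← Matrix.transpose_mul]; simp [Pi', Pm],
    by rw [← Matrix.transpose_mul]; simp [Pi', Pm]⟩
  let S : GL (Fin n) F := Pt * Bu * P⁻¹
  have hSm : (S : Matrix (Fin n) (Fin n) F) = Pi'ᵀ * B' * Pi' := rfl
  set Sm := (S : Matrix (Fin n) (Fin n) F)
  set C := (S⁻¹ : GL (Fin n) F).val
  have hSu : IsUnit Sm.det := (Matrix.isUnit_iff_isUnit_det _).mp S.isUnit
  have hxS : ∀ x ∈ X, (x : Matrix (Fin n) (Fin n) F)ᵀ * Sm * (x : Matrix (Fin n) (Fin n) F) = Sm := by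
    intro x hx
    set y := Pi' * (x : Matrix (Fin n) (Fin n) F) * Pm
    have hy : ∀ i j, y i j ∈ F₁ := hent x hx
    have hyσ : y.map σ = y := Matrix.ext fun i j => hfix _ (hy i j)
    have e : yᵀ * B' * y = B' := by
      have h1 : yᵀ * (Pmᵀ * Pm.map σ) * y.map σ = Pmᵀ * Pm.map σ := by
        have hxx := u_matrix hF (hXI hx)
        rw [mul_one] at hxx
        have hPy : Pm * y = (x : Matrix (Fin n) (Fin n) F) * Pm := by simp [y, Pi', Pm, ← mul_assoc]
        calc _ = (Pm * y)ᵀ * (Pm * y).map σ := by simp only [Matrix.transpose_mul, Matrix.map_mul, mul_assoc]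
          _ = Pmᵀ * ((x : Matrix (Fin n) (Fin n) F)ᵀ * (x : Matrix (Fin n) (Fin n) F).map σ) * Pm.map σ := by
            rw [hPy]; simp only [Matrix.transpose_mul, Matrix.map_mul, mul_assoc]
          _ = _ := by rw [hxx, mul_one]
      rw [he, hyσ, Matrix.mul_smul, Matrix.smul_mul] at h1
      have h2 := congrArg (c⁻¹ • ·) h1
      simpa [smul_smul, inv_mul_cancel₀ hc] using h2
    have hx' : (x : Matrix (Fin n) (Fin n) F) = Pm * y * Pi' := by simp [y, Pi', Pm, ← mul_assoc]
    calc _ = Pi'ᵀ * (yᵀ * ((Pi' * Pm)ᵀ * B' * (Pi' * Pm)) * y) * Pi' := by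
          rw [hSm, hx']; simp only [Matrix.transpose_mul, mul_assoc]
      _ = _ := by rw [show Pi' * Pm = 1 by simp [Pi', Pm], Matrix.transpose_one, one_mul, mul_one, e, hSm]
  have hν1 : ν = 1 ∨ ν = -1 := by
    refine mul_self_eq_one_iff.mp ?_
    have e := congrArg Matrix.transpose hB't
    rw [Matrix.transpose_transpose, Matrix.transpose_smul, hB't, smul_smul] at e
    have e2 := congrFun (congrFun e i₀) j₀
    rw [Matrix.smul_apply, smul_eq_mul] at e2
    exact mul_right_cancel₀ hij (by rw [one_mul]; exact e2.symm)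
  have hSt : Smᵀ = ν • Sm := by
    rw [hSm]; simp only [Matrix.transpose_mul, Matrix.transpose_transpose, hB't, Matrix.mul_smul, Matrix.smul_mul, mul_assoc]
  have hxσ : ∀ x ∈ X, (x : Matrix (Fin n) (Fin n) F).map σ = Sm * (x : Matrix (Fin n) (Fin n) F) * C := by
    intro x hx
    have hxx := u_matrix hF (hXI hx)
    rw [mul_one] at hxx
    have h1 : (x : Matrix (Fin n) (Fin n) F).map σ * (x : Matrix (Fin n) (Fin n) F)ᵀ = 1 := mul_eq_one_comm.mp hxx
    have h2 := congrArg ((x : Matrix (Fin n) (Fin n) F).map σ * · * C) (hxS x hx)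
    simp only [← mul_assoc] at h2
    rw [h1, one_mul] at h2
    rw [h2, mul_assoc _ Sm C, show Sm * C = 1 by simp [Sm, C], mul_one]
  refine u_twist_form hF hI (by omega) S ?_ (fun g hg => ?_) ?_
  · by_cases hq : Odd q
    · rcases hν1 with h | h
      · exact Or.inl ⟨hSt.trans (by rw [h, one_smul]), hq⟩
      · refine Or.inr ⟨hSt.trans (by rw [h, neg_one_smul]), fun i => ?_⟩
        have e := congrFun (congrFun hSt i) i
        rw [Matrix.transpose_apply, Matrix.smul_apply, h, smul_eq_mul] at e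
        have h2 : (2 : F) ≠ 0 := two_ne_of_odd (by rw [hF]; exact hq.pow)
        exact (mul_eq_zero.mp (show (2 : F) * Sm i i = 0 by linear_combination e)).resolve_left h2
    have hFe : ¬ Odd (Fintype.card F) := by
      rw [hF]; exact Nat.not_odd_iff_even.mpr ((Nat.not_odd_iff_even.mp hq).pow_of_ne_zero two_ne_zero)
    have h20 := char_two_of_even hFe
    have hsk : Smᵀ = -Sm := by
      rcases hν1 with h | h
      · rw [hSt, h, one_smul]; ext i j; rw [Matrix.neg_apply]; linear_combination (Sm i j) * h20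
      · rw [hSt, h, neg_one_smul]
    refine Or.inr ⟨hsk, ?_⟩
    let W : Submodule F (Fin n → F) :=
      { carrier := {w | w ⬝ᵥ (Sm *ᵥ w) = 0}
        zero_mem' := by simp
        add_mem' := fun {u w} hu hw => by
          show (u + w) ⬝ᵥ (Sm *ᵥ (u + w)) = 0
          replace hu : u ⬝ᵥ (Sm *ᵥ u) = 0 := hu
          replace hw : w ⬝ᵥ (Sm *ᵥ w) = 0 := hw
          have hs : u ⬝ᵥ (Sm *ᵥ w) = -(w ⬝ᵥ (Sm *ᵥ u)) := by
            rw [Matrix.dotProduct_mulVec u, dotProduct_comm, ← Matrix.mulVec_transpose, hsk, Matrix.neg_mulVec, dotProduct_neg]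
          rw [Matrix.mulVec_add, add_dotProduct, dotProduct_add, dotProduct_add, hu, hw, hs]
          ring
        smul_mem' := fun a w hw => by
          show (a • w) ⬝ᵥ (Sm *ᵥ (a • w)) = 0
          rw [Matrix.mulVec_smul, smul_dotProduct, dotProduct_smul, show w ⬝ᵥ (Sm *ᵥ w) = 0 from hw, smul_zero, smul_zero] }
    have hWinv : ∀ s ∈ matrixSet X, W.map (Matrix.toLin' s) ≤ W := by
      rintro _ ⟨x, hx, rfl⟩ _ ⟨w, hw, rfl⟩
      show _ ⬝ᵥ (Sm *ᵥ _) = 0
      have := matForm_apply (RingEquiv.refl F) Sm (x : Matrix (Fin n) (Fin n) F) w w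
      simp only [matForm, RingEquiv.refl_apply] at this
      rw [show (x : Matrix (Fin n) (Fin n) F).map (RingEquiv.refl F) = (x : Matrix (Fin n) (Fin n) F) from
        Matrix.ext fun i j => rfl, hxS x hx] at this
      rw [Matrix.toLin'_apply, this]
      exact hw
    have hWt : W = ⊤ := by
      refine (hX.absIrred.1 W hWinv).resolve_left fun hbot => ?_
      let u₁ : Fin n → F := Pi.single ⟨0, by omega⟩ 1
      let u₂ : Fin n → F := Pi.single ⟨1, by omega⟩ 1
      have hne : u₁ ⬝ᵥ (Sm *ᵥ u₁) ≠ 0 := fun h0 => by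
        have : u₁ ∈ W := h0
        rw [hbot, Submodule.mem_bot] at this
        simp [u₁] at this
      have hc2 : ringChar F = 2 := by
        haveI : CharP F 2 := (CharP.charP_iff_prime_eq_zero Nat.prime_two).mpr (by exact_mod_cast h20)
        exact ringChar.eq F 2
      obtain ⟨s, hs⟩ := FiniteField.isSquare_of_char_two hc2 ((u₂ ⬝ᵥ (Sm *ᵥ u₂)) / (u₁ ⬝ᵥ (Sm *ᵥ u₁)))
      have hmem : s • u₁ + u₂ ∈ W := by
        show _ ⬝ᵥ (Sm *ᵥ _) = 0
        have hsw : u₁ ⬝ᵥ (Sm *ᵥ u₂) = -(u₂ ⬝ᵥ (Sm *ᵥ u₁)) := by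
          rw [Matrix.dotProduct_mulVec u₁, dotProduct_comm, ← Matrix.mulVec_transpose, hsk, Matrix.neg_mulVec, dotProduct_neg]
        rw [div_eq_iff hne] at hs
        simp only [Matrix.mulVec_add, Matrix.mulVec_smul, add_dotProduct, dotProduct_add, smul_dotProduct, dotProduct_smul,
          smul_eq_mul, hsw]
        linear_combination (u₂ ⬝ᵥ (Sm *ᵥ u₂)) * h20 - hs
      rw [hbot, Submodule.mem_bot] at hmem
      have := congrFun hmem ⟨1, by omega⟩
      simp [u₁, u₂] at this
    intro i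
    have h0 : Pi.single i (1 : F) ∈ W := hWt ▸ trivial
    have : Pi.single i (1 : F) ⬝ᵥ (Sm *ᵥ Pi.single i 1) = 0 := h0
    simpa using this
  · set gm := (g : Matrix (Fin n) (Fin n) F)
    have hrefl : ∀ Y : Matrix (Fin n) (Fin n) F, Y.map (RingEquiv.refl F) = Y := fun Y => Matrix.ext fun i j => rfl
    obtain ⟨μ, hμ⟩ := similar_of_normalises hX (RingEquiv.refl F) hSu (fun x hx => by rw [hrefl]; exact hxS x hx)
      (C := gmᵀ * Sm * gm) fun x hx => by
        rw [hrefl]
        have hgx : gm * (x : Matrix (Fin n) (Fin n) F) = ((g * x * g⁻¹ : GL (Fin n) F) : Matrix (Fin n) (Fin n) F) * gm := by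
          rw [← Units.val_mul, ← Units.val_mul, inv_mul_cancel_right]
        calc _ = (gm * (x : Matrix (Fin n) (Fin n) F))ᵀ * Sm * (gm * (x : Matrix (Fin n) (Fin n) F)) := by
              simp only [Matrix.transpose_mul, mul_assoc]
          _ = gmᵀ * (((g * x * g⁻¹ : GL (Fin n) F) : Matrix (Fin n) (Fin n) F)ᵀ * Sm *
              ((g * x * g⁻¹ : GL (Fin n) F) : Matrix (Fin n) (Fin n) F)) * gm := by
              rw [hgx]; simp only [Matrix.transpose_mul, mul_assoc]
          _ = _ := by rw [hxS _ (hnorm g hg x hx)]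
    refine ⟨μ, fun h0 => ?_, hμ⟩
    have hgu : IsUnit gm.det := (Matrix.isUnit_iff_isUnit_det _).mp g.isUnit
    have : IsUnit (gmᵀ * Sm * gm).det := by
      rw [Matrix.det_mul, Matrix.det_mul, Matrix.det_transpose]; exact (hgu.mul hSu).mul hgu
    rw [hμ, h0, zero_smul, Matrix.det_zero] at this
    exact this.ne_zero rfl
  · refine hX.comm_scalar fun x hx => ?_
    have e := congrArg (fun Y : Matrix (Fin n) (Fin n) F => C * C.map σ * Y.map σ) (hxσ x hx)
    simp only [hmm, Matrix.map_mul] at e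
    have h1 : C.map σ * Sm.map σ = 1 := by
      rw [← Matrix.map_mul, show C * Sm = 1 by simp [Sm, C], Matrix.map_one _ (map_zero σ) (map_one σ)]
    rw [hxσ x hx] at e
    rw [e]
    simp only [← mul_assoc]
    rw [mul_assoc C, h1, mul_one, show C * Sm = 1 by simp [Sm, C], one_mul]

end Cfsg.Agent.GeomClasses.AschRel
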